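import Cfsg.Agent.H76.Bij

/-!
# Class functions over an invariant character; the weight function for a normal `p`-section
-/

set_option autoImplicit false
set_option linter.unusedSectionVars false

namespace Cfsg.Agent.H76

open scoped ComplexConjugate
open Cfsg Cfsg.Agent.CharBase Cfsg.Agent.Char

section typ

variable {G : Type*} [Group G] [Fintype G]

/-- `F` has only constituents over `θ` -/
def Typ (N : Subgroup G) [Fintype N] (θ : N → ℂ) (F : G → ℂ) : Prop :=
  ∀ χ : IrrCharacter G, classInner (fun n : N => (χ : G → ℂ) n) θ = 0 →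
    classInner F (χ : G → ℂ) = 0

/-- nonnegative multiplicities on `H` -/
def Nn (H : Subgroup G) [Fintype H] (F : G → ℂ) : Prop :=
  ∀ α : IrrCharacter H, ∃ r : ℝ, 0 ≤ r ∧ classInner (fun h : H => F h) (α : H → ℂ) = r

theorem classInner_restrict_sum [Fintype (IrrCharacter G)] {F : G → ℂ} (hF : IsClassFunction G F)
    (S : Subgroup G) [Fintype S] (η : S → ℂ) :
    classInner (fun s : S => F s) η = ∑ χ : IrrCharacter G, classInner F (χ : G → ℂ) *
      classInner (fun s : S => (χ : G → ℂ) s) η := by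
  have h1 : (fun s : S => F s) = ∑ χ : IrrCharacter G, classInner F (χ : G → ℂ) •
      (fun s : S => (χ : G → ℂ) s) := by
    funext s
    have := congrFun (classFun_eq_sum hF) s
    rw [this, Finset.sum_apply, Finset.sum_apply]
    rfl
  rw [h1, classInner_sum_left]
  exact Finset.sum_congr rfl fun χ _ => classInner_smul_left _ _ _

theorem typ_constituent {N : Subgroup G} [Fintype N] [hN : N.Normal] {θ : N → ℂ}
    (hθ : IsIrrCharacter N θ) (hinv : ∀ g : G, cj N g θ = θ) {F : G → ℂ}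
    (hF : IsClassFunction G F) (hT : Typ N θ F) {S : Subgroup G} [Fintype S] (hNS : N ≤ S)
    {η : S → ℂ} (hη : IsIrrCharacter S η) (h : classInner (fun s : S => F s) η ≠ 0) :
    ∃ f : ℕ, f ≠ 0 ∧ ∀ z : N, η ⟨z, hNS z.2⟩ = (f : ℂ) * θ z := by
  classical
  have : Fintype (IrrCharacter G) := Fintype.ofFinite _
  rw [classInner_restrict_sum hF] at h
  obtain ⟨χ, -, hχ⟩ := Finset.exists_ne_zero_of_sum_ne_zero h
  have h1 : classInner (fun n : N => (χ : G → ℂ) n) θ ≠ 0 := fun h0 =>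
    left_ne_zero_of_mul hχ (hT χ h0)
  obtain ⟨e, he0, he⟩ := over_mult χ.2 hθ hinv h1
  exact restrict_of_constituent χ.2 hθ he hNS hη (right_ne_zero_of_mul hχ)

end typ

section weight

variable {G : Type*} [Group G]

/-- number of `n ∈ M` commuting with `x` modulo `K` -/
noncomputable def cK (K M : Subgroup G) (x : G) : ℕ :=
  Nat.card {n : M // (n : G) * x * (n : G)⁻¹ * x⁻¹ ∈ K}

/-- number of `n ∈ M` conjugating `x` into `H` -/
noncomputable def cH (H M : Subgroup G) (x : G) : ℕ :=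
  Nat.card {n : M // (n : G) * x * (n : G)⁻¹ ∈ H}

theorem cH_conj (H M : Subgroup G) (x : G) (m : M) :
    cH H M ((m : G) * x * (m : G)⁻¹) = cH H M x := by
  refine Nat.card_congr ⟨fun n => ⟨n.1 * m, ?_⟩, fun n => ⟨n.1 * m⁻¹, ?_⟩, fun n => ?_, fun n => ?_⟩
  · have := n.2
    have h2 : ((n.1 * m : M) : G) * x * ((n.1 * m : M) : G)⁻¹ =
        (n.1 : G) * ((m : G) * x * (m : G)⁻¹) * (n.1 : G)⁻¹ := by
      push_cast; group
    rw [h2]; exact this
  · have := n.2
    have h2 : ((n.1 * m⁻¹ : M) : G) * ((m : G) * x * (m : G)⁻¹) * ((n.1 * m⁻¹ : M) : G)⁻¹ =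
        (n.1 : G) * x * (n.1 : G)⁻¹ := by
      push_cast; group
    rw [h2]; exact this
  · apply Subtype.ext; simp
  · apply Subtype.ext; simp

theorem cK_conj (K M : Subgroup G) [hK : K.Normal] [hM : M.Normal] (x g : G) :
    cK K M (g * x * g⁻¹) = cK K M x := by
  refine Nat.card_congr ⟨fun n => ⟨⟨g⁻¹ * n.1 * g, by simpa using hM.conj_mem _ n.1.2 g⁻¹⟩, ?_⟩,
    fun n => ⟨⟨g * n.1 * g⁻¹, hM.conj_mem _ n.1.2 g⟩, ?_⟩, fun n => ?_, fun n => ?_⟩
  · have := hK.conj_mem _ n.2 g⁻¹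
    convert this using 1
    simp only
    group
  · have := hK.conj_mem _ n.2 g
    convert this using 1
    simp only
    group
  · apply Subtype.ext; apply Subtype.ext; simp only; group
  · apply Subtype.ext; apply Subtype.ext; simp only; group

open Classical in
/-- the weight -/
noncomputable def wt (K H M : Subgroup G) (x : G) : ℕ :=
  if ∃ g : G, g * x * g⁻¹ ∈ H then cK K M x else 0

theorem wt_conj (K H M : Subgroup G) [hK : K.Normal] [hM : M.Normal] (x g : G) :
    wt K H M (g * x * g⁻¹) = wt K H M x := by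
  unfold wt
  rw [cK_conj]
  congr 1
  apply propext
  constructor
  · rintro ⟨a, ha⟩
    refine ⟨a * g, ?_⟩
    convert ha using 1; group
  · rintro ⟨a, ha⟩
    refine ⟨a * g⁻¹, ?_⟩
    convert ha using 1; group

theorem cH_eq_wt {K H M L : Subgroup G} [hK : K.Normal] [hM : M.Normal] (hHM : H ⊓ M = K)
    (hconj : ∀ x ∈ L, (∃ g : G, g * x * g⁻¹ ∈ H) → ∃ n ∈ M, n * x * n⁻¹ ∈ H) {x : G}
    (hx : x ∈ L) : cH H M x = wt K H M x := by
  classical
  unfold wt
  split_ifs with h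
  · obtain ⟨m, hm, hmx⟩ := hconj x hx h
    rw [← cH_conj H M x ⟨m, hm⟩, ← cK_conj K M x m]
    refine Nat.card_congr (Equiv.subtypeEquivRight fun n => ?_)
    constructor
    · intro h1
      rw [← hHM]
      refine ⟨H.mul_mem h1 (H.inv_mem hmx), ?_⟩
      rw [mul_assoc, mul_assoc, ← mul_assoc (m * x * m⁻¹)]
      exact M.mul_mem n.2 (hM.conj_mem _ (M.inv_mem n.2) _)
    · intro h1
      rw [← hHM] at h1
      have h2 := H.mul_mem h1.1 hmx
      rwa [inv_mul_cancel_right] at h2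
  · unfold cH
    have : IsEmpty {n : M // (n : G) * x * (n : G)⁻¹ ∈ H} := ⟨fun n => h ⟨_, n.2⟩⟩
    exact Nat.card_of_isEmpty

theorem sum_wt [Fintype G] {K H M L : Subgroup G} [hK : K.Normal] [hM : M.Normal]
    [Fintype H] [Fintype L] (hHM : H ⊓ M = K) (hHL : H ≤ L) (hML : M ≤ L)
    (hconj : ∀ x ∈ L, (∃ g : G, g * x * g⁻¹ ∈ H) → ∃ n ∈ M, n * x * n⁻¹ ∈ H)
    {f : L → ℂ} (hf : IsClassFunction L f) :
    ∑ x : L, f x * (wt K H M x : ℂ) = (Nat.card M : ℂ) * ∑ h : H, f ⟨h, hHL h.2⟩ := by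
  classical
  have : Fintype M := Fintype.ofFinite _
  have h1 : ∀ x : L, (wt K H M x : ℂ) = ∑ n : M, if (n : G) * x * (n : G)⁻¹ ∈ H then 1 else 0 := by
    intro x
    rw [← cH_eq_wt hHM hconj x.2, Finset.sum_boole, cH, Nat.card_eq_fintype_card,
      Fintype.card_subtype]
  have h2 : ∀ n : M, ∑ x : L, f x * (if (n : G) * x * (n : G)⁻¹ ∈ H then (1 : ℂ) else 0) =
      ∑ h : H, f ⟨h, hHL h.2⟩ := by
    intro n
    have h5 : ∑ y : L, (if (y : G) ∈ H then f y else 0) = ∑ h : H, f ⟨h, hHL h.2⟩ := by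
      rw [sum_sub_of_vanish hHL (fun y : L => if (y : G) ∈ H then f y else 0)
        (fun q hq => if_neg hq)]
      exact Finset.sum_congr rfl fun h _ => if_pos h.2
    rw [← h5, ← Equiv.sum_comp (MulAut.conj (⟨n, hML n.2⟩ : L)).toEquiv
      (fun y : L => if (y : G) ∈ H then f y else 0)]
    refine Finset.sum_congr rfl fun x _ => ?_
    have h3 : ((MulAut.conj (⟨n, hML n.2⟩ : L)).toEquiv x : L) =
        ⟨n, hML n.2⟩ * x * (⟨n, hML n.2⟩ : L)⁻¹ := rfl
    have h4 : (((MulAut.conj (⟨n, hML n.2⟩ : L)).toEquiv x : L) : G) =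
        (n : G) * x * (n : G)⁻¹ := rfl
    rw [h4, mul_ite, mul_one, mul_zero]
    congr 1
    rw [h3]
    exact (hf x ⟨n, hML n.2⟩).symm
  calc ∑ x : L, f x * (wt K H M x : ℂ)
      = ∑ x : L, ∑ n : M, f x * (if (n : G) * x * (n : G)⁻¹ ∈ H then (1 : ℂ) else 0) := by
        refine Finset.sum_congr rfl fun x _ => ?_
        rw [h1, Finset.mul_sum]
    _ = ∑ n : M, ∑ h : H, f ⟨h, hHL h.2⟩ := by
        rw [Finset.sum_comm]
        exact Finset.sum_congr rfl fun n _ => h2 n
    _ = _ := by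
        rw [Finset.sum_const, Finset.card_univ, nsmul_eq_mul, Nat.card_eq_fintype_card]

end weight

end Cfsg.Agent.H76
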