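import Cfsg.Agent.H76.ConeA
import Cfsg.Agent.H76.PInvariant

/-!
# Lifting class functions across a normal `p`-section
-/

set_option autoImplicit false
set_option linter.unusedSectionVars false

namespace Cfsg.Agent.H76

open scoped ComplexConjugate
open Cfsg Cfsg.Agent.CharBase Cfsg.Agent.Char

section lift

variable {G : Type*} [Group G] [Fintype G]

theorem classInner_sum_irr [Fintype (IrrCharacter G)] (c : IrrCharacter G → ℂ) (ψ : IrrCharacter G) :
    classInner (∑ χ : IrrCharacter G, c χ • (χ : G → ℂ)) (ψ : G → ℂ) = c ψ := by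
  classical
  rw [classInner_sum_left, Finset.sum_eq_single ψ]
  · rw [classInner_smul_left, classInner_irr_self, mul_one]
  · intro χ _ hne
    rw [classInner_smul_left, classInner_irr_of_ne hne, mul_zero]
  · intro h; exact absurd (Finset.mem_univ _) h

variable {H M L : Subgroup G} [Fintype H] [Fintype M] [Fintype L] [hKn : (H ⊓ M : Subgroup G).Normal]
  [hMn : M.Normal] {θ : M → ℂ}

theorem card_mul_card_of_sup (hsup : H ⊔ M = L) :
    (Nat.card M : ℂ) * Nat.card H = (Nat.card L : ℂ) * Nat.card (H ⊓ M : Subgroup G) := by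
  have hHL : H ≤ L := hsup ▸ le_sup_left
  have hML : M ≤ L := hsup ▸ le_sup_right
  have h1 : M.relIndex L = M.relIndex H := by rw [← hsup, Subgroup.relIndex_sup_right]
  have h2 : (H ⊓ M).relIndex H = M.relIndex H := Subgroup.inf_relIndex_left H M
  have h3 : Nat.card M * M.relIndex L = Nat.card L := by
    rw [← Subgroup.relIndex_bot_left, Subgroup.relIndex_mul_relIndex _ _ _ bot_le hML,
      Subgroup.relIndex_bot_left]
  have h4 : Nat.card (H ⊓ M : Subgroup G) * (H ⊓ M).relIndex H = Nat.card H := by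
    rw [← Subgroup.relIndex_bot_left, Subgroup.relIndex_mul_relIndex _ _ _ bot_le inf_le_left,
      Subgroup.relIndex_bot_left]
  have : Nat.card M * Nat.card H = Nat.card L * Nat.card (H ⊓ M : Subgroup G) := by
    rw [← h3, ← h4, h1, h2]; ring
  exact_mod_cast this

/-- the weighted function -/
noncomputable def Fc (H M : Subgroup G) (F : G → ℂ) (x : G) : ℂ :=
  F x * (wt (H ⊓ M) H M x : ℂ) * (Nat.card (H ⊓ M : Subgroup G) : ℂ)⁻¹

theorem Fc_class {F : G → ℂ} (hF : IsClassFunction G F) : IsClassFunction G (Fc H M F) := by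
  intro g h
  unfold Fc
  rw [hF g h, wt_conj]

variable (hHL : H ≤ L) (hML : M ≤ L) (hsup : H ⊔ M = L) (hθ : IsIrrCharacter M θ)
  (hθK : IsIrrCharacter (H ⊓ M : Subgroup G) (rInf H M θ)) (hinv : ∀ g : G, cj M g θ = θ)
  (hconj : ∀ x ∈ L, (∃ g : G, g * x * g⁻¹ ∈ H) → ∃ n ∈ M, n * x * n⁻¹ ∈ H)

include hML hsup hconj in
theorem Fc_inner {F : G → ℂ} (hF : IsClassFunction G F) {β : L → ℂ} (hβ : IsClassFunction L β) :
    classInner (fun x : L => Fc H M F x) β =
      classInner (fun h : H => F h) (fun h : H => β ⟨h, hHL h.2⟩) := by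
  unfold classInner Fc
  have h1 := sum_wt (K := H ⊓ M) (f := fun x : L => F x * conj (β x)) rfl hHL hML hconj
    (fun a b => by
      have h2 := hβ a b
      have h3 := hF (a : G) (b : G)
      simp only
      rw [h2]
      push_cast
      rw [h3])
  have h2 : ∑ x : L, F x * (wt (H ⊓ M) H M x : ℂ) * (Nat.card (H ⊓ M : Subgroup G) : ℂ)⁻¹ *
      conj (β x) = (Nat.card (H ⊓ M : Subgroup G) : ℂ)⁻¹ *
        ∑ x : L, F x * conj (β x) * (wt (H ⊓ M) H M x : ℂ) := by
    rw [Finset.mul_sum]
    exact Finset.sum_congr rfl fun x _ => by ring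
  rw [h2, h1]
  have h3 := card_mul_card_of_sup (H := H) (M := M) hsup
  have hL : (Nat.card L : ℂ) ≠ 0 := by exact_mod_cast Nat.card_pos.ne'
  have hH : (Nat.card H : ℂ) ≠ 0 := by exact_mod_cast Nat.card_pos.ne'
  have hK : (Nat.card (H ⊓ M : Subgroup G) : ℂ) ≠ 0 := by exact_mod_cast Nat.card_pos.ne'
  rw [← mul_assoc, ← mul_assoc]
  congr 1
  field_simp
  linear_combination h3

open Classical in
/-- projection onto the characters over `θ` -/
noncomputable def proj [Fintype (IrrCharacter G)] (M : Subgroup G) [Fintype M] (θ : M → ℂ)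
    (F : G → ℂ) : G → ℂ :=
  ∑ χ : IrrCharacter G, (if classInner (fun n : M => (χ : G → ℂ) n) θ = 0 then 0
    else classInner F (χ : G → ℂ)) • (χ : G → ℂ)

theorem proj_class [Fintype (IrrCharacter G)] (F : G → ℂ) : IsClassFunction G (proj M θ F) := by
  apply isClassFunction_sum
  intro χ _
  exact isClassFunction_smul _ (irr_isClassFunction χ)

theorem proj_typ [Fintype (IrrCharacter G)] (F : G → ℂ) : Typ M θ (proj M θ F) := by
  classical
  intro χ hχ
  unfold proj
  rw [classInner_sum_irr, if_pos hχ]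

include hθ hinv in
theorem proj_inner [Fintype (IrrCharacter G)] {F : G → ℂ} (hF : IsClassFunction G F) (hML : M ≤ L)
    {β : L → ℂ} (hβ : IsIrrCharacter L β) {e : ℕ} (he0 : e ≠ 0)
    (he : ∀ m : M, β ⟨m, hML m.2⟩ = (e : ℂ) * θ m) :
    classInner (fun x : L => proj M θ F x) β = classInner (fun x : L => F x) β := by
  classical
  rw [classInner_restrict_sum hF, classInner_restrict_sum (proj_class F)]
  refine Finset.sum_congr rfl fun χ _ => ?_
  unfold proj
  rw [classInner_sum_irr]
  split_ifs with h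
  · have h1 : classInner (fun x : L => (χ : G → ℂ) x) β = 0 := by
      by_contra hne
      have h2 : classInner (fun m : M => β ⟨m, hML m.2⟩) θ ≠ 0 := by
        have h3 : (fun m : M => β ⟨m, hML m.2⟩) = (e : ℂ) • θ := by funext m; rw [he]; rfl
        rw [h3, classInner_smul_left, classInner_irr_self ⟨θ, hθ⟩, mul_one]
        exact_mod_cast he0
      exact classInner_restrict_ne_zero_of_stages hML (isCharacter_of_isIrr χ.2) hβ
        hne hθ h2 h
    rw [h1, mul_zero, mul_zero]
  · rfl

theorem rInf_inv (hinv : ∀ g : G, cj M g θ = θ) (g : G) :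
    cj (H ⊓ M : Subgroup G) g (rInf H M θ) = rInf H M θ := by
  funext z
  exact congrFun (hinv g) ⟨z, z.2.2⟩

include hHL hML hsup hθ hθK hinv hconj in
/-- **Lifting lemma.** -/
theorem lift_exists [Fintype (H ⊓ M : Subgroup G)] {F : G → ℂ} (hF : IsClassFunction G F)
    (hT : Typ (H ⊓ M) (rInf H M θ) F) (hn : Nn H F) :
    ∃ F' : G → ℂ, IsClassFunction G F' ∧ Typ M θ F' ∧ (∀ h ∈ H, F' h = F h) ∧ Nn L F' := by
  classical
  have : Fintype (IrrCharacter G) := Fintype.ofFinite _
  have : Fintype (IrrCharacter H) := Fintype.ofFinite _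
  have : Fintype (IrrCharacter L) := Fintype.ofFinite _
  have hKH : H ⊓ M ≤ H := inf_le_left
  -- inner products on `L`
  have key : ∀ β : IrrCharacter L, classInner (fun x : L => proj M θ (Fc H M F) x) (β : L → ℂ) ≠ 0 →
      ∃ e : ℕ, e ≠ 0 ∧ ∀ m : M, (β : L → ℂ) ⟨m, hML m.2⟩ = (e : ℂ) * θ m := by
    intro β hβ
    exact typ_constituent hθ hinv (proj_class _) (proj_typ _) hML β.2 hβ
  have key2 : ∀ β : IrrCharacter L, (∃ e : ℕ, e ≠ 0 ∧ ∀ m : M, (β : L → ℂ) ⟨m, hML m.2⟩ =
      (e : ℂ) * θ m) → classInner (fun x : L => proj M θ (Fc H M F) x) (β : L → ℂ) =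
      classInner (fun h : H => F h) (fun h : H => (β : L → ℂ) ⟨h, hHL h.2⟩) := by
    rintro β ⟨e, he0, he⟩
    rw [proj_inner hθ hinv (Fc_class hF) hML β.2 he0 he]
    exact Fc_inner hHL hML hsup hconj hF (irr_isClassFunction β)
  refine ⟨proj M θ (Fc H M F), proj_class _, proj_typ _, ?_, ?_⟩
  · intro x hx
    -- expand both sides
    have hL : proj M θ (Fc H M F) x = ∑ β : IrrCharacter L,
        classInner (fun x : L => proj M θ (Fc H M F) x) (β : L → ℂ) * (β : L → ℂ) ⟨x, hHL hx⟩ := by
      have h1 := classFun_eq_sum (G := L) (f := fun x : L => proj M θ (Fc H M F) x)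
        (fun a b => by
          have := proj_class (M := M) (θ := θ) (Fc H M F) (a : G) (b : G)
          simpa using this)
      have h2 := congrFun h1 ⟨x, hHL hx⟩
      simp only [Finset.sum_apply, Pi.smul_apply, smul_eq_mul] at h2
      exact h2
    have hH : F x = ∑ α : IrrCharacter H,
        classInner (fun h : H => F h) (α : H → ℂ) * (α : H → ℂ) ⟨x, hx⟩ := by
      have h1 := classFun_eq_sum (G := H) (f := fun x : H => F x)
        (fun a b => by
          have := hF (a : G) (b : G)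
          simpa using this)
      have h2 := congrFun h1 ⟨x, hx⟩
      simp only [Finset.sum_apply, Pi.smul_apply, smul_eq_mul] at h2
      exact h2
    rw [hL, hH]
    -- the bijection
    let r : IrrCharacter L → IrrCharacter H := fun β =>
      if h : ∃ e : ℕ, e ≠ 0 ∧ ∀ m : M, (β : L → ℂ) ⟨m, hML m.2⟩ = (e : ℂ) * θ m then
        ⟨fun h : H => (β : L → ℂ) ⟨h, hHL h.2⟩,
          wrap_irr hHL hML hsup hθ hθK β.2 h.choose_spec.2⟩
      else ⟨fun _ => 1, Char.isIrrCharacter_one⟩
    have hr : ∀ β : IrrCharacter L, (∃ e : ℕ, e ≠ 0 ∧ ∀ m : M, (β : L → ℂ) ⟨m, hML m.2⟩ =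
        (e : ℂ) * θ m) → (r β : H → ℂ) = fun h : H => (β : L → ℂ) ⟨h, hHL h.2⟩ := by
      intro β h
      simp only [r, dif_pos h]
    rw [← Finset.sum_filter_ne_zero]
    symm
    rw [← Finset.sum_filter_ne_zero]
    symm
    refine Finset.sum_bij (fun β _ => r β) ?_ ?_ ?_ ?_
    · intro β hβ
      have h0 := left_ne_zero_of_mul (Finset.mem_filter.mp hβ).2
      have h1 := key β h0
      have h2 := key2 β h1
      refine Finset.mem_filter.mpr ⟨Finset.mem_univ _, ?_⟩
      rw [hr β h1, ← h2]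
      exact (Finset.mem_filter.mp hβ).2
    · intro β hβ β' hβ' h
      have h1 := key β (left_ne_zero_of_mul (Finset.mem_filter.mp hβ).2)
      have h1' := key β' (left_ne_zero_of_mul (Finset.mem_filter.mp hβ').2)
      have h2 := congrArg Subtype.val h
      rw [hr β h1, hr β' h1'] at h2
      obtain ⟨e, he0, he⟩ := h1
      obtain ⟨e', he0', he'⟩ := h1'
      exact Subtype.ext (wrap_inj hHL hML hsup hθ hθK β.2 β'.2 he he' (fun x => congrFun h2 x))
    · intro α hα
      have h0 := left_ne_zero_of_mul (Finset.mem_filter.mp hα).2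
      obtain ⟨f, hf0, hf⟩ := typ_constituent (N := H ⊓ M) hθK (rInf_inv hinv) hF hT hKH α.2 h0
      obtain ⟨β, hβ, hb, hb2⟩ := wrap_exists hHL hML hsup hθ hθK hinv α.2 hf0 hf
      have h3 : (r ⟨β, hβ⟩ : H → ℂ) = α := by
        rw [hr ⟨β, hβ⟩ hb]; funext x; exact hb2 x
      refine ⟨⟨β, hβ⟩, Finset.mem_filter.mpr ⟨Finset.mem_univ _, ?_⟩, Subtype.ext h3⟩
      rw [key2 ⟨β, hβ⟩ hb]
      have h4 : (fun h : H => β ⟨h, hHL h.2⟩) = α := by funext x; exact hb2 x
      simp only [h4]
      have h5 : β ⟨x, hHL hx⟩ = (α : H → ℂ) ⟨x, hx⟩ := hb2 ⟨x, hx⟩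
      rw [h5]
      exact (Finset.mem_filter.mp hα).2
    · intro β hβ
      have h0 := left_ne_zero_of_mul (Finset.mem_filter.mp hβ).2
      have h1 := key β h0
      rw [key2 β h1, hr β h1]
  · intro β
    by_cases h : classInner (fun x : L => proj M θ (Fc H M F) x) (β : L → ℂ) = 0
    · exact ⟨0, le_refl _, by rw [h]; simp⟩
    · have h1 := key β h
      rw [key2 β h1]
      obtain ⟨e, he0, he⟩ := h1
      exact hn ⟨_, wrap_irr hHL hML hsup hθ hθK β.2 he⟩

include hHL hML hsup hθ hθK hinv in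
/-- Injectivity of the restriction over `θ`. -/
theorem lift_inj {E : G → ℂ} (hE : IsClassFunction G E) (hT : Typ M θ E)
    (h0 : ∀ h ∈ H, E h = 0) : ∀ x ∈ L, E x = 0 := by
  classical
  have : Fintype (IrrCharacter G) := Fintype.ofFinite _
  have : Fintype (IrrCharacter L) := Fintype.ofFinite _
  have hEL : IsClassFunction L (fun x : L => E x) := fun a b => by
    have := hE (a : G) (b : G)
    simpa using this
  have key : ∀ β : IrrCharacter L, classInner (fun x : L => E x) (β : L → ℂ) ≠ 0 →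
      ∃ e : ℕ, e ≠ 0 ∧ ∀ m : M, (β : L → ℂ) ⟨m, hML m.2⟩ = (e : ℂ) * θ m := by
    intro β hβ
    exact typ_constituent hθ hinv hE hT hML β.2 hβ
  have hz : ∀ β₀ : IrrCharacter L, classInner (fun x : L => E x) (β₀ : L → ℂ) = 0 := by
    intro β₀
    by_contra hne
    obtain ⟨e₀, he₀, hb₀⟩ := key β₀ hne
    have hirr₀ := wrap_irr hHL hML hsup hθ hθK β₀.2 hb₀
    have h1 : classInner (fun h : H => E h) (fun h : H => (β₀ : L → ℂ) ⟨h, hHL h.2⟩) = 0 := by
      have : (fun h : H => E h) = 0 := by funext h; exact h0 h h.2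
      rw [this]
      simp [classInner]
    have h2 : (fun h : H => E h) = ∑ β : IrrCharacter L,
        classInner (fun x : L => E x) (β : L → ℂ) • (fun h : H => (β : L → ℂ) ⟨h, hHL h.2⟩) := by
      funext h
      have h3 := congrFun (classFun_eq_sum hEL) ⟨h, hHL h.2⟩
      simp only [Finset.sum_apply, Pi.smul_apply, smul_eq_mul] at h3 ⊢
      exact h3
    rw [h2, classInner_sum_left, Finset.sum_eq_single β₀] at h1
    · rw [classInner_smul_left, classInner_irr_self (⟨_, hirr₀⟩ : IrrCharacter H), mul_one] at h1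
      exact hne h1
    · intro β _ hβ
      rw [classInner_smul_left]
      by_cases hc : classInner (fun x : L => E x) (β : L → ℂ) = 0
      · rw [hc, zero_mul]
      · obtain ⟨e, he, hb⟩ := key β hc
        have hirr := wrap_irr hHL hML hsup hθ hθK β.2 hb
        have h4 := classInner_irr_of_ne (χ := (⟨_, hirr⟩ : IrrCharacter H))
          (ψ := ⟨_, hirr₀⟩) (fun h => hβ (Subtype.ext (wrap_inj hHL hML hsup hθ hθK β.2 β₀.2 hb hb₀
            (fun x => congrFun (congrArg Subtype.val h) x))))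
        simp only at h4
        rw [h4, mul_zero]
    · intro h; exact absurd (Finset.mem_univ _) h
  have h5 := classFun_eq_zero_of_classInner hEL hz
  intro x hx
  exact congrFun h5 ⟨x, hx⟩

end lift

end Cfsg.Agent.H76
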