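import Cfsg.Agent.H76.ConeB
import Cfsg.Agent.Char.Correspondence

/-!
# Cone property: the Clifford step
-/

set_option autoImplicit false
set_option linter.unusedSectionVars false

namespace Cfsg.Agent.H76

open scoped ComplexConjugate
open Cfsg Cfsg.Agent.CharBase Cfsg.Agent.Char

attribute [local instance 100000] Fintype.ofFinite

section defs

variable {G : Type*} [Group G] [Finite G]

/-- The cone property of the characters over `θ` restricted to `H`. -/
def Cone (K : Subgroup G) (θ : K → ℂ) (H : Subgroup G) : Prop :=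
  ∃ 𝓛 : Finset (IrrCharacter G),
    (∀ χ ∈ 𝓛, classInner (fun k : K => (χ : G → ℂ) k) θ ≠ 0) ∧
    (∀ c : IrrCharacter G → ℂ, (∀ h ∈ H, ∑ χ ∈ 𝓛, c χ * (χ : G → ℂ) h = 0) →
      ∀ χ ∈ 𝓛, c χ = 0) ∧
    (∀ F : G → ℂ, IsClassFunction G F → Typ K θ F → Nn H F →
      ∃ d : IrrCharacter G → ℝ, (∀ χ, 0 ≤ d χ) ∧
        ∀ h ∈ H, F h = ∑ χ ∈ 𝓛, (d χ : ℂ) * (χ : G → ℂ) h)

theorem nn_comp {H : Subgroup G} {F : G → ℂ} (hF : IsClassFunction G F) (hn : Nn H F)
    {A : Type*} [Group A] [Finite A] (j : A →* H) {φ : A → ℂ} (hφ : IsCharacter A φ) :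
    ∃ r : ℝ, 0 ≤ r ∧ classInner (fun a => F (j a)) φ = r := by
  classical
  have hFH : IsClassFunction H (fun x : H => F x) := fun a b => by
    have := hF (a : G) (b : G)
    simpa using this
  have h1 : (fun a => F (j a)) = ∑ γ : IrrCharacter H,
      classInner (fun h : H => F h) (γ : H → ℂ) • (fun a => (γ : H → ℂ) (j a)) := by
    funext a
    have := congrFun (classFun_eq_sum hFH) (j a)
    simp only [Finset.sum_apply, Pi.smul_apply, smul_eq_mul] at this ⊢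
    exact this
  choose r hr0 hr using hn
  have h2 : ∀ γ : IrrCharacter H, ∃ n : ℕ, classInner (fun a => (γ : H → ℂ) (j a)) φ = n :=
    fun γ => classInner_natCast (isCharacter_comp (irr_isCharacter γ) j) hφ
  choose n hn' using h2
  refine ⟨∑ γ : IrrCharacter H, r γ * n γ,
    Finset.sum_nonneg fun γ _ => mul_nonneg (hr0 γ) (Nat.cast_nonneg _), ?_⟩
  rw [h1, classInner_sum_left]
  push_cast
  refine Finset.sum_congr rfl fun γ _ => ?_
  rw [classInner_smul_left, hr, hn']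

end defs

section cliff

variable {G : Type*} [Group G] [Finite G] {M : Subgroup G} [hMn : M.Normal]

theorem sc_inertia_inv (ψ : IrrCharacter M) (g : inertia M (ψ : M → ℂ)) :
    cj (M.subgroupOf (inertia M (ψ : M → ℂ))) g (sc _ (ψ : M → ℂ)) = sc _ (ψ : M → ℂ) := by
  funext x
  exact congrFun ((mem_inertia M).mp g.2) ⟨((x : inertia M (ψ : M → ℂ)) : G), x.2⟩

theorem le_inertia' (ψ : IrrCharacter M) : M ≤ inertia M (ψ : M → ℂ) :=
  le_inertia M (irr_isClassFunction ψ)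

/-- the component of `F` over `ψ`, a class function of the inertia group -/
noncomputable def comp (ψ : IrrCharacter M) (F : G → ℂ) : inertia M (ψ : M → ℂ) → ℂ :=
  proj (M.subgroupOf (inertia M (ψ : M → ℂ))) (sc _ (ψ : M → ℂ)) (fun t => F t)

theorem comp_class (ψ : IrrCharacter M) (F : G → ℂ) : IsClassFunction _ (comp ψ F) := proj_class _

theorem res_class {F : G → ℂ} (hF : IsClassFunction G F) (T : Subgroup G) :
    IsClassFunction T (fun t : T => F t) := fun a b => by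
  have := hF (a : G) (b : G)
  simpa using this

theorem comp_inner {F : G → ℂ} (hF : IsClassFunction G F) (ψ : IrrCharacter M) {H : Subgroup G}
    (hMH : M ≤ H) {α : (H.subgroupOf (inertia M (ψ : M → ℂ))) → ℂ} (hα : IsIrrCharacter _ α)
    (h : classInner (fun x : H.subgroupOf (inertia M (ψ : M → ℂ)) => comp ψ F x) α ≠ 0) :
    classInner (fun x : H.subgroupOf (inertia M (ψ : M → ℂ)) => comp ψ F x) α =
      classInner (fun x : H.subgroupOf (inertia M (ψ : M → ℂ)) => F x) α := by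
  have hle : M.subgroupOf (inertia M (ψ : M → ℂ)) ≤ H.subgroupOf (inertia M (ψ : M → ℂ)) :=
    fun x hx => hMH hx
  obtain ⟨f, hf0, hf⟩ := typ_constituent (sc_irr (le_inertia' ψ) ψ.2) (sc_inertia_inv ψ)
    (comp_class ψ F) (proj_typ _) hle hα h
  exact proj_inner (sc_irr (le_inertia' ψ) ψ.2) (sc_inertia_inv ψ) (res_class hF _) hle hα hf0 hf

theorem comp_nn {F : G → ℂ} (hF : IsClassFunction G F) (ψ : IrrCharacter M) {H : Subgroup G}
    (hMH : M ≤ H) (hn : Nn H F) : Nn (H.subgroupOf (inertia M (ψ : M → ℂ))) (comp ψ F) := by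
  intro α
  by_cases h : classInner (fun x : H.subgroupOf (inertia M (ψ : M → ℂ)) => comp ψ F x)
      (α : _ → ℂ) = 0
  · exact ⟨0, le_refl _, by rw [h]; simp⟩
  · rw [comp_inner hF ψ hMH α.2 h]
    let j : H.subgroupOf (inertia M (ψ : M → ℂ)) →* H :=
      { toFun := fun x => ⟨((x : inertia M (ψ : M → ℂ)) : G), x.2⟩
        map_one' := rfl
        map_mul' := fun a b => rfl }
    exact nn_comp hF hn j (isCharacter_of_isIrr α.2)

theorem comp_vanish {F : G → ℂ} (hF : IsClassFunction G F) (ψ : IrrCharacter M) {H : Subgroup G}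
    (hMH : M ≤ H) (h0 : ∀ h ∈ H, F h = 0) :
    ∀ x ∈ H.subgroupOf (inertia M (ψ : M → ℂ)), comp ψ F x = 0 := by
  have h1 : (fun x : H.subgroupOf (inertia M (ψ : M → ℂ)) => comp ψ F x) = 0 := by
    apply classFun_eq_zero_of_classInner (res_class (comp_class ψ F) _)
    intro α
    by_contra hne
    have h2 := comp_inner hF ψ hMH α.2 hne
    have h3 : (fun x : H.subgroupOf (inertia M (ψ : M → ℂ)) => F x) = 0 := by
      funext x; exact h0 _ x.2
    rw [h3] at h2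
    apply hne
    rw [h2]
    simp [classInner]
  intro x hx
  exact congrFun h1 ⟨x, hx⟩

/-- `ξ ∈ Irr(T)` lies over `ψ` -/
def Ov (ψ : IrrCharacter M) (ξ : inertia M (ψ : M → ℂ) → ℂ) : Prop :=
  classInner (fun n : M.subgroupOf (inertia M (ψ : M → ℂ)) => ξ n) (sc _ (ψ : M → ℂ)) ≠ 0

theorem ov_iff (ψ : IrrCharacter M) (ξ : inertia M (ψ : M → ℂ) → ℂ) :
    Ov ψ ξ ↔ classInner (fun n : M => ξ ⟨n, le_inertia' ψ n.2⟩) (ψ : M → ℂ) ≠ 0 := by
  have h := Cfsg.Agent.Char.classInner_comp_equiv (Subgroup.subgroupOfEquivOfLe (le_inertia' ψ))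
    (fun n : M => ξ ⟨n, le_inertia' ψ n.2⟩) (ψ : M → ℂ)
  unfold Ov
  rw [← h]
  exact Iff.rfl

theorem ov_irr (ψ : IrrCharacter M) {ξ : inertia M (ψ : M → ℂ) → ℂ} (hξ : IsIrrCharacter _ ξ)
    (h : Ov ψ ξ) : IsIrrCharacter G (indFun (inertia M (ψ : M → ℂ)) ξ) :=
  isIrr_indFun_of_inertia M _ ψ.2 rfl (le_inertia' ψ) hξ ((ov_iff ψ ξ).mp h)

theorem ov_inj (ψ : IrrCharacter M) {ξ ξ' : inertia M (ψ : M → ℂ) → ℂ} (hξ : IsIrrCharacter _ ξ)
    (hξ' : IsIrrCharacter _ ξ') (h : Ov ψ ξ) (h' : Ov ψ ξ')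
    (heq : indFun (inertia M (ψ : M → ℂ)) ξ = indFun (inertia M (ψ : M → ℂ)) ξ') : ξ = ξ' :=
  indFun_injective_of_inertia M _ ψ.2 rfl (le_inertia' ψ) hξ hξ' ((ov_iff ψ ξ).mp h)
    ((ov_iff ψ ξ').mp h') heq

theorem ov_over (ψ : IrrCharacter M) {ξ : inertia M (ψ : M → ℂ) → ℂ} (hξ : IsIrrCharacter _ ξ)
    (h : Ov ψ ξ) : classInner (fun n : M => indFun (inertia M (ψ : M → ℂ)) ξ n) (ψ : M → ℂ) ≠ 0 := by
  have h1 := ov_irr ψ hξ h
  refine classInner_restrict_ne_zero_of_stages (le_inertia' ψ) (isCharacter_of_isIrr h1) hξ ?_ ψ.2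
    ((ov_iff ψ ξ).mp h)
  rw [← frobenius_reciprocity' _ ξ _ (isClassFunction_of_isCharacter (isCharacter_of_isIrr h1)),
    classInner_irr_self ⟨_, h1⟩]
  exact one_ne_zero

theorem ov_exists (ψ : IrrCharacter M) (χ : IrrCharacter G)
    (h : classInner (fun n : M => (χ : G → ℂ) n) (ψ : M → ℂ) ≠ 0) :
    ∃ ξ : inertia M (ψ : M → ℂ) → ℂ, IsIrrCharacter _ ξ ∧ Ov ψ ξ ∧
      indFun (inertia M (ψ : M → ℂ)) ξ = χ := by
  obtain ⟨ξ, hξ, h1, h2⟩ := clifford_correspondence M _ ψ.2 rfl (le_inertia' ψ) χ.2 h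
  exact ⟨ξ, hξ, (ov_iff ψ ξ).mpr (by rw [h2]; exact h), h1⟩

open Classical in
theorem comp_eq {F : G → ℂ} (hF : IsClassFunction G F) (ψ : IrrCharacter M) :
    comp ψ F = ∑ ξ : IrrCharacter (inertia M (ψ : M → ℂ)),
      (if Ov ψ (ξ : inertia M (ψ : M → ℂ) → ℂ) then classInner F (indFun (inertia M (ψ : M → ℂ)) (ξ : inertia M (ψ : M → ℂ) → ℂ)) else 0) •
        (ξ : inertia M (ψ : M → ℂ) → ℂ) := by
  unfold comp proj
  refine Finset.sum_congr rfl fun ξ _ => ?_
  congr 1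
  rw [frobenius_reciprocity' _ _ _ hF]
  unfold Ov
  by_cases h : classInner (fun n : M.subgroupOf (inertia M (ψ : M → ℂ)) => (ξ : inertia M (ψ : M → ℂ) → ℂ) n)
    (sc _ (ψ : M → ℂ)) = 0
  · rw [if_pos h, if_neg (not_not.mpr h)]
  · rw [if_neg h, if_pos h]

open Classical in
theorem comp_ind_inner {F : G → ℂ} (hF : IsClassFunction G F) (ψ : IrrCharacter M)
    (χ : IrrCharacter G) : classInner (indFun _ (comp ψ F)) (χ : G → ℂ) =
      if classInner (fun n : M => (χ : G → ℂ) n) (ψ : M → ℂ) = 0 then 0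
      else classInner F (χ : G → ℂ) := by
  rw [frobenius_reciprocity _ _ _ (irr_isClassFunction χ), comp_eq hF, classInner_sum_left]
  have h1 : ∀ ξ : IrrCharacter (inertia M (ψ : M → ℂ)), Ov ψ (ξ : inertia M (ψ : M → ℂ) → ℂ) →
      classInner (ξ : inertia M (ψ : M → ℂ) → ℂ) (fun t : inertia M (ψ : M → ℂ) => (χ : G → ℂ) t) =
        if indFun (inertia M (ψ : M → ℂ)) (ξ : inertia M (ψ : M → ℂ) → ℂ) = (χ : G → ℂ) then 1 else 0 := by
    intro ξ hξ
    rw [← frobenius_reciprocity _ _ _ (irr_isClassFunction χ)]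
    have h2 := ov_irr ψ ξ.2 hξ
    split_ifs with h3
    · rw [h3, classInner_irr_self]
    · exact classInner_irr_of_ne (χ := ⟨_, h2⟩) (ψ := χ) (fun h => h3 (congrArg Subtype.val h))
  split_ifs with h
  · refine Finset.sum_eq_zero fun ξ _ => ?_
    rw [classInner_smul_left]
    by_cases hξ : Ov ψ (ξ : inertia M (ψ : M → ℂ) → ℂ)
    · have h5 : ¬ (indFun (inertia M (ψ : M → ℂ)) (ξ : inertia M (ψ : M → ℂ) → ℂ) =
          (χ : G → ℂ)) := by
        intro h3
        have h4 := ov_over ψ ξ.2 hξ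
        rw [h3] at h4
        exact h4 h
      rw [h1 ξ hξ, if_neg h5, mul_zero]
    · rw [if_neg hξ, zero_mul]
  · obtain ⟨ξ, hξ, ho, hind⟩ := ov_exists ψ χ h
    rw [Finset.sum_eq_single (⟨ξ, hξ⟩ : IrrCharacter (inertia M (ψ : M → ℂ)))]
    · rw [classInner_smul_left, h1 ⟨ξ, hξ⟩ ho]
      simp only
      rw [if_pos ho, if_pos hind, mul_one, hind]
    · intro ξ' _ hne
      rw [classInner_smul_left]
      by_cases hξ' : Ov ψ (ξ' : inertia M (ψ : M → ℂ) → ℂ)
      · have h5 : ¬ (indFun (inertia M (ψ : M → ℂ)) (ξ' : inertia M (ψ : M → ℂ) → ℂ) =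
            (χ : G → ℂ)) := fun h3 =>
          hne (Subtype.ext (ov_inj ψ ξ'.2 hξ hξ' ho (h3.trans hind.symm)))
        rw [h1 ξ' hξ', if_neg h5, mul_zero]
      · rw [if_neg hξ', zero_mul]
    · intro h; exact absurd (Finset.mem_univ _) h

end cliff

end Cfsg.Agent.H76
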