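import Cfsg.Agent.H76.ConeC

/-!
# Cone property: the two inductive steps
-/

set_option autoImplicit false
set_option linter.unusedSectionVars false

namespace Cfsg.Agent.H76

open scoped ComplexConjugate
open Cfsg Cfsg.Agent.CharBase Cfsg.Agent.Char

attribute [local instance 100000] Fintype.ofFinite

section stepa

variable {G : Type*} [Group G] [Finite G]

theorem class_finset (𝓛 : Finset (IrrCharacter G)) (c : IrrCharacter G → ℂ) :
    IsClassFunction G (∑ χ ∈ 𝓛, c χ • (χ : G → ℂ)) := by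
  apply isClassFunction_sum
  intro χ _
  exact isClassFunction_smul _ (irr_isClassFunction χ)

theorem inner_finset (𝓛 : Finset (IrrCharacter G)) (c : IrrCharacter G → ℂ) (χ₀ : IrrCharacter G) :
    classInner (∑ χ ∈ 𝓛, c χ • (χ : G → ℂ)) (χ₀ : G → ℂ) =
      haveI := Classical.propDecidable (χ₀ ∈ 𝓛)
      if χ₀ ∈ 𝓛 then c χ₀ else 0 := by
  classical
  rw [classInner_sum_left]
  split_ifs with h
  · rw [Finset.sum_eq_single χ₀]
    · rw [classInner_smul_left, classInner_irr_self, mul_one]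
    · intro χ _ hne
      rw [classInner_smul_left, classInner_irr_of_ne hne, mul_zero]
    · intro h'; exact absurd h h'
  · refine Finset.sum_eq_zero fun χ hχ => ?_
    have hne : χ ≠ χ₀ := by rintro rfl; exact h hχ
    rw [classInner_smul_left, classInner_irr_of_ne hne, mul_zero]

theorem finset_apply (𝓛 : Finset (IrrCharacter G)) (c : IrrCharacter G → ℂ) (x : G) :
    (∑ χ ∈ 𝓛, c χ • (χ : G → ℂ)) x = ∑ χ ∈ 𝓛, c χ * (χ : G → ℂ) x := by
  rw [Finset.sum_apply]; rfl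

theorem cone_a {K H M L : Subgroup G} (hK : K = H ⊓ M) [hKn : K.Normal] [hMn : M.Normal]
    (hHL : H ≤ L) (hML : M ≤ L) (hsup : H ⊔ M = L) {θ : K → ℂ} (hθ : IsIrrCharacter K θ)
    {θh : M → ℂ} (hθh : IsIrrCharacter M θh)
    (hres : ∀ (x : G) (hx : x ∈ K) (hx' : x ∈ M), θ ⟨x, hx⟩ = θh ⟨x, hx'⟩)
    (hinv : ∀ g : G, cj M g θh = θh)
    (hconj : ∀ x ∈ L, (∃ g : G, g * x * g⁻¹ ∈ H) → ∃ n ∈ M, n * x * n⁻¹ ∈ H)
    (hc : Cone M θh L) : Cone K θ H := by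
  subst hK
  have hr : θ = rInf H M θh := by
    funext z
    exact hres z z.2 z.2.2
  subst hr
  obtain ⟨𝓛, h1, h2, h3⟩ := hc
  refine ⟨𝓛, fun χ hχ => ?_, fun c hc0 => ?_, fun F hF hT hn => ?_⟩
  · obtain ⟨e, he0, he⟩ := over_mult χ.2 hθh hinv (h1 χ hχ)
    rw [over_mult' (χ := (χ : G → ℂ)) hθ he0 (fun z => he ⟨z, z.2.2⟩)]
    exact_mod_cast he0
  · apply h2 c
    intro x hx
    rw [← finset_apply]
    refine lift_inj hHL hML hsup hθh hθ hinv (class_finset 𝓛 c) ?_ (fun h hh => ?_) x hx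
    · intro χ hχ
      rw [inner_finset, if_neg]
      intro hmem
      exact h1 χ hmem hχ
    · rw [finset_apply]; exact hc0 h hh
  · obtain ⟨F', hF', hT', heq, hn'⟩ := lift_exists hHL hML hsup hθh hθ hinv hconj hF hT hn
    obtain ⟨d, hd, hdF⟩ := h3 F' hF' hT' hn'
    exact ⟨d, hd, fun h hh => by rw [← heq h hh]; exact hdF h (hHL hh)⟩

end stepa

section stepb

variable {G : Type*} [Group G] [Finite G] {M : Subgroup G} [hMn : M.Normal]

/-- If a class function of `T` vanishes on `H ∩ T`, then the induced function vanishes on `H`. -/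
theorem ind_vanish {T H : Subgroup G}
    (hg : ∀ y ∈ T, (∃ g : G, g * y * g⁻¹ ∈ H) → ∃ t ∈ T, t * y * t⁻¹ ∈ H) {D : T → ℂ}
    (hD : IsClassFunction T D) (h0 : ∀ x ∈ H.subgroupOf T, D x = 0) :
    ∀ h ∈ H, indFun T D h = 0 := by
  intro h hh
  rw [indFun_apply']
  apply mul_eq_zero_of_right
  refine Finset.sum_eq_zero fun x _ => ?_
  by_cases hy : x * h * x⁻¹ ∈ T
  · rw [extendByZero_of_mem T D hy]
    obtain ⟨t, ht, htH⟩ := hg _ hy ⟨x⁻¹, by simpa [mul_assoc] using hh⟩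
    have h1 := hD ⟨x * h * x⁻¹, hy⟩ ⟨t, ht⟩
    rw [← h1]
    exact h0 _ htH
  · exact extendByZero_of_notMem T D hy

theorem cone_b {K : Subgroup G} [hKn : K.Normal] (hKM : K ≤ M) {H : Subgroup G} (hMH : M ≤ H)
    {θ : K → ℂ} (hθ : IsIrrCharacter K θ) (hinvθ : ∀ g : G, cj K g θ = θ)
    (rep : IrrCharacter M → IrrCharacter M)
    (hrep1 : ∀ ψ, ∃ g : G, cj M g (rep ψ : M → ℂ) = ψ)
    (hrep2 : ∀ ψ ψ' : IrrCharacter M, (∃ g : G, cj M g (ψ : M → ℂ) = ψ') → rep ψ = rep ψ')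
    (hgood : ∀ ψ, rep ψ = ψ → ∀ y ∈ inertia M (ψ : M → ℂ), (∃ g : G, g * y * g⁻¹ ∈ H) →
      ∃ t ∈ inertia M (ψ : M → ℂ), t * y * t⁻¹ ∈ H)
    (hcone : ∀ ψ, rep ψ = ψ → classInner (fun k : K => (ψ : M → ℂ) ⟨k, hKM k.2⟩) θ ≠ 0 →
      Cone (M.subgroupOf (inertia M (ψ : M → ℂ))) (sc _ (ψ : M → ℂ))
        (H.subgroupOf (inertia M (ψ : M → ℂ)))) : Cone K θ H := by
  classical
  -- the good representatives
  let R : IrrCharacter M → Prop := fun ψ => rep ψ = ψ ∧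
    classInner (fun k : K => (ψ : M → ℂ) ⟨k, hKM k.2⟩) θ ≠ 0
  have h𝓛 : ∀ ψ : IrrCharacter M, ∃ 𝓛 : Finset (IrrCharacter (inertia M (ψ : M → ℂ))), R ψ →
      (∀ χ ∈ 𝓛, Ov ψ (χ : inertia M (ψ : M → ℂ) → ℂ)) ∧
      (∀ c : IrrCharacter (inertia M (ψ : M → ℂ)) → ℂ,
        (∀ h ∈ H.subgroupOf (inertia M (ψ : M → ℂ)),
          ∑ χ ∈ 𝓛, c χ * (χ : inertia M (ψ : M → ℂ) → ℂ) h = 0) → ∀ χ ∈ 𝓛, c χ = 0) ∧
      (∀ F : inertia M (ψ : M → ℂ) → ℂ, IsClassFunction _ F →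
        Typ (M.subgroupOf (inertia M (ψ : M → ℂ))) (sc _ (ψ : M → ℂ)) F →
        Nn (H.subgroupOf (inertia M (ψ : M → ℂ))) F →
        ∃ d : IrrCharacter (inertia M (ψ : M → ℂ)) → ℝ, (∀ χ, 0 ≤ d χ) ∧
          ∀ h ∈ H.subgroupOf (inertia M (ψ : M → ℂ)),
            F h = ∑ χ ∈ 𝓛, (d χ : ℂ) * (χ : inertia M (ψ : M → ℂ) → ℂ) h) := by
    intro ψ
    by_cases h : R ψ
    · obtain ⟨𝓛, hL⟩ := hcone ψ h.1 h.2
      exact ⟨𝓛, fun _ => hL⟩
    · exact ⟨∅, fun h' => absurd h' h⟩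
  choose 𝓛 hL using h𝓛
  -- over characters
  have hover : ∀ (ψ : IrrCharacter M) (χ : IrrCharacter G),
      classInner (fun k : K => (ψ : M → ℂ) ⟨k, hKM k.2⟩) θ ≠ 0 →
      classInner (fun n : M => (χ : G → ℂ) n) (ψ : M → ℂ) ≠ 0 →
      classInner (fun k : K => (χ : G → ℂ) k) θ ≠ 0 := fun ψ χ h1 h2 =>
    classInner_restrict_ne_zero_of_stages hKM (isCharacter_of_isIrr χ.2) ψ.2 h2 hθ h1
  -- every character over `θ` lies over a representative
  have hex : ∀ χ : IrrCharacter G, classInner (fun k : K => (χ : G → ℂ) k) θ ≠ 0 →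
      ∃ ψ, R ψ ∧ classInner (fun n : M => (χ : G → ℂ) n) (ψ : M → ℂ) ≠ 0 := by
    intro χ hχ
    obtain ⟨ψ, hψ, hψ1⟩ := exists_constituent_restrict M (isCharacter_of_isIrr χ.2)
      (irr_one_ne_zero χ.2)
    obtain ⟨g, hg⟩ := hrep1 ⟨ψ, hψ⟩
    have h1 : classInner (fun n : M => (χ : G → ℂ) n) (rep ⟨ψ, hψ⟩ : M → ℂ) ≠ 0 := by
      rw [← classInner_restrict_cj M (irr_isClassFunction χ) _ g, hg]
      exact hψ1
    refine ⟨rep ⟨ψ, hψ⟩, ⟨(hrep2 _ _ ⟨g, hg⟩), ?_⟩, h1⟩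
    obtain ⟨e, he0, he⟩ := over_mult χ.2 hθ hinvθ hχ
    obtain ⟨f, hf0, hf⟩ := restrict_of_constituent (Z := K) χ.2 hθ he hKM (rep ⟨ψ, hψ⟩).2 h1
    have h2 : (fun k : K => (rep ⟨ψ, hψ⟩ : M → ℂ) ⟨k, hKM k.2⟩) = (f : ℂ) • θ := by
      funext k; rw [hf]; rfl
    rw [h2, classInner_smul_left, classInner_irr_self ⟨θ, hθ⟩, mul_one]
    exact_mod_cast hf0
  have huniq : ∀ (χ : IrrCharacter G) (ψ ψ' : IrrCharacter M), rep ψ = ψ → rep ψ' = ψ' →
      classInner (fun n : M => (χ : G → ℂ) n) (ψ : M → ℂ) ≠ 0 →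
      classInner (fun n : M => (χ : G → ℂ) n) (ψ' : M → ℂ) ≠ 0 → ψ = ψ' := by
    intro χ ψ ψ' h1 h1' h2 h2'
    obtain ⟨g, hg⟩ := exists_conj_of_constituents M χ.2 ψ.2 ψ'.2 h2 h2'
    rw [← h1, ← h1']
    exact hrep2 _ _ ⟨g, hg⟩
  let 𝓛G : Finset (IrrCharacter G) := Finset.univ.filter fun χ => ∃ ψ, R ψ ∧ ∃ ξ ∈ 𝓛 ψ,
    indFun (inertia M (ψ : M → ℂ)) (ξ : inertia M (ψ : M → ℂ) → ℂ) = (χ : G → ℂ)
  have hmem : ∀ χ : IrrCharacter G, χ ∈ 𝓛G ↔ ∃ ψ, R ψ ∧ ∃ ξ ∈ 𝓛 ψ,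
      indFun (inertia M (ψ : M → ℂ)) (ξ : inertia M (ψ : M → ℂ) → ℂ) = (χ : G → ℂ) := by
    intro χ; simp [𝓛G]
  refine ⟨𝓛G, ?_, ?_, ?_⟩
  · intro χ hχ
    obtain ⟨ψ, hR, ξ, hξ, hind⟩ := (hmem χ).mp hχ
    have h1 := ov_over ψ ξ.2 ((hL ψ hR).1 ξ hξ)
    rw [hind] at h1
    exact hover ψ χ hR.2 h1
  · intro c hc χ₀ hχ₀
    obtain ⟨ψ, hR, ξ₀, hξ₀, hind₀⟩ := (hmem χ₀).mp hχ₀
    set E : G → ℂ := ∑ χ ∈ 𝓛G, c χ • (χ : G → ℂ) with hE
    have hEc : IsClassFunction G E := class_finset 𝓛G c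
    have hE0 : ∀ h ∈ H, E h = 0 := fun h hh => by rw [hE, finset_apply]; exact hc h hh
    have h1 := comp_vanish hEc ψ hMH hE0
    -- the induced character
    let ic : IrrCharacter (inertia M (ψ : M → ℂ)) → ℂ := fun ξ =>
      classInner E (indFun (inertia M (ψ : M → ℂ)) (ξ : inertia M (ψ : M → ℂ) → ℂ))
    have h2 : ∀ h ∈ H.subgroupOf (inertia M (ψ : M → ℂ)),
        ∑ ξ ∈ 𝓛 ψ, ic ξ * (ξ : inertia M (ψ : M → ℂ) → ℂ) h = 0 := by
      intro h hh
      rw [← h1 h hh, comp_eq hEc, Finset.sum_apply]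
      refine Finset.sum_subset_zero_on_sdiff (Finset.subset_univ _) (fun ξ hξ => ?_)
        (fun ξ hξ => ?_)
      · rw [Finset.mem_sdiff] at hξ
        rw [Pi.smul_apply, smul_eq_mul]
        split_ifs with ho
        · have hirr := ov_irr ψ ξ.2 ho
          have h3 := inner_finset 𝓛G c ⟨_, hirr⟩
          rw [if_neg] at h3
          · rw [hE]
            simp only at h3
            rw [h3, zero_mul]
          · intro hm
            obtain ⟨ψ', hR', ξ', hξ', hind'⟩ := (hmem _).mp hm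
            have h4 := ov_over ψ' ξ'.2 ((hL ψ' hR').1 ξ' hξ')
            have h5 := ov_over ψ ξ.2 ho
            rw [hind'] at h4
            have h6 := huniq ⟨_, hirr⟩ ψ ψ' hR.1 hR'.1 h5 h4
            subst h6
            have h7 := ov_inj ψ ξ'.2 ξ.2 ((hL ψ hR).1 ξ' hξ') ho hind'
            apply hξ.2
            rw [← Subtype.ext h7]
            exact hξ'
        · rw [zero_mul]
      · rw [Pi.smul_apply, smul_eq_mul, if_pos ((hL ψ hR).1 ξ hξ)]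
    have h3 := (hL ψ hR).2.1 ic h2 ξ₀ hξ₀
    simp only [ic] at h3
    rw [hind₀, hE, inner_finset, if_pos hχ₀] at h3
    exact h3
  · intro F hF hT hn
    -- the components
    have hd : ∀ ψ : IrrCharacter M, ∃ d : IrrCharacter (inertia M (ψ : M → ℂ)) → ℝ, R ψ →
        (∀ χ, 0 ≤ d χ) ∧ ∀ h ∈ H.subgroupOf (inertia M (ψ : M → ℂ)),
          comp ψ F h = ∑ χ ∈ 𝓛 ψ, (d χ : ℂ) * (χ : inertia M (ψ : M → ℂ) → ℂ) h := by
      intro ψ
      by_cases h : R ψ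
      · obtain ⟨d, hd⟩ := (hL ψ h).2.2 (comp ψ F) (comp_class ψ F) (proj_typ _)
          (comp_nn hF ψ hMH hn)
        exact ⟨d, fun _ => hd⟩
      · exact ⟨fun _ => 0, fun h' => absurd h' h⟩
    choose d hd using hd
    -- the decomposition of `F`
    have hdec : F = ∑ ψ ∈ Finset.univ.filter R, indFun (inertia M (ψ : M → ℂ)) (comp ψ F) := by
      rw [← sub_eq_zero]
      apply classFun_eq_zero_of_classInner
      · apply isClassFunction_sub hF
        apply isClassFunction_sum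
        intro ψ _
        exact indFun_isClassFunction _ _
      intro χ
      rw [classInner_sub_left, classInner_sum_left, sub_eq_zero]
      by_cases hχ : classInner (fun k : K => (χ : G → ℂ) k) θ = 0
      · rw [hT χ hχ]
        symm
        refine Finset.sum_eq_zero fun ψ hψ => ?_
        rw [comp_ind_inner hF, if_pos]
        by_contra hne
        exact hover ψ χ (Finset.mem_filter.mp hψ).2.2 hne hχ
      · obtain ⟨ψ, hR, hψ⟩ := hex χ hχ
        rw [Finset.sum_eq_single ψ]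
        · rw [comp_ind_inner hF, if_neg hψ]
        · intro ψ' hψ' hne
          rw [comp_ind_inner hF, if_pos]
          by_contra hne'
          exact hne (huniq χ ψ' ψ (Finset.mem_filter.mp hψ').2.1 hR.1 hne' hψ)
        · intro h
          exact absurd (Finset.mem_filter.mpr ⟨Finset.mem_univ _, hR⟩) h
    refine ⟨fun χ => ∑ ψ ∈ Finset.univ.filter R, ∑ ξ ∈ 𝓛 ψ,
      if indFun (inertia M (ψ : M → ℂ)) (ξ : inertia M (ψ : M → ℂ) → ℂ) = (χ : G → ℂ) then d ψ ξ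
      else 0, fun χ => ?_, fun h hh => ?_⟩
    · refine Finset.sum_nonneg fun ψ hψ => Finset.sum_nonneg fun ξ _ => ?_
      split_ifs
      · exact (hd ψ (Finset.mem_filter.mp hψ).2).1 ξ
      · exact le_refl _
    · have h1 : F h = ∑ ψ ∈ Finset.univ.filter R, ∑ ξ ∈ 𝓛 ψ, (d ψ ξ : ℂ) *
          indFun (inertia M (ψ : M → ℂ)) (ξ : inertia M (ψ : M → ℂ) → ℂ) h := by
        conv_lhs => rw [hdec]
        rw [Finset.sum_apply]
        refine Finset.sum_congr rfl fun ψ hψ => ?_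
        have hR := (Finset.mem_filter.mp hψ).2
        have h2 : indFun (inertia M (ψ : M → ℂ)) (comp ψ F -
            ∑ ξ ∈ 𝓛 ψ, (d ψ ξ : ℂ) • (ξ : inertia M (ψ : M → ℂ) → ℂ)) h = 0 := by
          refine ind_vanish (H := H) (hgood ψ hR.1) ?_ ?_ h hh
          · exact isClassFunction_sub (comp_class ψ F) (class_finset (𝓛 ψ) fun ξ => (d ψ ξ : ℂ))
          · intro x hx
            rw [Pi.sub_apply, (hd ψ hR).2 x hx, finset_apply, sub_self]
        have h3 : comp ψ F = (comp ψ F -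
            ∑ ξ ∈ 𝓛 ψ, (d ψ ξ : ℂ) • (ξ : inertia M (ψ : M → ℂ) → ℂ)) +
            ∑ ξ ∈ 𝓛 ψ, (d ψ ξ : ℂ) • (ξ : inertia M (ψ : M → ℂ) → ℂ) := by
          rw [sub_add_cancel]
        rw [h3, indFun_add, Pi.add_apply, h2, zero_add, indFun_sum, Finset.sum_apply]
        refine Finset.sum_congr rfl fun ξ _ => ?_
        rw [indFun_smul]
        rfl
      rw [h1]
      have h4 : ∀ χ : IrrCharacter G, ((∑ ψ ∈ Finset.univ.filter R, ∑ ξ ∈ 𝓛 ψ,
          if indFun (inertia M (ψ : M → ℂ)) (ξ : inertia M (ψ : M → ℂ) → ℂ) = (χ : G → ℂ) then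
            d ψ ξ else 0 : ℝ) : ℂ) * (χ : G → ℂ) h =
          ∑ ψ ∈ Finset.univ.filter R, ∑ ξ ∈ 𝓛 ψ,
            if indFun (inertia M (ψ : M → ℂ)) (ξ : inertia M (ψ : M → ℂ) → ℂ) = (χ : G → ℂ) then
            (d ψ ξ : ℂ) * (χ : G → ℂ) h else 0 := by
        intro χ
        push_cast
        rw [Finset.sum_mul]
        refine Finset.sum_congr rfl fun ψ _ => ?_
        rw [Finset.sum_mul]
        refine Finset.sum_congr rfl fun ξ _ => ?_
        split_ifs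
        · rfl
        · rw [Complex.ofReal_zero, zero_mul]
      rw [Finset.sum_congr rfl fun χ _ => h4 χ, Finset.sum_comm]
      refine Finset.sum_congr rfl fun ψ hψ => ?_
      have hR := (Finset.mem_filter.mp hψ).2
      rw [Finset.sum_comm]
      refine Finset.sum_congr rfl fun ξ hξ => ?_
      have hirr := ov_irr ψ ξ.2 ((hL ψ hR).1 ξ hξ)
      rw [Finset.sum_eq_single (⟨_, hirr⟩ : IrrCharacter G)]
      · rw [if_pos rfl]
      · intro χ _ hne
        rw [if_neg]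
        intro h5
        exact hne (Subtype.ext h5.symm)
      · intro h5
        exact absurd ((hmem _).mpr ⟨ψ, hR, ξ, hξ, rfl⟩) h5

end stepb

end Cfsg.Agent.H76
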