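import Cfsg.Agent.S3744
import Cfsg.Agent.H76.PCompl
import Cfsg.Agent.H76.PSolvable

/-!
# `p`-complements of `p`-solvable groups relative to a normal section
-/

set_option autoImplicit false

namespace Cfsg.Agent.H76

open Cfsg

variable {G : Type*} [Group G]

/-- a `p`-complement. -/
def PC (p : ℕ) (S : Subgroup G) : Prop := (Nat.card S).Coprime p ∧ ∃ n : ℕ, S.index = p ^ n

theorem relIndex_sup_of_normal {A N : Subgroup G} [N.Normal] :
    A.relIndex N ∣ A.index := by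
  have h1 : A.relIndex N = A.relIndex (N ⊔ A) := by
    refine relIndex_eq_of_mul le_sup_left ?_
    intro l hl
    obtain ⟨k, hk, s, hs, h⟩ := Subgroup.mem_sup_of_normal_left.1 hl
    exact ⟨k, hk, s, hs, h.symm⟩
  rw [h1]
  exact ⟨_, (Subgroup.relIndex_mul_index (le_sup_right : A ≤ N ⊔ A)).symm⟩

theorem eq_one_of_dvd_pow {p : ℕ} {a b n : ℕ} (h1 : a ∣ p ^ n) (h2 : a ∣ b) (h3 : b.Coprime p) :
    a = 1 :=
  Nat.eq_one_of_dvd_coprimes (Nat.Coprime.pow_left n h3.symm) h1 h2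

theorem pow_of_dvd {p : ℕ} [hp : Fact p.Prime] {a n : ℕ} (h : a ∣ p ^ n) : ∃ k, a = p ^ k := by
  obtain ⟨k, -, hk⟩ := (Nat.dvd_prime_pow hp.out).1 h
  exact ⟨k, hk⟩

section basic

variable {p : ℕ} {S K M : Subgroup G}

theorem relIndex_sup_coprime [Finite G] [K.Normal] (hS : PC p S) :
    (K.relIndex (S ⊔ K)).Coprime p := by
  rw [sup_comm, Subgroup.relIndex_sup_left]
  exact Nat.Coprime.coprime_dvd_left (Subgroup.relIndex_dvd_card K S) hS.1

theorem relIndex_sup_pow [Fact p.Prime] (hS : PC p S) {L : Subgroup G}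
    (hL : S ⊔ K ≤ L) : ∃ n, (S ⊔ K).relIndex L = p ^ n := by
  obtain ⟨n, hn⟩ := hS.2
  apply pow_of_dvd (n := n)
  rw [← hn]
  exact (Subgroup.relIndex_mul_index hL ▸ Dvd.intro _ rfl : (S ⊔ K).relIndex L ∣
    (S ⊔ K).index).trans (Subgroup.index_dvd_of_le le_sup_left)

/-- `p`-section: `(S ⊔ K) ⊓ M = K`. -/
theorem sup_inf_eq [Finite G] [K.Normal] (hS : PC p S) (hKM : K ≤ M) {a : ℕ}
    (ha : K.relIndex M = p ^ a) : (S ⊔ K) ⊓ M = K := by
  apply le_antisymm _ (le_inf le_sup_right hKM)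
  rw [← Subgroup.relIndex_eq_one]
  apply eq_one_of_dvd_pow (p := p) (n := a) (b := K.relIndex (S ⊔ K))
  · rw [← ha]
    exact relIndex_dvd_relIndex_of_le inf_le_right
  · exact relIndex_dvd_relIndex_of_le inf_le_left
  · exact relIndex_sup_coprime hS

/-- `p'`-section: `M ≤ S ⊔ K`. -/
theorem le_sup_of_coprime [Finite G] [Fact p.Prime] [K.Normal] [M.Normal] (hS : PC p S)
    (ha : (K.relIndex M).Coprime p) : M ≤ S ⊔ K := by
  obtain ⟨n, hn⟩ := hS.2
  rw [← Subgroup.relIndex_eq_one]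
  apply eq_one_of_dvd_pow (p := p) (n := n) (b := K.relIndex M)
  · rw [← hn]
    exact relIndex_sup_of_normal.trans (Subgroup.index_dvd_of_le le_sup_left)
  · exact Subgroup.relIndex_dvd_of_le_left M le_sup_right
  · exact ha

theorem conj_into [Finite G] [hp : Fact p.Prime] (hG : IsPSolvable p G) {K H L : Subgroup G}
    [K.Normal] (hKH : K ≤ H) (hHL : H ≤ L) (h1 : ∃ n, H.relIndex L = p ^ n)
    (h2 : (K.relIndex H).Coprime p) {x : G} (hx : x ∈ L) {m : ℕ} (hm : m.Coprime p)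
    (hxm : x ^ m ∈ K) : ∃ l ∈ L, l * x * l⁻¹ ∈ H := by
  obtain ⟨n, hn⟩ := h1
  set π := QuotientGroup.mk' K with hπ
  have hps : IsPSolvable p (L.map π) := isPSolvable_subgroup _ (isPSolvable_quotient K hG)
  have hcard : ∀ A : Subgroup G, Nat.card (A.map π) = K.relIndex A := by
    intro A
    rw [← Subgroup.relIndex_ker, hπ, QuotientGroup.ker_mk']
  have hL : Nat.card (L.map π) = K.relIndex H * p ^ n := by
    rw [hcard, ← hn, Subgroup.relIndex_mul_relIndex _ _ _ hKH hHL]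
  obtain ⟨g, hg, hle⟩ := Cop.hall_sep_rel_le (L := L.map π) hL (Nat.Coprime.pow_right _ h2)
    (Cop.sep_of_isPSolvable hps n) (H := H.map π) (K := Subgroup.zpowers (π x))
    (Subgroup.map_mono hHL) (by
      rw [Subgroup.zpowers_le]; exact ⟨x, hx, rfl⟩) (hcard H) (by
      rw [Nat.card_zpowers]
      apply Nat.Coprime.pow_right
      apply Nat.Coprime.coprime_dvd_left _ hm
      apply orderOf_dvd_of_pow_eq_one
      rw [← map_pow, hπ, QuotientGroup.mk'_apply, QuotientGroup.eq_one_iff]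
      exact hxm)
  obtain ⟨l, hl, rfl⟩ := hg
  have h3 := hle (Subgroup.mem_zpowers (π x))
  rw [Hall.mem_conj_smul] at h3
  refine ⟨l⁻¹, L.inv_mem hl, ?_⟩
  rw [inv_inv]
  have h4 : π (l⁻¹ * x * l) ∈ H.map π := by
    rw [map_mul, map_mul, map_inv]
    exact h3
  have h5 : l⁻¹ * x * l ∈ (H.map π).comap π := h4
  rw [Subgroup.comap_map_eq, hπ, QuotientGroup.ker_mk', sup_eq_left.mpr hKH] at h5
  exact h5

theorem pow_mem_of_conj [Finite G] [K.Normal] {x g : G}
    (h : g * x * g⁻¹ ∈ S ⊔ K) : x ^ (Nat.card S) ∈ K := by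
  obtain ⟨s, hs, k, hk, hsk⟩ := Subgroup.mem_sup_of_normal_right.1 h
  set π := QuotientGroup.mk' K with hπ
  have h1 : π (g * x * g⁻¹) = π s := by
    rw [← hsk, map_mul]
    have : π k = 1 := by rw [hπ, QuotientGroup.mk'_apply, QuotientGroup.eq_one_iff]; exact hk
    rw [this, mul_one]
  have h2 : s ^ Nat.card S = 1 := by
    have := pow_card_eq_one' (x := (⟨s, hs⟩ : S))
    exact congrArg Subtype.val this
  have h3 : π ((g * x * g⁻¹) ^ Nat.card S) = 1 := by
    rw [map_pow, h1, ← map_pow, h2, map_one]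
  rw [conj_pow] at h3
  rw [hπ, QuotientGroup.mk'_apply, QuotientGroup.eq_one_iff] at h3
  have h4 := (inferInstance : K.Normal).conj_mem _ h3 g⁻¹
  simpa [mul_assoc] using h4

/-- `hconj` for a `p`-section. -/
theorem conj_section [Finite G] [Fact p.Prime] (hG : IsPSolvable p G) [K.Normal] [M.Normal]
    (hKM : K ≤ M) (hS : PC p S) :
    ∀ x ∈ S ⊔ M, (∃ g : G, g * x * g⁻¹ ∈ S ⊔ K) → ∃ n ∈ M, n * x * n⁻¹ ∈ S ⊔ K := by
  rintro x hx ⟨g, hg⟩
  have hle : S ⊔ K ≤ S ⊔ M := sup_le_sup_left hKM S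
  obtain ⟨l, hl, hlx⟩ := conj_into hG (K := K) (H := S ⊔ K) (L := S ⊔ M) le_sup_right hle
    (relIndex_sup_pow hS hle) (relIndex_sup_coprime hS) hx hS.1 (pow_mem_of_conj hg)
  obtain ⟨s, hs, n, hn, rfl⟩ := Subgroup.mem_sup_of_normal_right.1 hl
  refine ⟨n, hn, ?_⟩
  have hs' : s ∈ S ⊔ K := Subgroup.mem_sup_left hs
  have h1 : n * x * n⁻¹ = s⁻¹ * (s * n * x * (s * n)⁻¹) * s := by group
  rw [h1]
  exact mul_mem (mul_mem (inv_mem hs') hlx) hs'

/-- `hgood` for a subgroup `T`. -/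
theorem conj_inertia [Finite G] [Fact p.Prime] (hG : IsPSolvable p G) [M.Normal] (hS : PC p S)
    {T : Subgroup G} (hMT : M ≤ T) (hST : PC p (S.subgroupOf T)) :
    ∀ y ∈ T, (∃ g : G, g * y * g⁻¹ ∈ S ⊔ M) → ∃ t ∈ T, t * y * t⁻¹ ∈ S ⊔ M := by
  rintro y hy ⟨g, hg⟩
  obtain ⟨l, hl, hlx⟩ := conj_into hG (K := M) (H := (S ⊔ M) ⊓ T) (L := T)
    (le_inf le_sup_right hMT) inf_le_right (by
      obtain ⟨n, hn⟩ := hST.2
      apply pow_of_dvd (n := n)
      rw [← hn]
      change _ ∣ S.relIndex T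
      rw [Subgroup.inf_relIndex_right]
      exact Subgroup.relIndex_dvd_of_le_left T le_sup_left) (by
      apply Nat.Coprime.coprime_dvd_left _ (relIndex_sup_coprime (K := M) hS)
      exact relIndex_dvd_relIndex_of_le inf_le_left) hy hS.1 (pow_mem_of_conj hg)
  exact ⟨l, hl, hlx.1⟩

/-- Dedekind. -/
theorem subgroupOf_sup_eq [M.Normal] {T : Subgroup G} (hMT : M ≤ T) :
    S.subgroupOf T ⊔ M.subgroupOf T = (S ⊔ M).subgroupOf T := by
  apply le_antisymm
  · apply sup_le
    · exact Subgroup.comap_mono le_sup_left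
    · exact Subgroup.comap_mono le_sup_right
  · intro x hx
    rw [Subgroup.mem_subgroupOf] at hx
    obtain ⟨s, hs, m, hm, hsm⟩ := Subgroup.mem_sup_of_normal_right.1 hx
    have hsT : s ∈ T := by
      have : s = (x : G) * m⁻¹ := by rw [← hsm]; group
      rw [this]
      exact mul_mem x.2 (inv_mem (hMT hm))
    have h1 : x = ⟨s, hsT⟩ * ⟨m, hMT hm⟩ := Subtype.ext hsm.symm
    rw [h1]
    apply mul_mem
    · exact Subgroup.mem_sup_left hs
    · exact Subgroup.mem_sup_right hm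

/-- a conjugate of a subgroup meets `S` in a `p`-complement. -/
theorem exists_conj_PC [Finite G] [hp : Fact p.Prime] (hG : IsPSolvable p G) (hS : PC p S)
    (T : Subgroup G) : ∃ g : G, PC p (S.subgroupOf (T.map (MulAut.conj g).toMonoidHom)) := by
  obtain ⟨⟨U, hU1, n, hU2⟩, -, -⟩ := S3744.result (isPSolvable_subgroup T hG)
  have hU' : Nat.card (U.map T.subtype) = Nat.card U :=
    Nat.card_congr (U.equivMapOfInjective _ T.subtype_injective).toEquiv.symm
  obtain ⟨-, hconj, hcont⟩ := S3744.result hG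
  obtain ⟨H, hH1, hH2, g, hg⟩ := hcont (U.map T.subtype) (by rw [hU']; exact hU1)
  obtain ⟨g', hg'⟩ := hconj H S hH1 hH2 hS.1 hS.2
  refine ⟨g' * g, ?_, ?_⟩
  · have h1 : Nat.card (S.subgroupOf (T.map (MulAut.conj (g' * g)).toMonoidHom)) ∣ Nat.card S := by
      have h2 := Subgroup.card_dvd_of_injective
        (((Subgroup.subtype _).comp (Subgroup.subtype _)).codRestrict S (fun x => x.2) :
          (S.subgroupOf (T.map (MulAut.conj (g' * g)).toMonoidHom)) →* S) (by
            intro a b hab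
            have := congrArg Subtype.val hab
            exact Subtype.ext (Subtype.ext this))
      exact h2
    exact Nat.Coprime.coprime_dvd_left h1 hS.1
  · apply pow_of_dvd (n := n)
    change S.relIndex (T.map (MulAut.conj (g' * g)).toMonoidHom) ∣ _
    have h1 : (U.map T.subtype).map (MulAut.conj (g' * g)).toMonoidHom ≤ S := by
      rw [hg']
      rintro _ ⟨u, hu, rfl⟩
      refine ⟨_, hg ⟨u, hu, rfl⟩, ?_⟩
      simp [mul_assoc]
    refine (Subgroup.relIndex_dvd_of_le_left _ h1).trans ?_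
    rw [Subgroup.relIndex_map_map_of_injective _ _ (MulAut.conj (g' * g)).injective]
    have h2 : (U.map T.subtype).relIndex T = U.index := by
      have h3 : (U.map T.subtype).subgroupOf T = U :=
        Subgroup.comap_map_eq_self_of_injective T.subtype_injective U
      change ((U.map T.subtype).subgroupOf T).index = _
      rw [h3]
    rw [h2, hU2]

end basic

end Cfsg.Agent.H76
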