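import Cfsg.Agent.H76.ConeD
import Cfsg.Agent.H76.DetMul
import Cfsg.Agent.H76.PComp2

/-!
# The cone property for `p`-solvable groups
-/

set_option autoImplicit false
set_option linter.unusedSectionVars false

namespace Cfsg.Agent.H76

open scoped ComplexConjugate
open Cfsg Cfsg.Agent.CharBase Cfsg.Agent.Char

attribute [local instance 100000] Fintype.ofFinite

universe u

section top

variable {G : Type*} [Group G] [Finite G]

theorem cone_top {K H : Subgroup G} (hK : K = ⊤) (hH : H = ⊤) {θ : K → ℂ}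
    (hθ : IsIrrCharacter K θ) : Cone K θ H := by
  classical
  subst hK hH
  set e : G ≃* (⊤ : Subgroup G) := Subgroup.topEquiv.symm with he
  let χ₀ : IrrCharacter G := ⟨fun g => θ (e g),
    isIrrCharacter_comp_surjective hθ e.toMonoidHom e.surjective⟩
  have hin : ∀ F : G → ℂ, classInner (fun k : (⊤ : Subgroup G) => F k) θ =
      classInner F (χ₀ : G → ℂ) := by
    intro F
    rw [← classInner_comp_equiv e (fun k : (⊤ : Subgroup G) => F k) θ]
    rfl
  have hθ0 : ∀ k : (⊤ : Subgroup G), (χ₀ : G → ℂ) k = θ k := fun k => rfl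
  refine ⟨{χ₀}, ?_, ?_, ?_⟩
  · intro χ hχ
    rw [Finset.mem_singleton] at hχ
    subst hχ
    rw [hin, classInner_irr_self]
    exact one_ne_zero
  · intro c hc χ hχ
    rw [Finset.mem_singleton] at hχ
    subst hχ
    have h1 := hc 1 (Subgroup.mem_top _)
    rw [Finset.sum_singleton] at h1
    exact (mul_eq_zero.mp h1).resolve_right (irr_one_ne_zero χ₀.2)
  · intro F hF hT hn
    obtain ⟨r, hr0, hr⟩ := hn ⟨θ, hθ⟩
    have hr' : classInner F (χ₀ : G → ℂ) = r := by rw [← hin]; exact hr
    refine ⟨fun χ => if χ = χ₀ then r else 0, fun χ => ?_, fun h _ => ?_⟩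
    · dsimp only; split_ifs
      · exact hr0
      · exact le_refl _
    · rw [Finset.sum_singleton]
      simp only [if_true]
      have h1 := congrFun (classFun_eq_sum hF) h
      rw [h1, Finset.sum_apply, Finset.sum_eq_single χ₀]
      · rw [Pi.smul_apply, hr', smul_eq_mul]
      · intro χ _ hne
        rw [Pi.smul_apply, hT χ, zero_smul]
        rw [hin, classInner_irr_of_ne hne]
      · intro h'; exact absurd (Finset.mem_univ _) h'

end top

section reps

variable {G : Type*} [Group G] [Finite G] {M : Subgroup G} [hMn : M.Normal]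

theorem inertia_cj (ψ : M → ℂ) (g : G) :
    inertia M (cj M g ψ) = (inertia M ψ).map (MulAut.conj g⁻¹).toMonoidHom := by
  ext x
  have h1 : x ∈ inertia M (cj M g ψ) ↔ g * x * g⁻¹ ∈ inertia M ψ := by
    rw [mem_inertia, ← cj_mul, cj_eq_cj_iff]
  rw [h1, Subgroup.mem_map]
  constructor
  · intro h
    refine ⟨g * x * g⁻¹, h, ?_⟩
    simp [mul_assoc]
  · rintro ⟨t, ht, rfl⟩
    simpa [mul_assoc] using ht

theorem exists_reps {p : ℕ} [hp : Fact p.Prime] (hG : IsPSolvable p G) {S : Subgroup G}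
    (hS : PC p S) : ∃ rep : IrrCharacter M → IrrCharacter M,
      (∀ ψ, ∃ g : G, cj M g (rep ψ : M → ℂ) = ψ) ∧
      (∀ ψ ψ' : IrrCharacter M, (∃ g : G, cj M g (ψ : M → ℂ) = ψ') → rep ψ = rep ψ') ∧
      ∀ ψ, PC p (S.subgroupOf (inertia M (rep ψ : M → ℂ))) := by
  classical
  let r : Setoid (IrrCharacter M) :=
    { r := fun ψ ψ' => ∃ g : G, cj M g (ψ : M → ℂ) = ψ'
      iseqv := ⟨fun ψ => ⟨1, cj_one M _⟩, fun {ψ ψ'} ⟨g, hg⟩ => ⟨g⁻¹, by
        rw [← hg]; exact cj_inv_cj M g _⟩, fun {a b c} ⟨g, hg⟩ ⟨h, hh⟩ => ⟨g * h, by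
        rw [cj_mul, hg, hh]⟩⟩ }
  have hex : ∀ q : Quotient r, ∃ ψ : IrrCharacter M, Quotient.mk r ψ = q ∧
      PC p (S.subgroupOf (inertia M (ψ : M → ℂ))) := by
    intro q
    induction q using Quotient.inductionOn with
    | h ψ =>
      obtain ⟨g, hg⟩ := exists_conj_PC hG hS (inertia M (ψ : M → ℂ))
      refine ⟨⟨cj M g⁻¹ (ψ : M → ℂ), isIrrCharacter_cj M g⁻¹ ψ.2⟩, ?_, ?_⟩
      · apply Quotient.sound
        refine ⟨g, ?_⟩
        change cj M g (cj M g⁻¹ (ψ : M → ℂ)) = ψ
        rw [← cj_mul, inv_mul_cancel, cj_one]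
      · change PC p (S.subgroupOf (inertia M (cj M g⁻¹ (ψ : M → ℂ))))
        rw [inertia_cj, inv_inv]
        exact hg
  choose f hf1 hf2 using hex
  refine ⟨fun ψ => f (Quotient.mk r ψ), fun ψ => ?_, fun ψ ψ' h => ?_, fun ψ => hf2 _⟩
  · exact Quotient.exact (hf1 (Quotient.mk r ψ))
  · have h1 : Quotient.mk r ψ = Quotient.mk r ψ' := Quotient.sound h
    change f (Quotient.mk r ψ) = f (Quotient.mk r ψ')
    rw [h1]

end reps

theorem cone_main {p : ℕ} [hp : Fact p.Prime] (N : ℕ) : ∀ {G : Type u} [Group G] [Finite G],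
    IsPSolvable p G → ∀ (K : Subgroup G) [K.Normal], K.index ≤ N → ∀ (θ : K → ℂ),
    IsIrrCharacter K θ → (∀ g : G, cj K g θ = θ) → ∀ d : ℕ, θ 1 = d → ¬ p ∣ d →
    ¬ p ∣ detOrder θ → ∀ S : Subgroup G, PC p S → Cone K θ (S ⊔ K) := by
  induction N with
  | zero =>
    intro G _ _ hG K _ hi
    exact absurd (Nat.le_zero.mp hi) Subgroup.index_ne_zero_of_finite
  | succ N ih =>
    intro G _ _ hG K hKn hi θ hθ hinv d hd hpd ho S hS
    by_cases hK : K = ⊤
    · exact cone_top hK (by rw [hK, sup_top_eq]) hθ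
    obtain ⟨M, hMn, hKM, hsec⟩ := Cop.sep_of_isPSolvable hG 1 K hKn hK
    have hMi : M.index ≤ N := by
      have h1 : M.index < K.index := by
        have h2 := Subgroup.relIndex_mul_index hKM.le
        have h3 : K.relIndex M ≠ 1 := by
          rw [Ne, Subgroup.relIndex_eq_one]; exact hKM.not_ge
        have h4 : K.relIndex M ≠ 0 := by
          intro h0; rw [h0, zero_mul] at h2
          exact Subgroup.index_ne_zero_of_finite h2.symm
        have h5 : M.index ≠ 0 := Subgroup.index_ne_zero_of_finite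
        rw [← h2]
        have h6 : 2 ≤ K.relIndex M := by omega
        nlinarith [Nat.pos_of_ne_zero h5]
      omega
    rw [pow_one] at hsec
    rcases hsec with hsec | ⟨q, hq, hqp, a, ha⟩
    · -- `p'`-section
      have hMS : M ≤ S ⊔ K := le_sup_of_coprime hS hsec
      have hSM : S ⊔ M = S ⊔ K := le_antisymm (sup_le le_sup_left hMS)
        (sup_le_sup_left hKM.le S)
      obtain ⟨rep, hrep1, hrep2, hrep3⟩ := exists_reps (M := M) hG hS
      have hPC : ∀ ψ, rep ψ = ψ → PC p (S.subgroupOf (inertia M (ψ : M → ℂ))) := by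
        intro ψ hψ
        have := hrep3 ψ
        rwa [hψ] at this
      refine cone_b hKM.le hMS hθ hinv rep hrep1 hrep2 ?_ ?_
      · intro ψ hψ
        rw [← hSM]
        exact conj_inertia hG hS (le_inertia' ψ) (hPC ψ hψ)
      · intro ψ hψ hover
        rw [← hSM, ← subgroupOf_sup_eq (le_inertia' ψ)]
        -- `ψ` restricted to `K`
        have hinvM : ∀ m : M, cj (K.subgroupOf M) m (sc M θ) = sc M θ := by
          intro m
          funext k
          exact congrFun (hinv (m : G)) ⟨((k : M) : G), k.2⟩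
        have hoverM : classInner (fun k : K.subgroupOf M => (ψ : M → ℂ) k) (sc M θ) ≠ 0 := by
          have h1 := classInner_comp_equiv (Subgroup.subgroupOfEquivOfLe hKM.le)
            (fun k : K => (ψ : M → ℂ) ⟨k, hKM.le k.2⟩) θ
          have h2 : (fun k : K.subgroupOf M => (ψ : M → ℂ) k) =
            (fun x => (fun k : K => (ψ : M → ℂ) ⟨k, hKM.le k.2⟩)
              ((Subgroup.subgroupOfEquivOfLe hKM.le) x)) := rfl
          have h3 : sc M θ = fun x => θ ((Subgroup.subgroupOfEquivOfLe hKM.le) x) := rfl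
          rw [h2, h3, h1]
          exact hover
        obtain ⟨e, he0, he⟩ := over_mult ψ.2 (sc_irr hKM.le hθ) hinvM hoverM
        obtain ⟨c, hc⟩ := exists_nat_degree (isCharacter_of_isIrr ψ.2)
        have hdvd := S0887.result (K.subgroupOf M) (ψ : M → ℂ) ψ.2 (sc M θ) (sc_irr hKM.le hθ)
          hoverM c d hc hd
        have hpi : ¬ p ∣ (K.subgroupOf M).index := by
          intro h
          exact (Nat.Prime.coprime_iff_not_dvd hp.out).mp hsec.symm h
        have hpc : ¬ p ∣ c := by
          intro h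
          rw [← Nat.div_mul_cancel hdvd.1] at h
          rcases (Nat.Prime.dvd_mul hp.out).mp h with h | h
          · exact hpi (h.trans hdvd.2)
          · exact hpd h
        have hpo : ¬ p ∣ detOrder (ψ : M → ℂ) := by
          refine not_dvd_detOrder hp.out ψ.2 (sc_irr hKM.le hθ) he hpi ?_
          rw [detOrder_sc hKM.le hθ]; exact ho
        refine ih (isPSolvable_subgroup _ hG) _ ?_ _ (sc_irr (le_inertia' ψ) ψ.2)
          (sc_inertia_inv ψ) c hc hpc ?_ _ (hPC ψ hψ)
        · refine le_trans ?_ hMi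
          refine Nat.le_of_dvd (Nat.pos_of_ne_zero Subgroup.index_ne_zero_of_finite) ?_
          change M.relIndex _ ∣ _
          exact ⟨_, (Subgroup.relIndex_mul_index (le_inertia' ψ)).symm⟩
        · rw [detOrder_sc (le_inertia' ψ) ψ.2]; exact hpo
    · -- `p`-section
      have hqp' : q = p := (Nat.prime_dvd_prime_iff_eq hq hp.out).mp hqp
      subst hqp'
      obtain ⟨θh, hθh, hres, hdet, hinvh⟩ := canon_exists hKM.le ha hθ hinv hd hpd ho
      have hKeq : (S ⊔ K) ⊓ M = K := sup_inf_eq hS hKM.le ha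
      have hsup : (S ⊔ K) ⊔ M = S ⊔ M := by
        rw [sup_assoc, sup_eq_right.mpr hKM.le]
      refine cone_a hKeq.symm (sup_le_sup_left hKM.le S) le_sup_right hsup hθ hθh ?_ hinvh
        (conj_section hG hKM.le hS) ?_
      · intro x hx hx'
        exact (hres ⟨x, hx⟩).symm
      · refine ih hG M hMi θh hθh hinvh d ?_ hpd ?_ S hS
        · have := hres 1
          rw [← hd, ← this]
          rfl
        · rw [hdet]; exact ho

end Cfsg.Agent.H76
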