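import Cfsg.Agent.H76.ConeE
import Cfsg.Agent.BlkC.Principal

/-!
# Kiyota–Okuyama: unions of blocks of `p`-solvable groups
-/

set_option autoImplicit false
set_option linter.unusedSectionVars false

namespace Cfsg.Agent.H76

open scoped ComplexConjugate
open Cfsg Cfsg.Agent.CharBase Cfsg.Agent.Blk Cfsg.Agent.BlkC Cfsg.Agent.Char

attribute [local instance 100000] Fintype.ofFinite

variable {G : Type*} [Group G] [Finite G]

theorem reg_real_deg (χ : IrrCharacter G) : ((charDegree (χ : G → ℂ) : ℝ) : ℂ) = (χ : G → ℂ) 1 := by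
  rw [charDegree_spec]; simp

theorem sep_of_vanish {p : ℕ} (𝓛 : Finset (IrrCharacter G))
    (d : IrrCharacter G → IrrCharacter G → ℝ) (hd : ∀ χ l, 0 ≤ d χ l)
    (hdec : ∀ (χ : IrrCharacter G) (x : G), ¬ p ∣ orderOf x →
      (χ : G → ℂ) x = ∑ l ∈ 𝓛, (d χ l : ℂ) * (l : G → ℂ) x)
    (hp1 : ¬ p ∣ 1) (U : Set (IrrCharacter G))
    (hU : ∀ x : G, p ∣ orderOf x → ∑ᶠ χ ∈ U, (χ : G → ℂ) 1 * (χ : G → ℂ) x = 0)
    (χ : IrrCharacter G) {l : IrrCharacter G} (hl : l ∈ 𝓛) (hne : ¬ (χ ∈ U ↔ l ∈ U)) :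
    d χ l = 0 := by
  classical
  set Φ : G → ℂ := ∑ χ ∈ (Finset.univ : Finset (IrrCharacter G)),
    (if χ ∈ U then (χ : G → ℂ) 1 else 0) • (χ : G → ℂ) with hΦ
  have hΦ0 : ∀ x, p ∣ orderOf x → Φ x = 0 := by
    intro x hx
    rw [← hU x hx, hΦ, Finset.sum_apply, finsum_mem_def, finsum_eq_sum_of_fintype]
    refine Finset.sum_congr rfl fun χ _ => ?_
    rw [Pi.smul_apply, smul_eq_mul]
    by_cases h : χ ∈ U
    · rw [if_pos h, Set.indicator_of_mem h]
    · rw [if_neg h, Set.indicator_of_notMem h, zero_mul]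
  have hin : ∀ χ : IrrCharacter G, classInner Φ (χ : G → ℂ) =
      if χ ∈ U then (χ : G → ℂ) 1 else 0 := by
    intro χ
    rw [hΦ, inner_finset, if_pos (Finset.mem_univ _)]
  have hexp : classInner Φ (χ : G → ℂ) = ∑ l ∈ 𝓛, (d χ l : ℂ) * classInner Φ (l : G → ℂ) := by
    simp only [classInner]
    rw [Finset.sum_congr rfl fun l _ => mul_left_comm (d χ l : ℂ) _ _, ← Finset.mul_sum]
    congr 1
    simp only [Finset.mul_sum]
    rw [Finset.sum_comm]
    refine Finset.sum_congr rfl fun x _ => ?_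
    by_cases hx : p ∣ orderOf x
    · simp [hΦ0 x hx]
    · rw [hdec χ x hx, map_sum, Finset.mul_sum]
      refine Finset.sum_congr rfl fun l _ => ?_
      rw [map_mul, Complex.conj_ofReal]
      ring
  -- real version
  let u : IrrCharacter G → ℝ := fun χ => if χ ∈ U then (charDegree (χ : G → ℂ) : ℝ) else 0
  have hu : ∀ χ : IrrCharacter G, classInner Φ (χ : G → ℂ) = (u χ : ℂ) := by
    intro χ
    rw [hin]
    simp only [u]
    split_ifs
    · rw [reg_real_deg]
    · simp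
  have h1 : u χ = ∑ l ∈ 𝓛, d χ l * u l := by
    have := hexp
    rw [hu, Finset.sum_congr rfl fun l _ => by rw [hu]] at this
    exact_mod_cast this
  have h2 : (charDegree (χ : G → ℂ) : ℝ) = ∑ l ∈ 𝓛, d χ l * (charDegree (l : G → ℂ) : ℝ) := by
    have := hdec χ 1 (by rw [orderOf_one]; exact hp1)
    rw [← reg_real_deg, Finset.sum_congr rfl fun l _ => by rw [← reg_real_deg]] at this
    exact_mod_cast this
  have hpos : ∀ χ : IrrCharacter G, 0 < (charDegree (χ : G → ℂ) : ℝ) := by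
    intro χ
    have h3 : (charDegree (χ : G → ℂ) : ℝ) ≠ 0 := by
      intro h
      apply irr_one_ne_zero χ.2
      rw [← reg_real_deg, h]; simp
    exact lt_of_le_of_ne (Nat.cast_nonneg _) h3.symm
  by_cases hχ : χ ∈ U
  · have hlU : l ∉ U := fun h => hne ⟨fun _ => h, fun _ => hχ⟩
    have h3 : ∑ l ∈ 𝓛, d χ l * ((charDegree (l : G → ℂ) : ℝ) - u l) = 0 := by
      rw [Finset.sum_congr rfl fun l _ => mul_sub (d χ l) _ _, Finset.sum_sub_distrib, ← h1, ← h2]
      simp only [u]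
      rw [if_pos hχ, sub_self]
    rw [Finset.sum_eq_zero_iff_of_nonneg] at h3
    · have h4 := h3 l hl
      simp only [u] at h4
      rw [if_neg hlU, sub_zero] at h4
      exact (mul_eq_zero.mp h4).resolve_right (hpos l).ne'
    · intro l _
      apply mul_nonneg (hd χ l)
      simp only [u]
      split_ifs
      · simp
      · simp
  · have hlU : l ∈ U := by
      by_contra h
      exact hne ⟨fun h' => absurd h' hχ, fun h' => absurd h' h⟩
    have h3 : ∑ l ∈ 𝓛, d χ l * u l = 0 := by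
      rw [← h1]; simp only [u]; rw [if_neg hχ]
    rw [Finset.sum_eq_zero_iff_of_nonneg] at h3
    · have h4 := h3 l hl
      simp only [u] at h4
      rw [if_pos hlU] at h4
      exact (mul_eq_zero.mp h4).resolve_right (hpos l).ne'
    · intro l _
      apply mul_nonneg (hd χ l)
      simp only [u]
      split_ifs
      · simp
      · simp

theorem reg_zero_of_sep {p : ℕ} (𝓛 : Finset (IrrCharacter G))
    (d : IrrCharacter G → IrrCharacter G → ℝ)
    (hdec : ∀ (χ : IrrCharacter G) (x : G), ¬ p ∣ orderOf x →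
      (χ : G → ℂ) x = ∑ l ∈ 𝓛, (d χ l : ℂ) * (l : G → ℂ) x)
    (hind : ∀ c : IrrCharacter G → ℂ, (∀ x : G, ¬ p ∣ orderOf x →
      ∑ l ∈ 𝓛, c l * (l : G → ℂ) x = 0) → ∀ l ∈ 𝓛, c l = 0)
    (U : Set (IrrCharacter G)) (hsep : ∀ χ, ∀ l ∈ 𝓛, ¬ (χ ∈ U ↔ l ∈ U) → d χ l = 0)
    {χ ψ : IrrCharacter G} (hχ : χ ∈ U) (hψ : ψ ∉ U) :
    regInner p (χ : G → ℂ) (ψ : G → ℂ) = 0 := by
  classical
  let u : IrrCharacter G → ℂ := fun χ => if χ ∈ U then 1 else 0
  have hu : ∀ χ, ∀ l ∈ 𝓛, u χ * (d χ l : ℂ) = u l * (d χ l : ℂ) := by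
    intro χ l hl
    by_cases h : χ ∈ U ↔ l ∈ U
    · simp only [u]
      by_cases h' : χ ∈ U
      · rw [if_pos h', if_pos (h.mp h')]
      · rw [if_neg h', if_neg (fun h'' => h' (h.mpr h''))]
    · rw [hsep χ l hl h]; simp
  -- projective characters vanish on `p`-singular elements
  have hproj : ∀ x : G, p ∣ orderOf x → ∀ l ∈ 𝓛, ∑ χ : IrrCharacter G,
      (d χ l : ℂ) * conj ((χ : G → ℂ) x) = 0 := by
    intro x hx
    apply hind fun l => ∑ χ : IrrCharacter G, (d χ l : ℂ) * conj ((χ : G → ℂ) x)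
    intro g hg
    have h1 := column_orthogonality_of_not_isConj (g := g) (h := x) (by
      intro h
      apply hg
      rw [orderOf_conj_eq h]; exact hx)
    rw [Finset.sum_congr rfl fun χ _ => by rw [hdec χ g hg, Finset.sum_mul], Finset.sum_comm] at h1
    rw [← h1]
    refine Finset.sum_congr rfl fun l _ => ?_
    rw [Finset.sum_mul]
    refine Finset.sum_congr rfl fun χ _ => ?_
    ring
  have hos : ∀ g x : G, ¬ p ∣ orderOf g → p ∣ orderOf x → ∑ χ : IrrCharacter G,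
      u χ * (χ : G → ℂ) g * conj ((χ : G → ℂ) x) = 0 := by
    intro g x hg hx
    have h1 : ∀ χ : IrrCharacter G, u χ * (χ : G → ℂ) g * conj ((χ : G → ℂ) x) =
        ∑ l ∈ 𝓛, u l * (l : G → ℂ) g * ((d χ l : ℂ) * conj ((χ : G → ℂ) x)) := by
      intro χ
      rw [hdec χ g hg, Finset.mul_sum, Finset.sum_mul]
      refine Finset.sum_congr rfl fun l hl => ?_
      rw [← mul_assoc, hu χ l hl]
      ring
    rw [Finset.sum_congr rfl fun χ _ => h1 χ, Finset.sum_comm]
    refine Finset.sum_eq_zero fun l hl => ?_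
    rw [← Finset.mul_sum, hproj x hx l hl, mul_zero]
  -- the expansion
  have hexp : ∀ g : G, ¬ p ∣ orderOf g → ∑ χ : IrrCharacter G,
      u χ * (χ : G → ℂ) g * conj (regInner p (χ : G → ℂ) (ψ : G → ℂ)) = 0 := by
    intro g hg
    have h1 : ∑ χ : IrrCharacter G,
        u χ * conj ((χ : G → ℂ) g) * regInner p (χ : G → ℂ) (ψ : G → ℂ) =
        classInner (∑ χ ∈ (Finset.univ : Finset (IrrCharacter G)),
          (u χ * conj ((χ : G → ℂ) g)) • (χ : G → ℂ)) (ψ : G → ℂ) := by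
      unfold regInner classInner
      rw [Finset.sum_congr rfl fun χ _ => mul_left_comm _ _ _, ← Finset.mul_sum]
      congr 1
      simp only [Finset.mul_sum]
      rw [Finset.sum_comm]
      refine Finset.sum_congr rfl fun x _ => ?_
      by_cases hx : p ∣ orderOf x
      · have h2 := congrArg conj (hos g x hg hx)
        rw [map_sum, map_zero] at h2
        have h3 : (∑ χ ∈ (Finset.univ : Finset (IrrCharacter G)),
            (u χ * conj ((χ : G → ℂ) g)) • (χ : G → ℂ)) x = 0 := by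
          rw [← h2, Finset.sum_apply]
          refine Finset.sum_congr rfl fun χ _ => ?_
          rw [Pi.smul_apply, smul_eq_mul, map_mul, map_mul, Complex.conj_conj]
          congr 2
          simp only [u]
          split_ifs <;> simp
        rw [h3, zero_mul]
        refine Finset.sum_eq_zero fun χ _ => ?_
        unfold regConj
        rw [if_pos hx, mul_zero, mul_zero]
      · rw [Finset.sum_apply, Finset.sum_mul]
        refine Finset.sum_congr rfl fun χ _ => ?_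
        unfold regConj
        rw [if_neg hx, Pi.smul_apply, smul_eq_mul]
        ring
    rw [inner_finset, if_pos (Finset.mem_univ _)] at h1
    have h4 : u ψ = 0 := by simp only [u]; rw [if_neg hψ]
    rw [h4, zero_mul] at h1
    have h5 := congrArg conj h1
    rw [map_sum, map_zero] at h5
    rw [← h5]
    refine Finset.sum_congr rfl fun χ _ => ?_
    rw [map_mul, map_mul, Complex.conj_conj]
    congr 2
    simp only [u]
    split_ifs <;> simp
  have hsum : ∑ χ : IrrCharacter G, u χ * (conj (regInner p (χ : G → ℂ) (ψ : G → ℂ)) *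
      regInner p (χ : G → ℂ) (ψ : G → ℂ)) = 0 := by
    have h1 : ∀ χ : IrrCharacter G, u χ * (conj (regInner p (χ : G → ℂ) (ψ : G → ℂ)) *
        regInner p (χ : G → ℂ) (ψ : G → ℂ)) = (Nat.card G : ℂ)⁻¹ * ∑ g : G,
        (u χ * (χ : G → ℂ) g * conj (regInner p (χ : G → ℂ) (ψ : G → ℂ))) *
          regConj p (ψ : G → ℂ) g := by
      intro χ
      generalize conj (regInner p (χ : G → ℂ) (ψ : G → ℂ)) = r
      unfold regInner
      simp only [Finset.mul_sum]
      refine Finset.sum_congr rfl fun g _ => ?_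
      ring
    rw [Finset.sum_congr rfl fun χ _ => h1 χ, ← Finset.mul_sum, Finset.sum_comm]
    rw [Finset.sum_eq_zero, mul_zero]
    intro g _
    rw [← Finset.sum_mul]
    by_cases hg : p ∣ orderOf g
    · unfold regConj
      rw [if_pos hg, mul_zero]
    · rw [hexp g hg, zero_mul]
  have hsum' : ∑ χ : IrrCharacter G, (if χ ∈ U then
      Complex.normSq (regInner p (χ : G → ℂ) (ψ : G → ℂ)) else 0) = 0 := by
    have : ((∑ χ : IrrCharacter G, (if χ ∈ U then
      Complex.normSq (regInner p (χ : G → ℂ) (ψ : G → ℂ)) else 0) : ℝ) : ℂ) = 0 := by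
      rw [← hsum]
      push_cast
      refine Finset.sum_congr rfl fun χ _ => ?_
      simp only [u]
      split_ifs
      · rw [one_mul, Complex.normSq_eq_conj_mul_self]
      · simp
    exact_mod_cast this
  rw [Finset.sum_eq_zero_iff_of_nonneg] at hsum'
  · have h1 := hsum' χ (Finset.mem_univ _)
    rw [if_pos hχ] at h1
    exact Complex.normSq_eq_zero.mp h1
  · intro χ _
    split_ifs
    · exact Complex.normSq_nonneg _
    · exact le_refl _

theorem kiyota_okuyama (p : ℕ) [Fact p.Prime] (M : Ideal Cfsg.AlgInt) (hM : Cfsg.IsPModular p M) (hsolv : Cfsg.IsPSolvable p G) (U : Set (Cfsg.IrrCharacter G)) (hU : ∀ x : G, p ∣ orderOf x → ∑ᶠ χ ∈ U, (χ : G → ℂ) 1 * (χ : G → ℂ) x = 0) (χ : Cfsg.IrrCharacter G) (hχ : χ ∈ U) (ψ : Cfsg.IrrCharacter G) (hψ : Cfsg.SameBlock M (χ : G → ℂ) (ψ : G → ℂ)) : ψ ∈ U := by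
  classical
  have hMp := isPrime_of_isPModular hM
  have hpp : p.Prime := Fact.out
  obtain ⟨⟨S, hS1, hS2⟩, hconj, hcont⟩ := S3744.result hsolv
  have hS : PC p S := ⟨hS1, hS2⟩
  have hreg : ∀ x : G, ¬ p ∣ orderOf x → ∃ g : G, g * x * g⁻¹ ∈ S := by
    intro x hx
    obtain ⟨H, hH1, hH2, g, hg⟩ := hcont (Subgroup.zpowers x) (by
      rw [Nat.card_zpowers]
      exact ((Nat.Prime.coprime_iff_not_dvd hpp).mpr hx).symm)
    obtain ⟨g', rfl⟩ := hconj H S hH1 hH2 hS1 hS2
    refine ⟨g' * g, g * x * g⁻¹, hg ⟨x, Subgroup.mem_zpowers x, rfl⟩, ?_⟩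
    simp [mul_assoc]
  -- the trivial character of the trivial group
  let θ : (⊥ : Subgroup G) → ℂ := fun _ => 1
  have hθ : Cfsg.IsIrrCharacter (⊥ : Subgroup G) θ := (oneIrr (⊥ : Subgroup G)).2
  have hdet : ¬ p ∣ detOrder θ := by
    intro h
    have h1 : detOrder θ ∣ Nat.card (⊥ : Subgroup G) := by
      obtain ⟨k, ρ, hρ, h0⟩ := hθ
      unfold detOrder
      apply orderOf_dvd_of_pow_eq_one
      rw [pow_fun_eq_one_iff, ← h0, detChar_eq ρ ⟨k, ρ, hρ, rfl⟩]
      intro x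
      rw [← map_pow, pow_card_eq_one', map_one]
    rw [Subgroup.card_bot] at h1
    exact hpp.one_lt.ne' (Nat.dvd_one.mp (h.trans h1))
  obtain ⟨𝓛, h1, h2, h3⟩ := cone_main (p := p) (⊥ : Subgroup G).index hsolv ⊥ le_rfl θ hθ
    (fun g => rfl) 1 (by simp [θ]) (fun h => hpp.one_lt.ne' (Nat.dvd_one.mp h)) hdet S hS
  rw [sup_bot_eq] at h2
  have h4 : ∀ χ : Cfsg.IrrCharacter G, ∃ d : Cfsg.IrrCharacter G → ℝ, (∀ l, 0 ≤ d l) ∧
      ∀ h ∈ S, (χ : G → ℂ) h = ∑ l ∈ 𝓛, (d l : ℂ) * (l : G → ℂ) h := by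
    intro χ
    obtain ⟨d, hd, hdF⟩ := h3 (χ : G → ℂ) (irr_isClassFunction χ) (by
      intro χ' h0
      exfalso
      have h5 : classInner (fun k : (⊥ : Subgroup G) => (χ' : G → ℂ) k) θ = (χ' : G → ℂ) 1 := by
        unfold classInner
        have : Unique (⊥ : Subgroup G) := ⟨⟨1⟩, fun x => Subsingleton.elim _ _⟩
        rw [Subgroup.card_bot, Finset.sum_eq_single (1 : (⊥ : Subgroup G))]
        · simp [θ]
        · intro b _ hb; exact absurd (Subsingleton.elim b 1) hb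
        · intro hb; exact absurd (Finset.mem_univ _) hb
      rw [h5] at h0
      exact irr_one_ne_zero χ'.2 h0) (by
      intro α
      obtain ⟨n, hn⟩ := classInner_natCast (isCharacter_restrict (isCharacter_of_isIrr χ.2)
        (S ⊔ ⊥)) (isCharacter_of_isIrr α.2)
      exact ⟨n, Nat.cast_nonneg _, by rw [hn]; simp⟩)
    exact ⟨d, hd, fun h hh => hdF h (Subgroup.mem_sup_left hh)⟩
  choose d hd hdF using h4
  have hcj : ∀ (χ : Cfsg.IrrCharacter G) (g x : G), (χ : G → ℂ) (g * x * g⁻¹) = (χ : G → ℂ) x :=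
    fun χ g x => irr_isClassFunction χ x g
  have hdec : ∀ (χ : Cfsg.IrrCharacter G) (x : G), ¬ p ∣ orderOf x →
      (χ : G → ℂ) x = ∑ l ∈ 𝓛, (d χ l : ℂ) * (l : G → ℂ) x := by
    intro χ x hx
    obtain ⟨g, hg⟩ := hreg x hx
    have h5 := hdF χ _ hg
    rw [hcj] at h5
    rw [h5]
    exact Finset.sum_congr rfl fun l _ => by rw [hcj]
  have hind : ∀ c : Cfsg.IrrCharacter G → ℂ, (∀ x : G, ¬ p ∣ orderOf x →
      ∑ l ∈ 𝓛, c l * (l : G → ℂ) x = 0) → ∀ l ∈ 𝓛, c l = 0 := by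
    intro c hc
    apply h2 c
    intro h hh
    apply hc
    intro hdvd
    have h5 : orderOf h ∣ Nat.card S := by
      rw [← Subgroup.orderOf_mk h hh]
      exact orderOf_dvd_natCard _
    exact ((Nat.Prime.coprime_iff_not_dvd hpp).mp hS1.symm) (hdvd.trans h5)
  have hzero : ∀ χ ψ : Cfsg.IrrCharacter G, χ ∈ U → ψ ∉ U →
      regInner p (χ : G → ℂ) (ψ : G → ℂ) = 0 := by
    intro χ ψ hχ hψ
    have := reg_zero_of_sep 𝓛 d hdec hind U (fun χ l hl hne => sep_of_vanish 𝓛 d hd hdec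
      (fun h => hpp.one_lt.ne' (Nat.dvd_one.mp h)) U hU χ hl hne) hχ hψ
    exact this
  obtain ⟨χ₀, hχ₀, h0⟩ := exists_height_zero hM (isPBlock_blockOf (M := M) χ)
  by_contra hcon
  by_cases hχU : χ₀ ∈ U
  · exact regInner_ne_zero_of_height hM (isPBlock_blockOf χ) (ψ := χ₀) hψ hχ₀ h0 (by
      rw [← regInner_conj, hzero χ₀ ψ hχU hcon, map_zero])
  · exact regInner_ne_zero_of_height hM (isPBlock_blockOf χ) (ψ := χ₀) (mem_blockOf_self χ) hχ₀ h0
      (hzero χ χ₀ hχ hχU)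

end Cfsg.Agent.H76
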