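import Cfsg.Agent.H75.DetChar
import Cfsg.Agent.Blk.Osima
import Cfsg.Agent.H4.CharKer

/-!
# Small degrees in the principal block
-/

set_option autoImplicit false
set_option linter.unusedSectionVars false

namespace Cfsg.Agent.H76

open scoped ComplexConjugate
open Cfsg Cfsg.Agent.CharBase Cfsg.Agent.Blk

attribute [local instance 100000] Fintype.ofFinite

universe u

variable {G : Type u} [Group G] [Finite G]

/-- In the principal block `χ(v) ≡ χ(1)` when the class of `v` has size prime to `p`. -/
theorem congr_principal {p : ℕ} {M : Ideal AlgInt} (hM : IsPModular p M) {χ : IrrCharacter G}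
    (hχ : χ ∈ principalBlock M G) {v : G}
    (hv : ¬ p ∣ (Subgroup.centralizer ({v} : Set G)).index) :
    MemLocalIdeal M ((χ : G → ℂ) v - (χ : G → ℂ) 1) := by
  have hMp : M.IsPrime := hM.2.1.isPrime
  have h1 := hχ v
  have h2 : MemLocalRing M ((χ : G → ℂ) 1 * ((Subgroup.centralizer ({v} : Set G)).index : ℂ)⁻¹) :=
    mlr_mul (mlr_irr χ 1) (mlr_natCast_inv hM hv)
  have h3 := mli_neg (mli_mul_left h2 h1)
  have h4 : (χ : G → ℂ) 1 ≠ 0 := irr_one_ne_zero χ.2
  have h5 : ((Subgroup.centralizer ({v} : Set G)).index : ℂ) ≠ 0 := by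
    exact_mod_cast Subgroup.index_ne_zero_of_finite
  have h6 : -((χ : G → ℂ) 1 * ((Subgroup.centralizer ({v} : Set G)).index : ℂ)⁻¹ *
      (centralChar (fun _ : G => (1 : ℂ)) v - centralChar (χ : G → ℂ) v)) =
      (χ : G → ℂ) v - (χ : G → ℂ) 1 := by
    unfold centralChar
    field_simp
    ring
  rw [h6] at h3
  exact h3

theorem sum_pow_eq_zero {m : ℕ} {z : ℂ} (hz : z ^ m = 1) (hz1 : z ≠ 1) :
    ∑ k ∈ Finset.range m, z ^ k = 0 := by
  have h1 := geom_sum_mul z m
  rw [hz, sub_self] at h1
  rcases mul_eq_zero.mp h1 with h | h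
  · exact h
  · exact absurd (sub_eq_zero.mp h) hz1

theorem count_eq {m : ℕ} (hm : 0 < m) (R : Multiset ℂ) (hR : ∀ r ∈ R, r ^ m = 1) {w : ℂ}
    (hw : w ^ m = 1) :
    ∑ k ∈ Finset.range m, (w⁻¹) ^ k * (R.map (· ^ k)).sum = (m : ℂ) * R.count w := by
  classical
  have hw0 : w ≠ 0 := by
    rintro rfl
    rw [zero_pow hm.ne'] at hw
    exact zero_ne_one hw
  induction R using Multiset.induction_on with
  | empty => simp
  | cons r R ih =>
    have ih' := ih (fun r hr => hR r (Multiset.mem_cons_of_mem hr))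
    simp only [Multiset.map_cons, Multiset.sum_cons, mul_add, Finset.sum_add_distrib]
    rw [ih', Multiset.count_cons]
    have h1 : ∑ k ∈ Finset.range m, (w⁻¹) ^ k * r ^ k = if w = r then (m : ℂ) else 0 := by
      split_ifs with h
      · subst h
        simp only [← mul_pow, inv_mul_cancel₀ hw0, one_pow]
        simp
      · simp only [← mul_pow]
        apply sum_pow_eq_zero
        · rw [mul_pow, inv_pow, hw, hR r (Multiset.mem_cons_self r R)]; simp
        · intro h2
          apply h
          field_simp at h2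
          exact h2.symm
    rw [h1]
    push_cast
    split_ifs <;> ring

theorem eq_one_of_lt {p : ℕ} [hpf : Fact p.Prime] {M : Ideal AlgInt} (hM : IsPModular p M)
    (hperf : commutator G = ⊤) {χ : IrrCharacter G} (hχ : χ ∈ principalBlock M G)
    (hfaith : ∀ g : G, (χ : G → ℂ) g = (χ : G → ℂ) 1 → g = 1)
    (hdeg : charDegree (χ : G → ℂ) < 2 * p) {v : G} (hv : ¬ p ∣ orderOf v)
    (hC : ∀ k : ℕ, ¬ p ∣ (Subgroup.centralizer ({v ^ k} : Set G)).index) : v = 1 := by
  classical
  have hMp : M.IsPrime := hM.2.1.isPrime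
  have hcongr := fun k : ℕ => congr_principal hM hχ (hC k)
  obtain ⟨χ, n, ρ, hρ, rfl⟩ := χ
  simp only at hcongr hdeg hfaith
  set m := orderOf v with hm
  have hmpos : 0 < m := orderOf_pos v
  have hf : (ρ v) ^ m = 1 := by rw [← map_pow, hm, pow_orderOf_eq_one, map_one]
  set R := (ρ v).charpoly.roots with hR
  have hRm : ∀ r ∈ R, r ^ m = 1 := fun r hr => Char.endo_pow_eq_one_of_mem_roots hf hr
  have htr : ∀ k : ℕ, ρ.character (v ^ k) = (R.map (· ^ k)).sum := by
    intro k
    rw [← H75.trace_pow_eq_roots hmpos.ne' hf k, ← map_pow]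
    rfl
  have hcard : Multiset.card R = n := by
    rw [hR, Char.endo_card_roots]; simp
  have hchar1 : ρ.character 1 = n := by
    rw [Representation.char_one]; simp
  have hn2p : n < 2 * p := by
    unfold charDegree at hdeg
    rw [hchar1] at hdeg
    simpa using hdeg
  -- multiplicities of the nontrivial eigenvalues are divisible by `p`
  have hdvd : ∀ w : ℂ, w ^ m = 1 → w ≠ 1 → p ∣ R.count w := by
    intro w hw hw1
    have hw0 : w ≠ 0 := by
      rintro rfl
      rw [zero_pow hmpos.ne'] at hw
      exact zero_ne_one hw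
    have hinv : (w⁻¹) ^ m = 1 := by rw [inv_pow, hw, inv_one]
    have hinvint : IsIntegral ℤ (w⁻¹) := by
      refine ⟨Polynomial.X ^ m - 1, Polynomial.monic_X_pow_sub_C 1 hmpos.ne', ?_⟩
      simp [hinv]
    have h1 := count_eq hmpos R hRm hw
    have h2 : MemLocalIdeal M (∑ k ∈ Finset.range m, (w⁻¹) ^ k *
        (ρ.character (v ^ k) - ρ.character 1)) := by
      apply mli_sum
      intro k _
      exact mli_mul_left (mlr_pow (mlr_of_isIntegral hinvint) k) (hcongr k)
    have h3 : ∑ k ∈ Finset.range m, (w⁻¹) ^ k * (ρ.character (v ^ k) - ρ.character 1) =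
        (m : ℂ) * R.count w := by
      rw [← h1]
      simp only [mul_sub, Finset.sum_sub_distrib, ← Finset.sum_mul]
      rw [sum_pow_eq_zero hinv (fun h => hw1 (inv_eq_one.mp h)), zero_mul, sub_zero]
      exact Finset.sum_congr rfl fun k _ => by rw [htr k]
    rw [h3] at h2
    have h4 : MemLocalIdeal M ((m * R.count w : ℕ) : ℂ) := by push_cast; exact h2
    rw [mli_natCast_iff hM] at h4
    exact (hpf.out.dvd_mul.mp h4).resolve_left hv
  -- the determinant is trivial
  have hdet : LinearMap.det (ρ v) = 1 := by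
    let φ : G →* ℂ := (LinearMap.det (M := Fin n → ℂ) (A := ℂ)).comp
      (ρ : G →* ((Fin n → ℂ) →ₗ[ℂ] (Fin n → ℂ)))
    have h1 : v ∈ (φ.toHomUnits).ker := by
      apply Abelianization.commutator_subset_ker
      rw [hperf]; trivial
    rw [MonoidHom.mem_ker] at h1
    have h2 := congrArg (fun u : ℂˣ => (u : ℂ)) h1
    exact h2
  have hprod : R.prod = 1 := by
    rw [hR, ← Module.End.det_eq_prod_roots_charpoly_of_splits (IsAlgClosed.splits _)]
    exact hdet
  have hall : ∀ r ∈ R, r = 1 := by
    by_contra hne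
    push Not at hne
    obtain ⟨w, hw, hw1⟩ := hne
    have hcw := hdvd w (hRm w hw) hw1
    have hcwpos : 0 < R.count w := Multiset.count_pos.mpr hw
    have hple : p ≤ R.count w := Nat.le_of_dvd hcwpos hcw
    have hother : ∀ r ∈ R, r ≠ w → r = 1 := by
      intro r hr hrw
      by_contra hr1
      have hcr := hdvd r (hRm r hr) hr1
      have hple' : p ≤ R.count r := Nat.le_of_dvd (Multiset.count_pos.mpr hr) hcr
      have h1 : R.count w + R.count r ≤ Multiset.card R := by
        rw [← Multiset.toFinset_sum_count_eq R]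
        have h2 : ({w, r} : Finset ℂ) ⊆ R.toFinset := by
          intro x hx
          rw [Finset.mem_insert, Finset.mem_singleton] at hx
          rcases hx with rfl | rfl
          · exact Multiset.mem_toFinset.mpr hw
          · exact Multiset.mem_toFinset.mpr hr
        have h3 := Finset.sum_le_sum_of_subset (f := fun x => R.count x) h2
        rw [Finset.sum_pair (fun h => hrw h.symm)] at h3
        exact h3
      omega
    have h1 : R.prod = w ^ R.count w := by
      apply Multiset.prod_eq_pow_single w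
      intro a ha haR
      exact hother a haR ha
    have h2 : R.count w ≤ n := by rw [← hcard]; exact Multiset.count_le_card w R
    have h3 : R.count w = p := by
      obtain ⟨c, hc⟩ := hcw
      have : c = 1 := by
        rcases Nat.lt_or_ge c 2 with h | h
        · interval_cases c
          · omega
          · rfl
        · nlinarith
      rw [hc, this, mul_one]
    rw [hprod, h3] at h1
    have h4 := hRm w hw
    have h5 : Nat.Coprime p m := (Nat.Prime.coprime_iff_not_dvd hpf.out).mpr hv
    have h6 : orderOf w ∣ Nat.gcd p m := Nat.dvd_gcd (orderOf_dvd_of_pow_eq_one h1.symm)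
      (orderOf_dvd_of_pow_eq_one h4)
    rw [h5, Nat.dvd_one, orderOf_eq_one_iff] at h6
    exact hw1 h6
  apply hfaith
  have h1 := htr 1
  simp only [pow_one, Multiset.map_id'] at h1
  rw [h1, hchar1, Multiset.eq_replicate.mpr ⟨hcard, hall⟩]
  simp

/-- S4729 -/
theorem isPGroup_centralizer {p : ℕ} [hpf : Fact p.Prime] {M : Ideal AlgInt}
    (hM : IsPModular p M) (hperf : commutator G = ⊤) (P : Sylow p G) (χ : IrrCharacter G)
    (hχ : χ ∈ principalBlock M G)
    (hfaith : ∀ g : G, (χ : G → ℂ) g = (χ : G → ℂ) 1 → g = 1)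
    (hdeg : charDegree (χ : G → ℂ) < 2 * p) :
    IsPGroup p ↥(Subgroup.centralizer ((P : Subgroup G) : Set G)) := by
  have key : ∀ v ∈ Subgroup.centralizer ((P : Subgroup G) : Set G), ¬ p ∣ orderOf v → v = 1 := by
    intro v hv hvp
    apply eq_one_of_lt hM hperf hχ hfaith hdeg hvp
    intro k h1
    have h2 : (P : Subgroup G) ≤ Subgroup.centralizer ({v ^ k} : Set G) := by
      intro x hx
      rw [Subgroup.mem_centralizer_singleton_iff]
      have h3 : Commute x v := (Subgroup.mem_centralizer_iff.mp hv x hx)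
      exact (h3.pow_right k)
    exact P.not_dvd_index (h1.trans (Subgroup.index_dvd_of_le h2))
  rw [IsPGroup.iff_orderOf]
  rintro ⟨v, hv⟩
  rw [Subgroup.orderOf_mk]
  set k := (orderOf v).factorization p with hk
  refine ⟨k, ?_⟩
  have h1 : v ^ p ^ k = 1 := by
    apply key _ (Subgroup.pow_mem _ hv _)
    rw [orderOf_pow_of_dvd (pow_ne_zero _ hpf.out.ne_zero) (Nat.ordProj_dvd _ _)]
    exact Nat.not_dvd_ordCompl hpf.out (orderOf_pos v).ne'
  have h2 := orderOf_dvd_of_pow_eq_one h1
  exact Nat.dvd_antisymm h2 (Nat.ordProj_dvd _ _)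

end Cfsg.Agent.H76
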