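import Cfsg.Agent.Cop.Baer
import Mathlib

/-!
# Baer's trick: an involutory automorphism attached to a coprime action on a group of class two
-/

set_option autoImplicit false
set_option linter.unusedSectionVars false
set_option linter.unusedFintypeInType false

namespace Cfsg.Agent.H76.OS

open scoped commutatorElement
open Cfsg.Agent.Cop

universe u v w

variable {K : Type u} [Group K] {S : Type v} [Group S]

/-- The Baer group as an abstract abelian group. -/
theorem exists_baer_group (φ : S →* MulAut K) (hcl : ∀ x y z : K, Commute ⁅x, y⁆ z) (h : ℕ)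
    (hh : ∀ x y : K, ⁅x, y⁆ ^ (2 * h) = ⁅x, y⁆) :
    ∃ (B : Type u) (_ : CommGroup B) (_ : MulDistribMulAction S B) (e : K ≃ B),
      (∀ x y, e x * e y = e (x * y * ⁅y, x⁆ ^ h)) ∧ (∀ (s : S) (x : K), s • e x = e (φ s x)) :=
  ⟨Baer K, baerCommGroup hcl h hh, baerAction φ hcl h hh, Equiv.refl K, fun _ _ => rfl,
    fun _ _ => rfl⟩

theorem exists_baer [Finite K] [Finite S] (φ : S →* MulAut K) (Z : Subgroup K)
    (hZ : ∀ x y : K, ⁅x, y⁆ ∈ Z)
    (hZc : ∀ z ∈ Z, ∀ x : K, Commute z x) (hZS : ∀ s, ∀ z ∈ Z, φ s z = z)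
    (hodd : Odd (Nat.card K)) (hcop : (Nat.card K).Coprime (Nat.card S)) :
    ∃ (π : K → K) (τ : K → K),
      (∀ s x, φ s (π x) = π x) ∧ (∀ x, (∀ s, φ s x = x) → π x = x) ∧ (∀ s x, π (φ s x) = π x) ∧
      (∀ x y, ∃ z ∈ Z, π (x * y) = π x * π y * z) ∧
      (∀ c, (∀ s, φ s c = c) → ∀ x, ⁅c, x⁆ = ⁅c, π x⁆) ∧
      (∀ β : K ≃* K, (∀ s x, φ s (β x) = β (φ s x)) → ∀ x, π (β x) = β (π x)) ∧
      (∀ R : Subgroup K, (∀ x ∈ R, ∀ y ∈ R, x * y = y * x) → (∀ s, ∀ r ∈ R, φ s r ∈ R) →
        ∀ ω : K → ℂ, (∀ x ∈ R, ∀ y ∈ R, ω (x * y) = ω x * ω y) → ω 1 = 1 →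
          (∀ s, ∀ r ∈ R, ω (φ s r) = ω r) → ∀ r ∈ R, π r ∈ R ∧ ω (π r) = ω r) ∧
      (∀ x y, τ (x * y) = τ x * τ y) ∧ (∀ x, τ (τ x) = x) ∧
      (∀ x, τ x = x ↔ ∀ s, φ s x = x) ∧ (∀ x, π (τ x) = π x) ∧
      (∀ β : K ≃* K, (∀ s x, φ s (β x) = β (φ s x)) → ∀ x, τ (β x) = β (τ x)) ∧
      (∀ x, Commute x (π x) → τ x = x⁻¹ * π x ^ 2) := by
  classical
  have := Fintype.ofFinite S
  have hcl : ∀ x y z : K, Commute ⁅x, y⁆ z := fun x y z => hZc _ (hZ x y) z
  obtain ⟨h, hh0⟩ : ∃ h, 2 * h = Nat.card K + 1 := by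
    obtain ⟨k, hk⟩ := hodd
    exact ⟨k + 1, by omega⟩
  have hpow1 : ∀ x : K, x ^ (Nat.card K + 1) = x := fun x => by
    rw [pow_succ, pow_card_eq_one', one_mul]
  have hh : ∀ x y : K, ⁅x, y⁆ ^ (2 * h) = ⁅x, y⁆ := fun x y => by rw [hh0, hpow1]
  obtain ⟨B, iB, iA, e, he, hact⟩ := exists_baer_group φ hcl h hh
  obtain ⟨m, hm⟩ : ∃ m : ℕ, Nat.card S * m ≡ 1 [MOD Nat.card K] := by
    refine ⟨Nat.card S ^ (Nat.totient (Nat.card K) - 1), ?_⟩
    have h1 : 0 < Nat.totient (Nat.card K) := Nat.totient_pos.mpr Nat.card_pos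
    rw [← pow_succ', Nat.sub_add_cancel h1]
    exact Nat.ModEq.pow_totient hcop.symm
  -- comparison of the two structures
  have bmc : ∀ x y : K, Commute x y → e x * e y = e (x * y) := fun x y hxy => by
    rw [he]
    have : ⁅y, x⁆ = 1 := commutatorElement_eq_one_iff_commute.2 hxy.symm
    rw [this, one_pow, mul_one]
  have bone : e 1 = 1 := by
    have h1 := bmc 1 1 (Commute.refl 1)
    rw [one_mul] at h1
    exact mul_eq_left.mp h1
  have bp : ∀ (n : ℕ) (x : K), e x ^ n = e (x ^ n) := by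
    intro n x
    induction n with
    | zero => rw [pow_zero, pow_zero, bone]
    | succ n ih => rw [pow_succ, ih, pow_succ, bmc _ _ ((Commute.refl x).pow_left n)]
  have binv : ∀ x : K, (e x)⁻¹ = e x⁻¹ := fun x => by
    rw [inv_eq_iff_mul_eq_one, bmc _ _ (Commute.refl x).inv_right, mul_inv_cancel, bone]
  -- multiplication by central elements
  have bz : ∀ (x : K) (z : K), z ∈ Z → e x * e z = e (x * z) := fun x z hz =>
    bmc x z (hZc z hz x).symm
  have mulK : ∀ x y : K, e (x * y) = e x * e y * e (⁅y, x⁆ ^ h)⁻¹ := by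
    intro x y
    rw [he, bz _ _ (Z.inv_mem (Z.pow_mem (hZ y x) h)), mul_inv_cancel_right]
  let P : B → B := fun x => (∏ s : S, s • x) ^ m
  have Pmul : ∀ x y : B, P (x * y) = P x * P y := by
    intro x y
    change (∏ s : S, s • (x * y)) ^ m = (∏ s : S, s • x) ^ m * (∏ s : S, s • y) ^ m
    rw [← mul_pow, ← Finset.prod_mul_distrib]
    congr 1
    exact Finset.prod_congr rfl fun s _ => smul_mul' s x y
  have Pone : P 1 = 1 := by
    change (∏ s : S, s • (1 : B)) ^ m = 1
    simp
  have Ppow : ∀ (x : B) (n : ℕ), P (x ^ n) = P x ^ n := by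
    intro x n
    induction n with
    | zero => rw [pow_zero, pow_zero, Pone]
    | succ n ih => rw [pow_succ, pow_succ, Pmul, ih]
  have Pinv : ∀ x : B, P x⁻¹ = (P x)⁻¹ := by
    intro x
    rw [eq_inv_iff_mul_eq_one, ← Pmul, inv_mul_cancel, Pone]
  have Pfix : ∀ (t : S) (x : B), t • P x = P x := by
    intro t x
    change t • (∏ s : S, s • x) ^ m = (∏ s : S, s • x) ^ m
    rw [smul_pow', Finset.smul_prod']
    congr 1
    simp only [smul_smul]
    exact Fintype.prod_equiv (Equiv.mulLeft t) _ _ fun s => rfl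
  have Pact : ∀ (t : S) (x : B), P (t • x) = P x := by
    intro t x
    change (∏ s : S, s • t • x) ^ m = (∏ s : S, s • x) ^ m
    congr 1
    simp only [smul_smul]
    exact Fintype.prod_equiv (Equiv.mulRight t) _ _ fun s => rfl
  have hpowm : ∀ x : K, x ^ (Nat.card S * m) = x := by
    intro x
    have h1 : Nat.card S * m ≡ 1 [MOD orderOf x] := hm.of_dvd (orderOf_dvd_natCard x)
    have h2 := (pow_eq_pow_iff_modEq (x := x)).mpr h1
    rw [h2, pow_one]
  have Pof : ∀ x : B, (∀ t : S, t • x = x) → P x = x := by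
    intro x hx
    change (∏ s : S, s • x) ^ m = x
    obtain ⟨x, rfl⟩ := e.surjective x
    rw [Finset.prod_congr rfl (fun s _ => hx s), Finset.prod_const, Finset.card_univ, ← pow_mul,
      ← Nat.card_eq_fintype_card, bp, hpowm]
  have PP : ∀ x, P (P x) = P x := fun x => Pof _ (fun t => Pfix t x)
  have Pz : ∀ z : K, z ∈ Z → P (e z) = e z := fun z hz =>
    Pof _ (fun t => by rw [hact, hZS t z hz])
  -- the commutator with a fixed element
  let Cc : K → (B →* K) := fun c =>
    { toFun := fun x => ⁅c, e.symm x⁆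
      map_one' := by
        rw [← bone, e.symm_apply_apply, commutatorElement_one_right]
      map_mul' := fun x y => by
        obtain ⟨x, rfl⟩ := e.surjective x
        obtain ⟨y, rfl⟩ := e.surjective y
        rw [he, e.symm_apply_apply, e.symm_apply_apply, e.symm_apply_apply,
          comm_mul_right hcl, comm_mul_right hcl,
          comm_central_right c _ (fun w => (hcl y x w).pow_left h), mul_one] }
  have hCc : ∀ c x, Cc c (e x) = ⁅c, x⁆ := fun c x => by
    change ⁅c, e.symm (e x)⁆ = _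
    rw [e.symm_apply_apply]
  have prodK : ∀ (c : K) (f : S → B) (w : K), (∀ s, Cc c (f s) = w) →
      Cc c ((∏ s : S, f s) ^ m) = w := by
    intro c f w hw
    have e1 : ∀ T : Finset S, Cc c (∏ s ∈ T, f s) = w ^ T.card := by
      intro T
      induction T using Finset.induction_on with
      | empty => simp
      | insert a T ha ih => rw [Finset.prod_insert ha, map_mul, ih, hw, Finset.card_insert_of_notMem ha,
          pow_succ']
    rw [map_pow, e1, Finset.card_univ, ← Nat.card_eq_fintype_card, ← pow_mul, hpowm]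
  have P5 : ∀ c, (∀ s, φ s c = c) → ∀ x : K, ⁅c, x⁆ = ⁅c, e.symm (P (e x))⁆ := by
    intro c hc x
    have e1 : ∀ s : S, Cc c (s • e x) = ⁅c, x⁆ := by
      intro s
      rw [hact, hCc]
      have e2 := hZS s _ (hZ c x)
      rw [map_commutatorElement, hc s] at e2
      exact e2
    exact (prodK c _ _ e1).symm
  -- the main map
  let T : B → B := fun x => x⁻¹ * P x ^ 2
  have Tmul : ∀ x y : B, T (x * y) = T x * T y := by
    intro x y
    change (x * y)⁻¹ * P (x * y) ^ 2 = x⁻¹ * P x ^ 2 * (y⁻¹ * P y ^ 2)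
    rw [Pmul, mul_pow, mul_inv]
    exact mul_mul_mul_comm _ _ _ _
  have PT : ∀ x, P (T x) = P x := by
    intro x
    change P (x⁻¹ * P x ^ 2) = P x
    rw [Pmul, Pinv, Ppow, PP, sq, inv_mul_cancel_left]
  have TT : ∀ x, T (T x) = x := by
    intro x
    have h1 : T (T x) = (T x)⁻¹ * P (T x) ^ 2 := rfl
    rw [h1, PT]
    change (x⁻¹ * P x ^ 2)⁻¹ * P x ^ 2 = x
    rw [mul_inv, inv_inv, mul_assoc, inv_mul_cancel, mul_one]
  have Tz : ∀ z : K, z ∈ Z → T (e z) = e z := by
    intro z hz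
    change (e z)⁻¹ * P (e z) ^ 2 = e z
    rw [Pz z hz, sq, inv_mul_cancel_left]
  have hsq : ∀ x y : B, x ^ 2 = y ^ 2 → x = y := by
    intro x y hxy
    obtain ⟨x, rfl⟩ := e.surjective x
    obtain ⟨y, rfl⟩ := e.surjective y
    have h1 := congrArg (fun w => w ^ h) hxy
    rw [← pow_mul, ← pow_mul, hh0, bp, bp, hpow1, hpow1] at h1
    exact h1
  have Tfix : ∀ x, T x = x ↔ ∀ s : S, s • x = x := by
    intro x
    constructor
    · intro h1 s
      have h2 : x⁻¹ * P x ^ 2 = x := h1
      have h3 : P x ^ 2 = x ^ 2 := by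
        rw [inv_mul_eq_iff_eq_mul] at h2
        rw [h2, sq]
      have h4 := hsq _ _ h3
      rw [← h4, Pfix]
    · intro h1
      change x⁻¹ * P x ^ 2 = x
      rw [Pof x h1, sq, inv_mul_cancel_left]
  -- commutators are preserved
  have Tcomm : ∀ x y : K, ⁅e.symm (T (e x)), e.symm (T (e y))⁆ = ⁅x, y⁆ := by
    intro x y
    have right : ∀ c : K, ⁅c, e.symm (T (e y))⁆ = ⁅c, y⁆⁻¹ * ⁅c, e.symm (P (e y))⁆ ^ 2 := by
      intro c
      change Cc c ((e y)⁻¹ * P (e y) ^ 2) = _
      rw [map_mul, map_inv, map_pow, hCc]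
      rfl
    have fixP : ∀ w : K, ∀ s, φ s (e.symm (P (e w))) = e.symm (P (e w)) := by
      intro w s
      apply e.injective
      rw [← hact, e.apply_symm_apply, Pfix]
    have left : ∀ c : K, ⁅e.symm (T (e x)), c⁆ = ⁅x, c⁆⁻¹ * ⁅e.symm (P (e x)), c⁆ ^ 2 := by
      intro c
      have h1 : ⁅c, e.symm (T (e x))⁆ = ⁅c, x⁆⁻¹ * ⁅c, e.symm (P (e x))⁆ ^ 2 := by
        change Cc c ((e x)⁻¹ * P (e x) ^ 2) = _
        rw [map_mul, map_inv, map_pow, hCc]
        rfl
      rw [← commutatorElement_inv, h1, mul_inv_rev, ← inv_pow, commutatorElement_inv, inv_inv,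
        ← commutatorElement_inv x c]
      exact ((hcl _ _ _).pow_left 2).eq
    rw [right, left, left]
    have h2 : ⁅x, e.symm (P (e y))⁆ = ⁅e.symm (P (e x)), e.symm (P (e y))⁆ := by
      have := P5 _ (fixP y) x
      rw [← commutatorElement_inv, this, commutatorElement_inv]
    have h3 : ⁅e.symm (P (e x)), y⁆ = ⁅e.symm (P (e x)), e.symm (P (e y))⁆ := P5 _ (fixP x) y
    rw [h2, h3]
    set w := ⁅e.symm (P (e x)), e.symm (P (e y))⁆ with hw
    have hwc : ∀ t : K, Commute w t := fun t => hcl _ _ t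
    have h4 : (w⁻¹ * w ^ 2) = w := by rw [sq, inv_mul_cancel_left]
    rw [h4, mul_inv_rev, inv_inv, (hwc _).pow_left 2 |>.inv_left.eq, mul_assoc]
    rw [inv_mul_cancel, mul_one]
  refine ⟨fun x => e.symm (P (e x)), fun x => e.symm (T (e x)), ?_, ?_, ?_, ?_, P5, ?_, ?_, ?_, ?_,
    ?_, ?_, ?_, ?_⟩
  · intro s x
    apply e.injective
    simp only
    rw [← hact, e.apply_symm_apply, Pfix]
  · intro x hx
    simp only
    rw [Pof (e x) (fun t => by rw [hact, hx]), e.symm_apply_apply]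
  · intro s x
    simp only
    rw [← hact, Pact]
  · intro x y
    simp only
    have h1 : e (x * y) = e x * e y * e (⁅y, x⁆ ^ h)⁻¹ := mulK x y
    have hz1 : (⁅y, x⁆ ^ h)⁻¹ ∈ Z := Z.inv_mem (Z.pow_mem (hZ y x) h)
    refine ⟨⁅e.symm (P (e y)), e.symm (P (e x))⁆ ^ h * (⁅y, x⁆ ^ h)⁻¹,
      Z.mul_mem (Z.pow_mem (hZ _ _) h) hz1, ?_⟩
    apply e.injective
    rw [e.apply_symm_apply, h1, Pmul, Pmul, Pz _ hz1, ← mul_assoc, ← bz _ _ hz1, ← he,
      e.apply_symm_apply, e.apply_symm_apply]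
  · intro β hβ x
    simp only
    apply e.injective
    rw [e.apply_symm_apply]
    -- `β` as an automorphism of `B`
    let βB : B →* B :=
      { toFun := fun x => e (β (e.symm x))
        map_one' := by
          rw [← bone, e.symm_apply_apply, map_one]
        map_mul' := fun x y => by
          obtain ⟨x, rfl⟩ := e.surjective x
          obtain ⟨y, rfl⟩ := e.surjective y
          rw [he, e.symm_apply_apply, e.symm_apply_apply, e.symm_apply_apply, he]
          simp only [map_mul, map_pow, map_commutatorElement] }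
    have h1 : ∀ w : K, βB (e w) = e (β w) := fun w => by
      change e (β (e.symm (e w))) = _
      rw [e.symm_apply_apply]
    have h2 : P (βB (e x)) = βB (P (e x)) := by
      change (∏ s : S, s • βB (e x)) ^ m = βB ((∏ s : S, s • e x) ^ m)
      rw [map_pow, map_prod]
      congr 1
      refine Finset.prod_congr rfl fun s _ => ?_
      rw [h1, hact, hact, h1, hβ]
    rw [← h1, h2]
    rfl
  · intro R hRc hRS ω hω hω1 hωS r hr
    simp only
    have h1 : ∀ T : Finset S, ∃ w ∈ R, ∏ s ∈ T, s • e r = e w ∧ ω w = ω r ^ T.card := by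
      intro T
      induction T using Finset.induction_on with
      | empty => exact ⟨1, R.one_mem, by rw [Finset.prod_empty, bone], by simp [hω1]⟩
      | insert a T ha ih =>
        obtain ⟨w, hw, e1, e2⟩ := ih
        refine ⟨φ a r * w, R.mul_mem (hRS a r hr) hw, ?_, ?_⟩
        · rw [Finset.prod_insert ha, e1, hact, bmc _ _ (hRc _ (hRS a r hr) _ hw)]
        · rw [hω _ (hRS a r hr) _ hw, hωS a r hr, e2, Finset.card_insert_of_notMem ha, pow_succ']
    obtain ⟨w, hw, e1, e2⟩ := h1 Finset.univ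
    have hωpow : ∀ (n : ℕ) (x : K), x ∈ R → ω (x ^ n) = ω x ^ n := by
      intro n x hx
      induction n with
      | zero => rw [pow_zero, pow_zero, hω1]
      | succ n ih => rw [pow_succ, hω _ (R.pow_mem hx n) _ hx, ih, pow_succ]
    have e3 : P (e r) = e (w ^ m) := by
      change (∏ s : S, s • e r) ^ m = _
      rw [e1, bp]
    rw [e3, e.symm_apply_apply]
    refine ⟨R.pow_mem hw m, ?_⟩
    rw [hωpow m w hw, e2, ← pow_mul, Finset.card_univ, ← Nat.card_eq_fintype_card, ← hωpow _ r hr,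
      hpowm]
  · intro x y
    simp only
    have hz1 : (⁅y, x⁆ ^ h)⁻¹ ∈ Z := Z.inv_mem (Z.pow_mem (hZ y x) h)
    apply e.injective
    rw [e.apply_symm_apply, mulK x y, Tmul, Tmul, Tz _ hz1,
      mulK (e.symm (T (e x))) (e.symm (T (e y))), e.apply_symm_apply, e.apply_symm_apply, Tcomm]
  · intro x
    simp only
    rw [e.apply_symm_apply, TT, e.symm_apply_apply]
  · intro x
    simp only
    rw [Equiv.symm_apply_eq, Tfix]
    constructor
    · intro h1 s
      have h2 := h1 s
      rw [hact] at h2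
      exact e.injective h2
    · intro h1 s
      rw [hact, h1]
  · intro x
    simp only
    rw [e.apply_symm_apply, PT]
  · intro β hβ x
    simp only
    apply e.injective
    rw [e.apply_symm_apply]
    let βB : B →* B :=
      { toFun := fun x => e (β (e.symm x))
        map_one' := by
          rw [← bone, e.symm_apply_apply, map_one]
        map_mul' := fun x y => by
          obtain ⟨x, rfl⟩ := e.surjective x
          obtain ⟨y, rfl⟩ := e.surjective y
          rw [he, e.symm_apply_apply, e.symm_apply_apply, e.symm_apply_apply, he]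
          simp only [map_mul, map_pow, map_commutatorElement] }
    have h1 : ∀ w : K, βB (e w) = e (β w) := fun w => by
      change e (β (e.symm (e w))) = _
      rw [e.symm_apply_apply]
    have h2 : P (βB (e x)) = βB (P (e x)) := by
      change (∏ s : S, s • βB (e x)) ^ m = βB ((∏ s : S, s • e x) ^ m)
      rw [map_pow, map_prod]
      congr 1
      refine Finset.prod_congr rfl fun s _ => ?_
      rw [h1, hact, hact, h1, hβ]
    have h3 : T (βB (e x)) = βB (T (e x)) := by
      change (βB (e x))⁻¹ * P (βB (e x)) ^ 2 = βB ((e x)⁻¹ * P (e x) ^ 2)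
      rw [h2, map_mul, map_inv, map_pow βB (P (e x)) 2]
    rw [← h1, h3]
    rfl
  · intro x hx
    simp only at hx ⊢
    apply e.injective
    rw [e.apply_symm_apply]
    change (e x)⁻¹ * P (e x) ^ 2 = _
    rw [← bmc x⁻¹ _ (hx.inv_left.pow_right 2), binv, ← bp, e.apply_symm_apply]

end Cfsg.Agent.H76.OS
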