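import Cfsg.Agent.H76.OddSecA
import Cfsg.Agent.H76.OddSecB
import Cfsg.Agent.Glaub.Above

/-!
# Class two sections: the involutory automorphism and the invariant characters above a faithful
central character
-/

set_option autoImplicit false
set_option linter.unusedSectionVars false
set_option linter.unusedFintypeInType false

namespace Cfsg.Agent.H76.OS

open scoped ComplexConjugate commutatorElement
open Cfsg Cfsg.Agent.CharBase Cfsg.Agent.Char

universe u v w

/-- A constituent of the restriction has the same central behaviour. -/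
theorem central_of_constituent {G : Type u} [Group G] [Finite G] (M : Subgroup G) [M.Normal]
    [Fintype M] {χ : G → ℂ} (hχ : IsIrrCharacter G χ) {ψ : M → ℂ} (hψ : IsIrrCharacter M ψ)
    (h : classInner (fun m : M => χ m) ψ ≠ 0) (z : M) (hz : ∀ g : G, g * z = z * g) {c : ℂ}
    (hc : χ z = c * χ 1) : ψ z = c * ψ 1 := by
  classical
  have := Fintype.ofFinite G
  have h1 := clifford M hχ hψ h
  set e := classInner (fun m : M => χ m) ψ with he
  have h2 : ∀ m : M, χ m = (e • ∑ θ ∈ orb M ψ, θ) m := fun m => congrFun h1 m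
  have h3 := h2 z
  have h4 := h2 1
  rw [Pi.smul_apply, Finset.sum_apply] at h3 h4
  have h5 : ∀ θ ∈ orb M ψ, θ z = ψ z := by
    intro θ hθ
    obtain ⟨g, rfl⟩ := (mem_orb M).mp hθ
    rw [cj_apply]
    congr 1
    apply Subtype.ext
    simp only
    rw [hz, mul_inv_cancel_right]
  have h6 : ∀ θ ∈ orb M ψ, θ 1 = ψ 1 := by
    intro θ hθ
    obtain ⟨g, rfl⟩ := (mem_orb M).mp hθ
    rw [cj_one_apply]
  rw [Finset.sum_congr rfl h5, Finset.sum_const, nsmul_eq_mul, smul_eq_mul] at h3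
  rw [Finset.sum_congr rfl h6, Finset.sum_const, nsmul_eq_mul, smul_eq_mul] at h4
  rw [OneMemClass.coe_one] at h4
  have h7 : ((orb M ψ).card : ℂ) ≠ 0 := by
    have : (orb M ψ).card ≠ 0 := Finset.card_ne_zero_of_mem (self_mem_orb M ψ)
    exact_mod_cast this
  rw [h3, h4] at hc
  have h8 : e * ((orb M ψ).card : ℂ) ≠ 0 := mul_ne_zero h h7
  apply mul_left_cancel₀ h8
  linear_combination hc

/-- a complex number whose square and odd power are one -/
theorem eq_one_of_sq_odd {c : ℂ} {n : ℕ} (h2 : c ^ 2 = 1) (hn : Odd n) (h : c ^ n = 1) : c = 1 := by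
  have h6 : orderOf c ∣ Nat.gcd 2 n :=
    Nat.dvd_gcd (orderOf_dvd_of_pow_eq_one h2) (orderOf_dvd_of_pow_eq_one h)
  rw [(Nat.coprime_two_left.mpr hn)] at h6
  exact orderOf_eq_one_iff.mp (Nat.dvd_one.mp h6)

theorem exists_tau {G : Type u} [Group G] [Finite G] {S : Type v} [Group S] [Finite S]
    (φ : S →* MulAut G) (hodd : Odd (Nat.card G)) (hcop : (Nat.card G).Coprime (Nat.card S))
    (Z K : Subgroup G) [hKn : K.Normal] (hZK : Z ≤ K)
    (hZc : ∀ z ∈ Z, ∀ g, z * g = g * z) (hZS : ∀ s, ∀ z ∈ Z, φ s z = z)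
    (hKS : ∀ s, ∀ k ∈ K, φ s k ∈ K) (hK : ∀ x ∈ K, ∀ y ∈ K, ⁅x, y⁆ ∈ Z)
    (hG : ∀ g : G, ∃ k ∈ K, ∃ h, (∀ s, φ s h = h) ∧ g = k * h)
    (lam : G → ℂ) (hlam : ∀ z ∈ Z, lam z = 1 → z = 1) :
    ∃ τ : MulAut G, τ * τ = 1 ∧ (∀ g, τ g = g ↔ ∀ s, φ s g = g) ∧
      ∀ χ : G → ℂ, IsIrrCharacter G χ → (∀ z ∈ Z, χ z = lam z * χ 1) →
        ((∀ s g, χ (φ s g) = χ g) ↔ ∀ g, χ (τ g) = χ g) := by
  classical
  have := Fintype.ofFinite G
  obtain ⟨π, τ₀, P1, P2, P3, P4, P5, P6, P7, T0, T1, T2, T3, T4, T5⟩ :=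
    exists_baer (Glaub.restrAct φ K hKS) (Z.subgroupOf K) (fun x y => hK x x.2 y y.2)
      (fun z hz x => Subtype.ext (hZc z hz x)) (fun s z hz => Subtype.ext (hZS s z hz))
      (hodd.of_dvd_nat (Subgroup.card_subgroup_dvd_card K))
      (hcop.coprime_dvd_left (Subgroup.card_subgroup_dvd_card K))
  have actK : ∀ s (x : K), ((Glaub.restrAct φ K hKS s x : K) : G) = φ s x := fun s x => rfl
  have fixK : ∀ x : K, (∀ s, Glaub.restrAct φ K hKS s x = x) ↔ ∀ s, φ s x = x := by
    intro x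
    constructor
    · intro h s
      exact congrArg Subtype.val (h s)
    · intro h s
      exact Subtype.ext (h s)
  -- conjugation by fixed elements
  let cjK : G → (K ≃* K) := fun h => MulAut.conjNormal h
  have cjK_coe : ∀ h (x : K), ((cjK h x : K) : G) = h * x * h⁻¹ := fun h x => rfl
  have cj_comm : ∀ h, (∀ s, φ s h = h) → ∀ s x, Glaub.restrAct φ K hKS s (cjK h x) =
      cjK h (Glaub.restrAct φ K hKS s x) := by
    intro h hh s x
    apply Subtype.ext
    rw [actK, cjK_coe, cjK_coe, actK, map_mul, map_mul, map_inv, hh]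
  have τ₀one : τ₀ 1 = 1 := by
    have := T0 1 1
    rw [mul_one] at this
    exact mul_eq_left.mp this.symm
  have τ₀inv : ∀ x, τ₀ x⁻¹ = (τ₀ x)⁻¹ := by
    intro x
    rw [eq_inv_iff_mul_eq_one, ← T0, inv_mul_cancel, τ₀one]
  have wd : ∀ (k k' : K) (h h' : G), (∀ s, φ s h = h) → (∀ s, φ s h' = h') →
      (k : G) * h = k' * h' → (τ₀ k : G) * h = τ₀ k' * h' := by
    intro k k' h h' hh hh' heq
    have h1 : ((k⁻¹ * k' : K) : G) = h * h'⁻¹ := by
      rw [Subgroup.coe_mul, Subgroup.coe_inv, inv_mul_eq_iff_eq_mul, ← mul_assoc, heq,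
        mul_inv_cancel_right]
    have h2 : τ₀ (k⁻¹ * k') = k⁻¹ * k' := by
      rw [T2, fixK]
      intro s
      rw [h1, map_mul, map_inv, hh, hh']
    have h3 : τ₀ k' = τ₀ k * (k⁻¹ * k') := by
      rw [← h2, ← T0, mul_inv_cancel_left]
    rw [h3, Subgroup.coe_mul, h1]
    group
  choose kk hkk hh hhh hgk using hG
  let t : G → G := fun g => (τ₀ ⟨kk g, hkk g⟩ : G) * hh g
  have ht : ∀ (k : K) (h : G), (∀ s, φ s h = h) → t (k * h) = τ₀ k * h := by
    intro k h hs
    exact wd _ _ _ _ (hhh _) hs (hgk (k * h)).symm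
  have hrep : ∀ g : G, ∃ (k : K) (h : G), (∀ s, φ s h = h) ∧ g = k * h := fun g =>
    ⟨⟨kk g, hkk g⟩, hh g, hhh g, hgk g⟩
  have tmul : ∀ a b, t (a * b) = t a * t b := by
    intro a b
    obtain ⟨k, h, hs, rfl⟩ := hrep a
    obtain ⟨k', h', hs', rfl⟩ := hrep b
    have h1 : (k : G) * h * (k' * h') = ((k * cjK h k' : K) : G) * (h * h') := by
      rw [Subgroup.coe_mul, cjK_coe]
      group
    rw [h1, ht _ _ (fun s => by rw [map_mul, hs, hs']), ht _ _ hs, ht _ _ hs', T0,
      T4 _ (cj_comm h hs), Subgroup.coe_mul, cjK_coe]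
    group
  have tt : ∀ g, t (t g) = g := by
    intro g
    obtain ⟨k, h, hs, rfl⟩ := hrep g
    rw [ht _ _ hs, ht _ _ hs, T1]
  let τ : MulAut G :=
    { toFun := t
      invFun := t
      left_inv := tt
      right_inv := tt
      map_mul' := tmul }
  have τdef : ∀ g, τ g = t g := fun g => rfl
  have hττ : τ * τ = 1 := by
    ext g
    rw [MulAut.mul_apply, MulAut.one_apply, τdef, τdef, tt]
  have τfix : ∀ g, τ g = g ↔ ∀ s, φ s g = g := by
    intro g
    obtain ⟨k, h, hs, rfl⟩ := hrep g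
    rw [τdef, ht _ _ hs]
    constructor
    · intro h1 s
      have h2 : τ₀ k = k := Subtype.ext (mul_right_cancel h1)
      rw [T2, fixK] at h2
      rw [map_mul, h2, hs]
    · intro h1
      have h2 : ∀ s, φ s (k : G) = k := by
        intro s
        have h3 := h1 s
        rw [map_mul, hs] at h3
        exact mul_right_cancel h3
      rw [← fixK, ← T2] at h2
      rw [h2]
  -- the subgroup `M`
  have π1 : π 1 = 1 := P2 1 (fun s => map_one _)
  have ZK : ∀ z ∈ Z, ∀ hz : z ∈ K, (⟨z, hz⟩ : K) ∈ Z.subgroupOf K := fun z hz _ => hz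
  have πZ : ∀ z : K, (z : G) ∈ Z → π z = z := fun z hz => P2 z ((fixK z).mpr fun s => hZS s z hz)
  let M₀ : Subgroup K :=
    { carrier := {x | (π x : G) ∈ Z}
      one_mem' := by
        change (π 1 : G) ∈ Z
        rw [π1]
        exact Z.one_mem
      mul_mem' := by
        intro a b ha hb
        change (π (a * b) : G) ∈ Z
        obtain ⟨z, hz, h1⟩ := P4 a b
        rw [h1]
        exact Z.mul_mem (Z.mul_mem ha hb) hz
      inv_mem' := by
        intro a ha
        change (π a⁻¹ : G) ∈ Z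
        obtain ⟨z, hz, h1⟩ := P4 a a⁻¹
        rw [mul_inv_cancel, π1] at h1
        have h2 : π a⁻¹ = (π a)⁻¹ * z⁻¹ := by
          rw [eq_mul_inv_iff_mul_eq]
          exact eq_inv_of_mul_eq_one_right (by rw [← mul_assoc]; exact h1.symm)
        rw [h2]
        exact Z.mul_mem (Z.inv_mem ha) (Z.inv_mem hz) }
  have memM₀ : ∀ x : K, x ∈ M₀ ↔ (π x : G) ∈ Z := fun x => Iff.rfl
  have hH : ∀ x y : K, π x = π y → x * y⁻¹ ∈ M₀ := by
    intro x y hxy
    rw [memM₀]
    obtain ⟨z, hz, h1⟩ := P4 (x * y⁻¹) y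
    rw [inv_mul_cancel_right, hxy] at h1
    have h2 : π (x * y⁻¹) = π y * z⁻¹ * (π y)⁻¹ := by
      rw [eq_mul_inv_iff_mul_eq, eq_mul_inv_iff_mul_eq]
      exact h1.symm
    rw [h2]
    have h3 : (z⁻¹ : K) ∈ Z.subgroupOf K := (Z.subgroupOf K).inv_mem hz
    have h4 : π y * z⁻¹ * (π y)⁻¹ = z⁻¹ := by
      apply Subtype.ext
      have h5 : ((z⁻¹ : K) : G) * (π y : G) = (π y : G) * ((z⁻¹ : K) : G) := hZc _ h3 _
      change (π y : G) * ((z⁻¹ : K) : G) * (π y : G)⁻¹ = ((z⁻¹ : K) : G)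
      rw [← h5, mul_inv_cancel_right]
    rw [h4]
    exact h3
  have hZM₀ : ∀ z : K, (z : G) ∈ Z → z ∈ M₀ := fun z hz => by
    rw [memM₀, πZ z hz]; exact hz
  obtain ⟨M, hMdef⟩ : ∃ M : Subgroup G, M = M₀.map K.subtype := ⟨_, rfl⟩
  have hMK : M ≤ K := by rw [hMdef]; exact Subgroup.map_subtype_le M₀
  have memM : ∀ x : K, (x : G) ∈ M ↔ (π x : G) ∈ Z := by
    intro x
    rw [hMdef]
    constructor
    · rintro ⟨y, hy, hyx⟩
      have : y = x := Subtype.ext hyx
      rw [← this]; exact hy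
    · intro hx
      exact ⟨x, hx, rfl⟩
  have hZM : Z ≤ M := fun z hz => (memM ⟨z, hZK hz⟩).mpr (by rw [πZ _ hz]; exact hz)
  have hMn : M.Normal := by
    constructor
    intro x hx g
    have hxK := hMK hx
    obtain ⟨k, h, hs, rfl⟩ := hrep g
    have h1 : (cjK h ⟨x, hxK⟩ : G) ∈ M := by
      rw [memM, P6 _ (cj_comm h hs), cjK_coe, ← (hZc _ ((memM ⟨x, hxK⟩).mp hx) _),
        mul_inv_cancel_right]
      exact (memM ⟨x, hxK⟩).mp hx
    have h2 : (k : G) * h * x * ((k : G) * h)⁻¹ = ⁅(k : G), (cjK h ⟨x, hxK⟩ : G)⁆ *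
        (cjK h ⟨x, hxK⟩ : G) := by
      rw [cjK_coe, commutatorElement_def]
      group
    rw [h2]
    exact M.mul_mem (hZM (hK _ k.2 _ (cjK h ⟨x, hxK⟩).2)) h1
  have hMS : ∀ s, ∀ m ∈ M, φ s m ∈ M := by
    intro s m hm
    have h1 := (memM ⟨m, hMK hm⟩).mp hm
    have h2 : (Glaub.restrAct φ K hKS s ⟨m, hMK hm⟩ : G) ∈ M := by
      rw [memM, P3]; exact h1
    exact h2
  have τK : ∀ k : K, τ k = τ₀ k := by
    intro k
    have := ht k 1 (fun s => map_one _)
    rw [mul_one, mul_one] at this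
    exact this
  have hMτ : ∀ m ∈ M, τ m ∈ M := by
    intro m hm
    have h1 := (memM ⟨m, hMK hm⟩).mp hm
    have h2 := τK ⟨m, hMK hm⟩
    change τ m = _ at h2
    rw [h2, memM, T3]
    exact h1
  have trivS : ∀ s g, φ s g * g⁻¹ ∈ M := by
    intro s g
    obtain ⟨k, h, hs, rfl⟩ := hrep g
    have h1 := hH (Glaub.restrAct φ K hKS s k) k (P3 s k)
    have h2 : φ s ((k : G) * h) * ((k : G) * h)⁻¹ =
        ((Glaub.restrAct φ K hKS s k * k⁻¹ : K) : G) := by
      rw [map_mul, hs, Subgroup.coe_mul, Subgroup.coe_inv, actK]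
      group
    rw [h2, memM]
    exact h1
  have trivτ : ∀ g, τ g * g⁻¹ ∈ M := by
    intro g
    obtain ⟨k, h, hs, rfl⟩ := hrep g
    have h1 := hH (τ₀ k) k (T3 k)
    have h2 : τ ((k : G) * h) * ((k : G) * h)⁻¹ = ((τ₀ k * k⁻¹ : K) : G) := by
      rw [τdef, ht _ _ hs, Subgroup.coe_mul, Subgroup.coe_inv]
      group
    rw [h2, memM]
    exact h1
  -- the centre of `M` is centralised by `K`
  have cen : ∀ x : M, x ∈ Subgroup.center M → ∀ k : K, (k : G) * x * (k : G)⁻¹ = x := by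
    intro x hx k
    have hxK := hMK x.2
    have h1 : (k : G) = ((k * (π k)⁻¹ : K) : G) * (π k : G) := by
      rw [Subgroup.coe_mul, Subgroup.coe_inv, inv_mul_cancel_right]
    have h2 : ((k * (π k)⁻¹ : K) : G) ∈ M := by
      rw [memM]
      exact hH k (π k) (P2 (π k) (fun s => P1 s k)).symm
    have h3 : (π k : G) * x * (π k : G)⁻¹ = x := by
      have h4 := P5 (π k) (fun s => P1 s k) ⟨x, hxK⟩
      have h5 : ⁅π k, π ⟨(x : G), hxK⟩⁆ = 1 := by
        rw [commutatorElement_eq_one_iff_commute]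
        apply Subtype.ext
        exact (hZc _ ((memM ⟨x, hxK⟩).mp x.2) _).symm
      rw [h5, commutatorElement_eq_one_iff_commute] at h4
      have h6 : (π k : G) * x = x * π k := congrArg Subtype.val h4.eq
      rw [h6, mul_inv_cancel_right]
    have h4 : ((k * (π k)⁻¹ : K) : G) * x * ((k * (π k)⁻¹ : K) : G)⁻¹ = x := by
      have h5 := Subgroup.mem_center_iff.mp hx ⟨_, h2⟩
      have h6 : ((k * (π k)⁻¹ : K) : G) * x = x * ((k * (π k)⁻¹ : K) : G) := congrArg Subtype.val h5
      rw [h6, mul_inv_cancel_right]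
    calc (k : G) * x * (k : G)⁻¹
        = ((k * (π k)⁻¹ : K) : G) * (π k : G) * x * (((k * (π k)⁻¹ : K) : G) * (π k : G))⁻¹ := by
          rw [← h1]
      _ = ((k * (π k)⁻¹ : K) : G) * ((π k : G) * x * (π k : G)⁻¹) *
          ((k * (π k)⁻¹ : K) : G)⁻¹ := by group
      _ = x := by rw [h3, h4]
  -- the values of the invariant characters
  let F : M → ℂ := fun x => if x ∈ Subgroup.center M then lam (π ⟨x, hMK x.2⟩ : G) else 0
  have center_map : ∀ (α : MulAut G) (hα : ∀ m ∈ M, α m ∈ M) (x : M),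
      (⟨α x, hα x x.2⟩ : M) ∈ Subgroup.center M ↔ x ∈ Subgroup.center M := by
    intro α hα x
    constructor
    · intro h1
      rw [Subgroup.mem_center_iff] at h1 ⊢
      intro y
      have h2 := congrArg Subtype.val (h1 (resAut α M hα y))
      change α y * α x = α x * α y at h2
      rw [← map_mul, ← map_mul] at h2
      exact Subtype.ext (α.injective h2)
    · intro h1
      rw [Subgroup.mem_center_iff] at h1 ⊢
      intro y
      obtain ⟨y, rfl⟩ := (resAut α M hα).surjective y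
      apply Subtype.ext
      change α y * α x = α x * α y
      rw [← map_mul, ← map_mul]
      exact congrArg α (congrArg Subtype.val (h1 y))
  have FS : ∀ s (x : M), F ⟨φ s x, hMS s x x.2⟩ = F x := by
    intro s x
    have h1 := center_map (φ s) (hMS s) x
    have h2 : π ⟨φ s x, hMK (hMS s x x.2)⟩ = π ⟨x, hMK x.2⟩ := P3 s ⟨x, hMK x.2⟩
    simp only [F, h1, h2]
  have Fτ : ∀ x : M, F ⟨τ x, hMτ x x.2⟩ = F x := by
    intro x
    have h1 := center_map τ hMτ x
    have h3 : (⟨τ x, hMK (hMτ x x.2)⟩ : K) = τ₀ ⟨x, hMK x.2⟩ := Subtype.ext (τK ⟨x, hMK x.2⟩)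
    simp only [F, h1, h3, T3]
  have FG : ∀ g, cj M g F = F := by
    intro g
    funext x
    rw [cj_apply]
    have h1 := center_map (MulAut.conj g) (fun m hm => hMn.conj_mem m hm g) x
    change (⟨g * x * g⁻¹, hMn.conj_mem x x.2 g⟩ : M) ∈ Subgroup.center M ↔ _ at h1
    simp only [F, h1]
    split_ifs with hx
    · congr 2
      obtain ⟨k, h, hs, rfl⟩ := hrep g
      -- conjugation by `h` first
      have hx' : (⟨h * x * h⁻¹, hMn.conj_mem x x.2 h⟩ : M) ∈ Subgroup.center M :=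
        (center_map (MulAut.conj h) (fun m hm => hMn.conj_mem m hm h) x).mpr hx
      have h2 := cen _ hx' k
      simp only at h2
      have h3 : (⟨(k : G) * h * x * ((k : G) * h)⁻¹, hMK (hMn.conj_mem x x.2 _)⟩ : K) =
          cjK h ⟨x, hMK x.2⟩ := by
        apply Subtype.ext
        rw [cjK_coe]
        simp only
        rw [← h2]
        group
      rw [h3, P6 _ (cj_comm h hs)]
      apply Subtype.ext
      rw [cjK_coe, ← hZc _ ((memM ⟨x, hMK x.2⟩).mp x.2), mul_inv_cancel_right]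
    · rfl
  have VV : ∀ ψ : M → ℂ, IsIrrCharacter M ψ → (∀ (z : G) (hz : z ∈ Z), ψ ⟨z, hZM hz⟩ = lam z * ψ 1) →
      ((∀ s (m : M), ψ ⟨φ s m, hMS s m m.2⟩ = ψ m) ∨ (∀ m : M, ψ ⟨τ m, hMτ m m.2⟩ = ψ m)) →
      ψ = ψ 1 • F := by
    intro ψ hψ hψZ hinv
    have hψ1 := irr_one_ne_zero hψ
    funext x
    rw [Pi.smul_apply, smul_eq_mul]
    by_cases hx : x ∈ Subgroup.center M
    · -- the linear character on the centre
      have hF : F x = lam (π ⟨x, hMK x.2⟩ : G) := if_pos hx
      rw [hF]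
      have hπx : (π ⟨x, hMK x.2⟩ : G) ∈ Z := (memM ⟨x, hMK x.2⟩).mp x.2
      let ω : K → ℂ := fun y => if hy : (y : G) ∈ M then ψ ⟨y, hy⟩ / ψ 1 else 0
      have hωM : ∀ (y : K) (hy : (y : G) ∈ M), ω y = ψ ⟨y, hy⟩ / ψ 1 := fun y hy => dif_pos hy
      let R : Subgroup K := ((Subgroup.center M).map M.subtype).subgroupOf K
      have memR : ∀ (y : K), y ∈ R ↔ ∃ hy : (y : G) ∈ M, (⟨y, hy⟩ : M) ∈ Subgroup.center M := by
        intro y
        constructor
        · rintro ⟨w, hw, hwy⟩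
          have h1 : (w : G) = y := hwy
          refine ⟨h1 ▸ w.2, ?_⟩
          have h2 : (⟨(y : G), h1 ▸ w.2⟩ : M) = w := Subtype.ext h1.symm
          rw [h2]; exact hw
        · rintro ⟨hy, h1⟩
          exact ⟨⟨y, hy⟩, h1, rfl⟩
      have hω : ∀ a ∈ R, ∀ b ∈ R, ω (a * b) = ω a * ω b := by
        intro a ha b hb
        obtain ⟨ha1, ha2⟩ := (memR a).mp ha
        obtain ⟨hb1, hb2⟩ := (memR b).mp hb
        rw [hωM a ha1, hωM b hb1, hωM (a * b) (M.mul_mem ha1 hb1)]
        have h1 := irr_mul_central hψ hb2 ⟨a, ha1⟩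
        have h2 : (⟨((a * b : K) : G), M.mul_mem ha1 hb1⟩ : M) = ⟨a, ha1⟩ * ⟨b, hb1⟩ := rfl
        rw [h2, h1]
        field_simp
      have hω1 : ω 1 = 1 := by
        rw [hωM 1 M.one_mem]
        exact div_self hψ1
      have hxR : (⟨x, hMK x.2⟩ : K) ∈ R := (memR _).mpr ⟨x.2, hx⟩
      have hZR : ∀ z : K, (z : G) ∈ Z → z ∈ R ∧ ω z = lam z := by
        intro z hz
        have h1 : (⟨z, hZM hz⟩ : M) ∈ Subgroup.center M := by
          rw [Subgroup.mem_center_iff]
          intro y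
          exact Subtype.ext (hZc _ hz _).symm
        refine ⟨(memR z).mpr ⟨hZM hz, h1⟩, ?_⟩
        rw [hωM z (hZM hz), hψZ z hz, mul_div_assoc, div_self hψ1, mul_one]
      have hRc : ∀ a ∈ R, ∀ b ∈ R, a * b = b * a := by
        intro a ha b hb
        obtain ⟨ha1, ha2⟩ := (memR a).mp ha
        obtain ⟨hb1, hb2⟩ := (memR b).mp hb
        have h1 := congrArg Subtype.val (Subgroup.mem_center_iff.mp hb2 ⟨a, ha1⟩)
        exact Subtype.ext h1
      have key : ω ⟨x, hMK x.2⟩ = lam (π ⟨x, hMK x.2⟩ : G) := by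
        rw [← (hZR _ hπx).2]
        rcases hinv with hinv | hinv
        · refine (P7 R hRc ?_ ω hω hω1 ?_ _ hxR).2.symm
          · intro s r hr
            obtain ⟨hr1, hr2⟩ := (memR r).mp hr
            rw [memR]
            exact ⟨hMS s r hr1, (center_map (φ s) (hMS s) ⟨r, hr1⟩).mpr hr2⟩
          · intro s r hr
            obtain ⟨hr1, hr2⟩ := (memR r).mp hr
            rw [hωM r hr1, hωM _ (hMS s r hr1)]
            congr 1
            exact hinv s ⟨r, hr1⟩
        · -- the case of `τ`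
          set r : K := ⟨x, hMK x.2⟩ with hr
          have h1 : ω (τ₀ r) = ω r := by
            have h2 : (τ₀ r : G) ∈ M := by rw [← τK]; exact hMτ _ x.2
            rw [hωM _ h2, hωM r x.2]
            congr 1
            have h3 := hinv x
            rw [← h3]
            congr 1
            apply Subtype.ext
            exact (τK r).symm
          have hcomm : Commute r (π r) := (Subtype.ext (hZc _ hπx _) : π r * r = r * π r).symm
          have hπR := (hZR _ hπx).1
          rw [T5 r hcomm, hω _ (R.inv_mem hxR) _ (R.pow_mem hπR 2), sq, hω _ hπR _ hπR] at h1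
          have h2 : ω r⁻¹ * ω r = 1 := by
            rw [← hω _ (R.inv_mem hxR) _ hxR, inv_mul_cancel, hω1]
          have h3 : ω (π r)⁻¹ * ω (π r) = 1 := by
            rw [← hω _ (R.inv_mem hπR) _ hπR, inv_mul_cancel, hω1]
          have hωpow : ∀ (n : ℕ) (y : K), y ∈ R → ω (y ^ n) = ω y ^ n := by
            intro n y hy
            induction n with
            | zero => rw [pow_zero, pow_zero, hω1]
            | succ n ih => rw [pow_succ, hω _ (R.pow_mem hy n) _ hy, ih, pow_succ]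
          have h4 : (ω r * ω (π r)⁻¹) ^ 2 = 1 := by
            have e1 : ω r ≠ 0 := right_ne_zero_of_mul_eq_one h2
            have e2 : ω (π r) ≠ 0 := right_ne_zero_of_mul_eq_one h3
            have e3 : ω r⁻¹ = (ω r)⁻¹ := eq_inv_of_mul_eq_one_left h2
            have e4 : ω (π r)⁻¹ = (ω (π r))⁻¹ := eq_inv_of_mul_eq_one_left h3
            rw [e3] at h1
            rw [e4]
            field_simp at h1 ⊢
            linear_combination (-1 : ℂ) * h1
          have h5 : (ω r * ω (π r)⁻¹) ^ Nat.card K = 1 := by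
            rw [← hω _ hxR _ (R.inv_mem hπR), ← hωpow _ _ (R.mul_mem hxR (R.inv_mem hπR)),
              pow_card_eq_one', hω1]
          have h6 := eq_one_of_sq_odd h4
            (hodd.of_dvd_nat (Subgroup.card_subgroup_dvd_card K)) h5
          calc ω r = (ω r * ω (π r)⁻¹) * ω (π r) := by rw [mul_assoc, h3, mul_one]
            _ = ω (π r) := by rw [h6, one_mul]
      rw [hωM _ x.2] at key
      rw [← key]
      change ψ x = ψ 1 * (ψ x / ψ 1)
      field_simp
    · have hF : F x = 0 := if_neg hx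
      rw [hF, mul_zero]
      rw [Subgroup.mem_center_iff] at hx
      push Not at hx
      obtain ⟨y, hy⟩ := hx
      have hz : ⁅(y : G), (x : G)⁆ ∈ Z := hK _ (hMK y.2) _ (hMK x.2)
      let z : M := ⟨⁅(y : G), (x : G)⁆, hZM hz⟩
      have hzc : z ∈ Subgroup.center M := by
        rw [Subgroup.mem_center_iff]
        intro w
        exact Subtype.ext (hZc _ hz _).symm
      have h1 : y * x * y⁻¹ = x * z := by
        apply Subtype.ext
        change (y : G) * x * (y : G)⁻¹ = x * ⁅(y : G), (x : G)⁆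
        rw [← hZc _ hz, commutatorElement_def]
        group
      have h2 := isClassFunction_of_isCharacter (isCharacter_of_isIrr hψ) x y
      rw [h1, irr_mul_central hψ hzc, hψZ _ hz] at h2
      have h3 : ψ x * (lam ⁅(y : G), (x : G)⁆ - 1) = 0 := by
        field_simp at h2
        linear_combination h2
      rcases mul_eq_zero.mp h3 with h4 | h4
      · exact h4
      · exfalso
        apply hy
        have h5 := hlam _ hz (sub_eq_zero.mp h4)
        rw [commutatorElement_eq_one_iff_mul_comm] at h5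
        exact Subtype.ext h5
  refine ⟨τ, hττ, τfix, fun χ hχ hχZ => ?_⟩
  have := Fintype.ofFinite M
  obtain ⟨ψ, hψ, hψχ⟩ := exists_constituent_restrict M (isCharacter_of_isIrr hχ) (irr_one_ne_zero hχ)
  have hψZ : ∀ (z : G) (hz : z ∈ Z), ψ ⟨z, hZM hz⟩ = lam z * ψ 1 := fun z hz =>
    central_of_constituent M hχ hψ hψχ ⟨z, hZM hz⟩ (fun g => (hZc z hz g).symm) (hχZ z hz)
  have hψG : ∀ ψ : M → ℂ, ψ = ψ 1 • F → ∀ g, cj M g ψ = ψ := by
    intro ψ h1 g
    rw [h1, cj_smul, FG]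
  have powS : ∀ s, (φ s) ^ Nat.card S = 1 := fun s => by
    rw [← map_pow, pow_card_eq_one', map_one]
  have powτ : τ ^ 2 = 1 := by rw [sq]; exact hττ
  constructor
  · intro hinv
    have h1 := VV ψ hψ hψZ (Or.inl fun s m =>
      constituent_invariant M (φ s) (powS s) hcop.symm (hMS s) (trivS s) hχ (hinv s) hψ hψχ m)
    refine fun g => inv_of_over M τ powτ (Nat.coprime_two_left.mpr hodd) hMτ trivτ hψ (hψG ψ h1)
      ?_ hχ hψχ g
    intro m
    rw [h1, Pi.smul_apply, Pi.smul_apply, Fτ]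
  · intro hinv
    have h1 := VV ψ hψ hψZ (Or.inr fun m =>
      constituent_invariant M τ powτ (Nat.coprime_two_left.mpr hodd) hMτ trivτ hχ hinv hψ hψχ m)
    refine fun s g => inv_of_over M (φ s) (powS s) hcop.symm (hMS s) (trivS s) hψ (hψG ψ h1)
      ?_ hχ hψχ g
    intro m
    rw [h1, Pi.smul_apply, Pi.smul_apply, FS]

end Cfsg.Agent.H76.OS
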