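import Cfsg.Agent.H76.OddSecC
import Cfsg.Agent.Glaub.PGroup
import Cfsg.Agent.Char.CentralChar

/-!
# The character correspondence for an abelian section, invariant case
-/

set_option autoImplicit false
set_option linter.unusedSectionVars false
set_option linter.unusedFintypeInType false

namespace Cfsg.Agent.H76.OS

open scoped ComplexConjugate commutatorElement
open Cfsg Cfsg.Agent.CharBase Cfsg.Agent.Char

universe u v w

/-- Central behaviour passes to constituents of a character. -/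
theorem central_of_inner {X : Type u} [Group X] [Fintype X] {F b : X → ℂ} (hb : IsIrrCharacter X b)
    (h : classInner F b ≠ 0) {z : X} (hz : z ∈ Subgroup.center X) {c : ℂ}
    (hF : ∀ x, F (z * x) = c * F x) : b z = c * b 1 := by
  obtain ⟨c', hc1, hc, hmul⟩ := CC.exists_scalar hb z hz
  have h1 : classInner F b = c * conj c' * classInner F b := by
    conv_lhs => unfold classInner
    rw [← Equiv.sum_comp (Equiv.mulLeft z)]
    have h2 : ∀ y : X, F ((Equiv.mulLeft z) y) * conj (b ((Equiv.mulLeft z) y)) =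
        c * conj c' * (F y * conj (b y)) := by
      intro y
      change F (z * y) * conj (b (z * y)) = _
      rw [hF, hmul, map_mul]
      ring
    rw [Finset.sum_congr rfl (fun y _ => h2 y), ← Finset.mul_sum]
    unfold classInner
    ring
  have h3 : c * conj c' = 1 := by
    have h4 : (1 : ℂ) * classInner F b = c * conj c' * classInner F b := by rw [one_mul]; exact h1
    exact (mul_right_cancel₀ h h4).symm
  have h5 : conj c' * c' = 1 := by
    rw [mul_comm, Complex.mul_conj, Complex.normSq_eq_norm_sq, hc1]; simp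
  have h6 : c = c' := by
    calc c = c * (conj c' * c') := by rw [h5, mul_one]
      _ = c' := by rw [← mul_assoc, h3, one_mul]
  rw [h6]
  have := hmul 1
  rwa [mul_one] at this

theorem ambient {A : Type u} [Group A] [Finite A] (L K G S H : Subgroup A) [hLn : L.Normal]
    [hKn : K.Normal] [hGn : G.Normal] (hLK : L ≤ K) (hKG : K ≤ G) (hodd : Odd (Nat.card G))
    (hcop : (Nat.card G).Coprime (Nat.card S)) (hab : ∀ x ∈ K, ∀ y ∈ K, ⁅x, y⁆ ∈ L)
    (hH : ∀ g, g ∈ H ↔ g ∈ G ∧ ∀ s ∈ S, s * g * s⁻¹ * g⁻¹ ∈ L)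
    (hGKH : ∀ g ∈ G, ∃ k ∈ K, ∃ h ∈ H, g = k * h)
    {θ : L → ℂ} (hθ : IsIrrCharacter L θ) (hinv : ∀ a, cj L a θ = θ) (hLG : L ≤ G) (hLH : L ≤ H)
    (hHG : H ≤ G) [Fintype L] [Fintype G] [Fintype H] :
    (∀ χ : G → ℂ, IsIrrCharacter G χ → classInner (fun l : L => χ ⟨l, hLG l.2⟩) θ ≠ 0 →
      (∀ s ∈ S, ∀ g g' : G, (g' : A) = s * g * s⁻¹ → χ g' = χ g) →
      ∃ ψ : H → ℂ, IsIrrCharacter H ψ ∧ classInner (fun l : L => ψ ⟨l, hLH l.2⟩) θ ≠ 0 ∧
        ∃ m : ℕ, classInner (fun h : H => χ ⟨h, hHG h.2⟩) ψ = m ∧ Odd m ∧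
        ∀ γ : H → ℂ, IsIrrCharacter H γ → classInner (fun l : L => γ ⟨l, hLH l.2⟩) θ ≠ 0 →
          γ ≠ ψ → ∀ n : ℕ, classInner (fun h : H => χ ⟨h, hHG h.2⟩) γ = n → Even n) ∧
    (∀ χ χ' : G → ℂ, IsIrrCharacter G χ → IsIrrCharacter G χ' →
      classInner (fun l : L => χ ⟨l, hLG l.2⟩) θ ≠ 0 →
      classInner (fun l : L => χ' ⟨l, hLG l.2⟩) θ ≠ 0 →
      (∀ s ∈ S, ∀ g g' : G, (g' : A) = s * g * s⁻¹ → χ g' = χ g) →
      (∀ s ∈ S, ∀ g g' : G, (g' : A) = s * g * s⁻¹ → χ' g' = χ' g) →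
      ∀ ψ : H → ℂ, IsIrrCharacter H ψ → classInner (fun l : L => ψ ⟨l, hLH l.2⟩) θ ≠ 0 →
      ∀ m m' : ℕ, classInner (fun h : H => χ ⟨h, hHG h.2⟩) ψ = m → Odd m →
        classInner (fun h : H => χ' ⟨h, hHG h.2⟩) ψ = m' → Odd m' → χ = χ') ∧
    (∀ ψ : H → ℂ, IsIrrCharacter H ψ → classInner (fun l : L => ψ ⟨l, hLH l.2⟩) θ ≠ 0 →
      ∃ χ : G → ℂ, IsIrrCharacter G χ ∧ classInner (fun l : L => χ ⟨l, hLG l.2⟩) θ ≠ 0 ∧
        (∀ s ∈ S, ∀ g g' : G, (g' : A) = s * g * s⁻¹ → χ g' = χ g) ∧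
        ∃ m : ℕ, classInner (fun h : H => χ ⟨h, hHG h.2⟩) ψ = m ∧ Odd m) := by
  classical
  obtain ⟨Y, _, _, ⟨T⟩⟩ := Trip.exists_lin L hθ hinv
  -- order of the kernel
  have hker : ∀ n : ℕ, (Nat.card G).Coprime n → (Nat.card T.p.ker).Coprime n := by
    intro n hn
    have h1 : (Nat.card L).Coprime n :=
      hn.coprime_dvd_left (Subgroup.card_dvd_of_le hLG)
    exact (h1.pow_left 2).coprime_dvd_left T.card_dvd
  have hupG : ∀ n : ℕ, (Nat.card G).Coprime n → (Nat.card (T.up G)).Coprime n := by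
    intro n hn
    have h1 : Nat.card (T.up G) = Nat.card (T.pX G).ker * Nat.card G := by
      rw [← Subgroup.card_mul_index (T.pX G).ker, Subgroup.index_ker,
        MonoidHom.range_eq_top.mpr (T.pX_surj G), Subgroup.card_top]
    have h2 : Nat.card (T.pX G).ker ∣ Nat.card T.p.ker := by
      let f : (T.pX G).ker →* T.p.ker :=
        { toFun := fun x => ⟨((x : T.up G) : Y), by
            rw [MonoidHom.mem_ker]
            exact congrArg Subtype.val (MonoidHom.mem_ker.mp x.2)⟩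
          map_one' := rfl
          map_mul' := fun a b => rfl }
      exact Subgroup.card_dvd_of_injective f (fun a b hab =>
        Subtype.ext (Subtype.ext (congrArg (fun x : T.p.ker => (x : Y)) hab)))
    rw [h1]
    exact Nat.Coprime.mul_left ((hker n hn).coprime_dvd_left h2) hn
  have hbarG : ∀ n : ℕ, (Nat.card G).Coprime n → (Nat.card (T.bar G)).Coprime n := by
    intro n hn
    exact (hupG n hn).coprime_dvd_left (Subgroup.card_map_dvd _ _)
  have hoddB : Odd (Nat.card (T.bar G)) :=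
    Nat.coprime_two_right.mp (hbarG 2 (Nat.coprime_two_right.mpr hodd))
  -- lifting `S`
  obtain ⟨St, hSt1, hSt2, hStc⟩ : ∃ St : Subgroup Y, (∀ s ∈ St, T.p s ∈ S) ∧
      (∀ s ∈ S, ∃ t ∈ St, T.p t = s) ∧ Nat.card St ∣ Nat.card S := by
    have hle : T.p.ker ≤ T.up S := by
      intro z hz
      rw [Trip.Lin.mem_up, MonoidHom.mem_ker.mp hz]
      exact S.one_mem
    have hidx : (T.p.ker.subgroupOf (T.up S)).index = Nat.card S := by
      have h1 : T.p.ker.subgroupOf (T.up S) = (T.pX S).ker := by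
        ext x
        rw [Subgroup.mem_subgroupOf, MonoidHom.mem_ker, MonoidHom.mem_ker, Subtype.ext_iff]
        rfl
      rw [h1, Subgroup.index_ker, MonoidHom.range_eq_top.mpr (T.pX_surj S), Subgroup.card_top]
    have hcard : Nat.card (T.p.ker.subgroupOf (T.up S)) = Nat.card T.p.ker :=
      Nat.card_congr (Subgroup.subgroupOfEquivOfLe hle).toEquiv
    obtain ⟨W, hW⟩ := Subgroup.exists_right_complement'_of_coprime
      (N := T.p.ker.subgroupOf (T.up S)) (by rw [hidx, hcard]; exact hker _ hcop)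
    refine ⟨W.map (T.up S).subtype, ?_, ?_, ?_⟩
    · rintro _ ⟨w, hw, rfl⟩
      exact w.2
    · intro s hs
      obtain ⟨y, rfl⟩ := T.surj s
      obtain ⟨⟨a, b⟩, hab⟩ := hW.2 ⟨y, hs⟩
      refine ⟨((b : T.up S) : Y), ⟨b, b.2, rfl⟩, ?_⟩
      have h1 : ((a : T.up S) : Y) * ((b : T.up S) : Y) = y := congrArg Subtype.val hab
      rw [← h1, map_mul, MonoidHom.mem_ker.mp (show ((a : T.up S) : Y) ∈ T.p.ker from a.2), one_mul]
    · rw [Nat.card_congr (W.equivMapOfInjective (T.up S).subtype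
        (T.up S).subtype_injective).symm.toEquiv, ← hidx]
      rw [hW.symm.index_eq_card]
  have hcopS : (Nat.card (T.bar G)).Coprime (Nat.card St) :=
    (hbarG _ hcop).coprime_dvd_right hStc
  -- structure of the quotient
  have hGbn : (T.bar G).Normal := (hGn.comap T.p).map _ (QuotientGroup.mk'_surjective _)
  have hKbn : (T.bar K).Normal := (hKn.comap T.p).map _ (QuotientGroup.mk'_surjective _)
  let φ : St →* MulAut (T.bar G) :=
    (MulAut.conjNormal (H := T.bar G)).comp ((QuotientGroup.mk' T.I).comp St.subtype)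
  have hφ : ∀ (s : St) (x : T.bar G), ((φ s x : T.bar G) : Y ⧸ T.I) =
      ((s : Y) : Y ⧸ T.I) * x * ((s : Y) : Y ⧸ T.I)⁻¹ := fun s x => rfl
  let Z : Subgroup (T.bar G) := (T.p.ker.map (QuotientGroup.mk' T.I)).subgroupOf (T.bar G)
  have memZ : ∀ x : T.bar G, x ∈ Z ↔ ∃ z : T.p.ker, ((z : Y) : Y ⧸ T.I) = x := by
    intro x
    constructor
    · rintro ⟨z, hz, hzx⟩
      exact ⟨⟨z, hz⟩, hzx⟩
    · rintro ⟨z, hzx⟩
      exact ⟨z, z.2, hzx⟩
  have kerZ : ∀ z : T.p.ker, ∀ X : Subgroup A, ((z : Y) : Y ⧸ T.I) ∈ T.bar X := by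
    intro z X
    refine ⟨z, ?_, rfl⟩
    change T.p z ∈ X
    rw [MonoidHom.mem_ker.mp z.2]
    exact X.one_mem
  have upL : ∀ y : Y, T.p y ∈ L → ∃ z : T.p.ker, (y : Y ⧸ T.I) = ((z : Y) : Y ⧸ T.I) := by
    intro y hy
    let l : L := ⟨T.p y, hy⟩
    have h1 : y * (T.ι l)⁻¹ ∈ T.p.ker := by
      rw [MonoidHom.mem_ker, map_mul, map_inv, T.p_ι]
      exact mul_inv_cancel _
    refine ⟨⟨y * (T.ι l)⁻¹, h1⟩, ?_⟩
    change (QuotientGroup.mk y : Y ⧸ T.I) = QuotientGroup.mk (y * (T.ι l)⁻¹)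
    rw [QuotientGroup.mk_mul]
    have h2 : (QuotientGroup.mk (T.ι l)⁻¹ : Y ⧸ T.I) = 1 :=
      (QuotientGroup.eq_one_iff _).mpr (T.I.inv_mem (T.ι_mem l))
    rw [h2, mul_one]
  have ker_inj : ∀ z z' : T.p.ker, ((z : Y) : Y ⧸ T.I) = ((z' : Y) : Y ⧸ T.I) → z = z' := by
    intro z z' h
    have h1 := QuotientGroup.eq.mp h
    have h2 := T.eq_one_of_mem h1 (by
      rw [map_mul, map_inv, MonoidHom.mem_ker.mp z.2, MonoidHom.mem_ker.mp z'.2, inv_one, one_mul])
    apply Subtype.ext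
    exact (inv_mul_eq_one.mp h2)
  have hZcen : ∀ (z : T.p.ker) (x : Y ⧸ T.I), ((z : Y) : Y ⧸ T.I) * x = x * ((z : Y) : Y ⧸ T.I) := by
    intro z x
    obtain ⟨x, rfl⟩ := QuotientGroup.mk_surjective x
    rw [← QuotientGroup.mk_mul, ← QuotientGroup.mk_mul, T.central z z.2]
  let lam : T.bar G → ℂ := fun x => if h : ∃ z : T.p.ker, ((z : Y) : Y ⧸ T.I) = x then
    ((T.μ h.choose : ℂˣ) : ℂ)⁻¹ else 0
  have lam_eq : ∀ (z : T.p.ker) (x : T.bar G), ((z : Y) : Y ⧸ T.I) = x →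
      lam x = ((T.μ z : ℂˣ) : ℂ)⁻¹ := by
    intro z x hzx
    have h : ∃ z : T.p.ker, ((z : Y) : Y ⧸ T.I) = x := ⟨z, hzx⟩
    change (if h : ∃ z : T.p.ker, ((z : Y) : Y ⧸ T.I) = x then
      ((T.μ h.choose : ℂˣ) : ℂ)⁻¹ else 0) = _
    rw [dif_pos h]
    have h2 : h.choose = z := ker_inj _ _ (h.choose_spec.trans hzx.symm)
    rw [h2]
  have hbHG : T.bar H ≤ T.bar G := T.bar_mono hHG
  -- fixed points of `St`
  have fixB : ∀ x : T.bar G, (∀ s, φ s x = x) ↔ (x : Y ⧸ T.I) ∈ T.bar H := by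
    intro x
    obtain ⟨⟨g, hg⟩, rfl⟩ := T.qX_surj G x
    constructor
    · intro h
      rw [T.qX_coe, T.mem_bar hLH, hH]
      refine ⟨hg, ?_⟩
      intro s hs
      obtain ⟨t, ht, rfl⟩ := hSt2 s hs
      have h1 := congrArg Subtype.val (h ⟨t, ht⟩)
      rw [hφ, T.qX_coe] at h1
      simp only at h1
      rw [← QuotientGroup.mk_mul, ← QuotientGroup.mk_inv, ← QuotientGroup.mk_mul] at h1
      have h2 := QuotientGroup.eq.mp h1.symm
      obtain ⟨l, hl⟩ := h2
      have h3 : T.p g * (l : A) * (T.p g)⁻¹ = T.p t * T.p g * (T.p t)⁻¹ * (T.p g)⁻¹ := by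
        rw [← T.p_ι l, hl]
        simp only [map_mul, map_inv]
        group
      rw [← h3]
      exact hLn.conj_mem _ l.2 _
    · intro h s
      rw [T.qX_coe, T.mem_bar hLH, hH] at h
      -- the commutators are central
      have h1 : ∀ s : St, ∃ z : T.p.ker, ∀ k : ℕ, (((φ s) ^ k) (T.qX G ⟨g, hg⟩) : Y ⧸ T.I) =
          ((z : Y) : Y ⧸ T.I) ^ k * (T.qX G ⟨g, hg⟩ : Y ⧸ T.I) := by
        intro s
        obtain ⟨z, hz⟩ := upL (s * g * (s : Y)⁻¹ * g⁻¹) (by
          simp only [map_mul, map_inv]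
          exact h.2 _ (hSt1 s s.2))
        refine ⟨z, fun k => ?_⟩
        induction k with
        | zero => simp
        | succ k ih =>
          rw [pow_succ', MulAut.mul_apply, hφ, ih]
          have e1 : ((s : Y) : Y ⧸ T.I) * (T.qX G ⟨g, hg⟩ : Y ⧸ T.I) * ((s : Y) : Y ⧸ T.I)⁻¹ =
              ((z : Y) : Y ⧸ T.I) * (T.qX G ⟨g, hg⟩ : Y ⧸ T.I) := by
            rw [← hz, T.qX_coe]
            simp only [QuotientGroup.mk_mul, QuotientGroup.mk_inv]
            group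
          have e2 : ((s : Y) : Y ⧸ T.I) * (((z : Y) : Y ⧸ T.I) ^ k * (T.qX G ⟨g, hg⟩ : Y ⧸ T.I)) *
              ((s : Y) : Y ⧸ T.I)⁻¹ = ((z : Y) : Y ⧸ T.I) ^ k * (((s : Y) : Y ⧸ T.I) *
                (T.qX G ⟨g, hg⟩ : Y ⧸ T.I) * ((s : Y) : Y ⧸ T.I)⁻¹) := by
            have e3 : Commute ((s : Y) : Y ⧸ T.I) (((z : Y) : Y ⧸ T.I) ^ k) :=
              Commute.pow_right (hZcen z _).symm k
            rw [← mul_assoc, e3.eq]
            group
          rw [e2, e1, ← mul_assoc, pow_succ]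
      obtain ⟨z, hz⟩ := h1 s
      have h2 := hz (Nat.card St)
      rw [← map_pow, pow_card_eq_one', map_one, MulAut.one_apply] at h2
      have h3 : ((z : Y) : Y ⧸ T.I) ^ Nat.card St = 1 := by
        exact (mul_eq_right.mp h2.symm)
      have h4 : ((z : Y) : Y ⧸ T.I) ^ Nat.card T.p.ker = 1 := by
        rw [← QuotientGroup.mk_pow]
        have : (z : Y) ^ Nat.card T.p.ker = 1 := congrArg Subtype.val (pow_card_eq_one' (x := z))
        rw [this]
        rfl
      have h5 : ((z : Y) : Y ⧸ T.I) = 1 := by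
        have h6 : orderOf ((z : Y) : Y ⧸ T.I) ∣ Nat.gcd (Nat.card T.p.ker) (Nat.card St) :=
          Nat.dvd_gcd (orderOf_dvd_of_pow_eq_one h4) (orderOf_dvd_of_pow_eq_one h3)
        rw [(hker _ hcop).coprime_dvd_right hStc] at h6
        exact orderOf_eq_one_iff.mp (Nat.dvd_one.mp h6)
      have h6 := hz 1
      rw [pow_one, pow_one, h5, one_mul] at h6
      exact Subtype.ext h6
  obtain ⟨τ, hττ, hτfix, hτinv⟩ := exists_tau φ hoddB hcopS Z ((T.bar K).subgroupOf (T.bar G))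
    (by
      intro x hx
      obtain ⟨z, hz⟩ := (memZ x).mp hx
      rw [Subgroup.mem_subgroupOf, ← hz]
      exact kerZ z K)
    (by
      intro x hx g
      obtain ⟨z, hz⟩ := (memZ x).mp hx
      apply Subtype.ext
      rw [Subgroup.coe_mul, Subgroup.coe_mul, ← hz]
      exact hZcen z _)
    (by
      intro s x hx
      obtain ⟨z, hz⟩ := (memZ x).mp hx
      apply Subtype.ext
      rw [hφ, ← hz, ← hZcen, mul_inv_cancel_right])
    (by
      intro s k hk
      rw [Subgroup.mem_subgroupOf, hφ]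
      exact hKbn.conj_mem _ hk _)
    (by
      rintro ⟨x, hx⟩ hx' ⟨y, hy⟩ hy'
      rw [Subgroup.mem_subgroupOf] at hx' hy'
      obtain ⟨a, ha, rfl⟩ := hx'
      obtain ⟨b, hb, rfl⟩ := hy'
      rw [memZ]
      obtain ⟨z, hz⟩ := upL ⁅a, b⁆ (by
        rw [map_commutatorElement]
        exact hab _ ha _ hb)
      exact ⟨z, hz.symm⟩)
    (by
      intro x
      obtain ⟨⟨g, hg⟩, rfl⟩ := T.qX_surj G x
      obtain ⟨k, hk, h, hh, hkh⟩ := hGKH (T.p g) hg
      obtain ⟨k', rfl⟩ := T.surj k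
      obtain ⟨h', rfl⟩ := T.surj h
      -- adjust `k'` by an element of the kernel
      have e1 : g * h'⁻¹ ∈ T.up K := by
        rw [Trip.Lin.mem_up, map_mul, map_inv, hkh, mul_inv_cancel_right]
        exact hk
      refine ⟨T.qX G ⟨g * h'⁻¹, hKG e1⟩, ⟨g * h'⁻¹, e1, rfl⟩, T.qX G ⟨h', hHG hh⟩, ?_, ?_⟩
      · rw [fixB, T.qX_coe, T.mem_bar hLH]
        exact hh
      · rw [← map_mul]
        congr 1
        apply Subtype.ext
        simp)
    lam
    (by
      intro x hx hx1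
      obtain ⟨z, hz⟩ := (memZ x).mp hx
      rw [lam_eq z x hz, inv_eq_one] at hx1
      have h1 : T.μ z = 1 := Units.ext hx1
      have h2 : z = 1 := T.μ_inj (by rw [h1, map_one])
      apply Subtype.ext
      rw [← hz, h2]
      rfl)
  have := Fintype.ofFinite (T.bar G)
  have := Fintype.ofFinite (T.bar H)
  -- the group of order two
  let A2 := Subgroup.zpowers τ
  let φ2 : A2 →* MulAut (T.bar G) := A2.subtype
  let j : T.bar H →* T.bar G := Subgroup.inclusion hbHG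
  have hA2 : IsPGroup 2 A2 := by
    rintro ⟨_, k, rfl⟩
    refine ⟨1, ?_⟩
    apply Subtype.ext
    change (τ ^ k) ^ (2 ^ 1) = 1
    rw [pow_one, ← zpow_natCast, ← zpow_mul, mul_comm, zpow_mul, Nat.cast_ofNat, zpow_ofNat, sq, hττ,
      one_zpow]
  have hA2' : ∀ (a : A2) (x : T.bar G), φ2 a x = x ∨ φ2 a x = τ x := by
    rintro ⟨_, k, rfl⟩ x
    rcases Int.even_or_odd' k with ⟨l, hl | hl⟩
    · left
      change (τ ^ k) x = x
      rw [hl, zpow_mul, zpow_ofNat, sq, hττ, one_zpow]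
      rfl
    · right
      change (τ ^ k) x = τ x
      rw [hl, zpow_add, zpow_mul, zpow_ofNat, sq, hττ, one_zpow, one_mul, zpow_one]
  have hInv : ∀ β : T.bar G → ℂ, Glaub.Inv φ2 β ↔ ∀ x, β (τ x) = β x := by
    intro β
    constructor
    · intro h x
      exact h ⟨τ, Subgroup.mem_zpowers τ⟩ x
    · intro h a x
      rcases hA2' a x with h1 | h1
      · rw [h1]
      · rw [h1, h]
  have hFix : Glaub.IsFix φ2 j := by
    refine ⟨Subgroup.inclusion_injective _, fun x => ?_⟩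
    have h1 : (∀ a : A2, φ2 a x = x) ↔ τ x = x := by
      constructor
      · intro h
        exact h ⟨τ, Subgroup.mem_zpowers τ⟩
      · intro h a
        rcases hA2' a x with h1 | h1
        · exact h1
        · rw [h1, h]
    rw [h1, hτfix, fixB]
    constructor
    · intro h
      exact ⟨⟨x, h⟩, rfl⟩
    · rintro ⟨y, rfl⟩
      exact y.2
  have h2G : ¬ 2 ∣ Nat.card (T.bar G) := by
    intro h
    exact (Nat.not_even_iff_odd.mpr hoddB) (even_iff_two_dvd.mpr h)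
  -- invariance transfers
  have invT : ∀ {χ : G → ℂ} {β : T.bar G → ℂ}, T.Rel G χ β →
      ((∀ s ∈ S, ∀ g g' : G, (g' : A) = s * g * s⁻¹ → χ g' = χ g) ↔
        ∀ s x, β (φ s x) = β x) := by
    intro χ β hrel
    have hconj : ∀ (s : St) (h : T.up G), (s : Y) * h * (s : Y)⁻¹ ∈ T.up G := by
      intro s h
      rw [Trip.Lin.mem_up, map_mul, map_mul, map_inv]
      exact hGn.conj_mem _ h.2 _
    have hDcl := isClassFunction_of_isCharacter (isCharacter_of_isIrr T.irr)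
    constructor
    · intro h s
      have h1 : T.Rel G χ (fun x => β (φ s x)) := by
        intro y
        have h2 := hrel ⟨(s : Y) * y * (s : Y)⁻¹, hconj s y⟩
        have h3 : χ (T.pX G ⟨(s : Y) * y * (s : Y)⁻¹, hconj s y⟩) = χ (T.pX G y) := by
          apply h _ (hSt1 s s.2)
          rw [T.pX_coe, T.pX_coe]
          simp only [map_mul, map_inv]
        rw [h3] at h2
        rw [h2]
        congr 1
        exact hDcl _ _
      have h2 := T.rel_right_unique hθ hLG hrel h1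
      intro x
      exact (congrFun h2 x).symm
    · intro h s hs g g' hg
      obtain ⟨t, ht, rfl⟩ := hSt2 s hs
      obtain ⟨y, rfl⟩ := T.pX_surj G g
      have h2 := hrel ⟨(t : Y) * y * (t : Y)⁻¹, hconj ⟨t, ht⟩ y⟩
      have h3 : T.pX G ⟨(t : Y) * y * (t : Y)⁻¹, hconj ⟨t, ht⟩ y⟩ = g' := by
        apply Subtype.ext
        rw [hg, T.pX_coe, T.pX_coe]
        simp only [map_mul, map_inv]
      rw [h3] at h2
      rw [h2, hrel y, ← h ⟨t, ht⟩ (T.qX G y)]
      congr 1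
      exact hDcl _ _
  -- above `θ` means above `lam`
  have overG : ∀ {χ : G → ℂ} {β : T.bar G → ℂ}, T.Rel G χ β → ∀ z ∈ Z, β z = lam z * β 1 := by
    intro χ β hrel x hx
    obtain ⟨z, hz⟩ := (memZ x).mp hx
    rw [lam_eq z x hz]
    exact T.rel_central hθ hLG hrel z 1 x (by rw [OneMemClass.coe_one, mul_one, hz])
  have cenG : ∀ (z : T.p.ker), (⟨((z : Y) : Y ⧸ T.I), kerZ z G⟩ : T.bar G) ∈
      Subgroup.center (T.bar G) := by
    intro z
    rw [Subgroup.mem_center_iff]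
    intro y
    exact Subtype.ext (hZcen z y).symm
  have cenH : ∀ (z : T.p.ker), (⟨((z : Y) : Y ⧸ T.I), kerZ z H⟩ : T.bar H) ∈
      Subgroup.center (T.bar H) := by
    intro z
    rw [Subgroup.mem_center_iff]
    intro y
    exact Subtype.ext (hZcen z y).symm
  -- a common central behaviour for linked characters
  have link : ∀ {β : T.bar G → ℂ} {b : T.bar H → ℂ}, IsIrrCharacter (T.bar G) β →
      IsIrrCharacter (T.bar H) b → classInner (fun h : T.bar H => β (j h)) b ≠ 0 →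
      ∀ z : T.p.ker, b ⟨((z : Y) : Y ⧸ T.I), kerZ z H⟩ =
        β ⟨((z : Y) : Y ⧸ T.I), kerZ z G⟩ / β 1 * b 1 := by
    intro β b hβ hb hne z
    refine central_of_inner hb hne (cenH z) ?_
    intro x
    have h1 := irr_mul_central hβ (cenG z) (j x)
    have h2 : j (⟨((z : Y) : Y ⧸ T.I), kerZ z H⟩ * x) =
        j x * ⟨((z : Y) : Y ⧸ T.I), kerZ z G⟩ := by
      apply Subtype.ext
      exact hZcen z x
    rw [h2, h1]
    ring
  have resE : ∀ {χ : G → ℂ} {β : T.bar G → ℂ} {ψ : H → ℂ} {b : T.bar H → ℂ}, T.Rel G χ β →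
      T.Rel H ψ b → classInner (fun h : H => χ ⟨h, hHG h.2⟩) ψ =
        classInner (Glaub.res j β) b := by
    intro χ β ψ b h1 h2
    exact T.inner hθ hLH (T.restrict hHG hbHG h1) h2
  refine ⟨?_, ?_, ?_⟩
  · intro χ hχ hχθ hχS
    obtain ⟨β, hβ, hrel⟩ := T.exists_down hθ hLG hχ hχθ
    have h1 := (hτinv β hβ (overG hrel)).mp ((invT hrel).mp hχS)
    obtain ⟨b, m, hm, hpm, -, huniq⟩ := Glaub.existsUnique_below hFix Nat.prime_two hA2 h2G ⟨β, hβ⟩
      ((hInv β).mpr h1)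
    have hm0 : m ≠ 0 := by rintro rfl; exact hpm (dvd_zero 2)
    have hne : classInner (fun h : T.bar H => β (j h)) (b : T.bar H → ℂ) ≠ 0 := by
      change classInner (Glaub.res j β) (b : T.bar H → ℂ) ≠ 0
      simp only at hm
      rw [hm]
      exact_mod_cast hm0
    have hbZ : ∀ z : T.p.ker, ∀ y : T.bar H, (y : Y ⧸ T.I) = ((z : Y) : Y ⧸ T.I) →
        (b : T.bar H → ℂ) y = ((T.μ z : ℂˣ) : ℂ)⁻¹ * (b : T.bar H → ℂ) 1 := by
      intro z y hy
      have e1 : y = ⟨((z : Y) : Y ⧸ T.I), kerZ z H⟩ := Subtype.ext hy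
      have e2 := T.rel_central hθ hLG hrel z 1 ⟨((z : Y) : Y ⧸ T.I), kerZ z G⟩
        (by rw [OneMemClass.coe_one, mul_one])
      rw [e1, link hβ b.2 hne z, e2, mul_div_assoc, div_self (irr_one_ne_zero hβ), mul_one]
    obtain ⟨ψ, hψ, hrel2, hψθ⟩ := T.exists_up hθ hLH b.2 hbZ
    refine ⟨ψ, hψ, hψθ, m, ?_, ?_, ?_⟩
    · rw [resE hrel hrel2]
      exact hm
    · rw [← Nat.not_even_iff_odd, even_iff_two_dvd]
      exact hpm
    · intro γ hγ hγθ hne n hn
      obtain ⟨b', hb', hrel3⟩ := T.exists_down hθ hLH hγ hγθ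
      rw [resE hrel hrel3] at hn
      have h2 := huniq ⟨b', hb'⟩ n hn (by
        intro h3
        apply hne
        have h4 : b' = b := congrArg Subtype.val h3
        rw [h4] at hrel3
        exact T.rel_left_unique hrel3 hrel2)
      exact even_iff_two_dvd.mpr h2
  · intro χ χ' hχ hχ' hχθ hχθ' hχS hχS' ψ hψ hψθ m m' hm hmo hm' hmo'
    obtain ⟨β, hβ, hrel⟩ := T.exists_down hθ hLG hχ hχθ
    obtain ⟨β', hβ', hrel'⟩ := T.exists_down hθ hLG hχ' hχθ'
    obtain ⟨b, hb, hrelb⟩ := T.exists_down hθ hLH hψ hψθ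
    have h1 := (hτinv β hβ (overG hrel)).mp ((invT hrel).mp hχS)
    have h1' := (hτinv β' hβ' (overG hrel')).mp ((invT hrel').mp hχS')
    rw [resE hrel hrelb] at hm
    rw [resE hrel' hrelb] at hm'
    have h2 := Glaub.eq_of_common hFix Nat.prime_two hA2 h2G ⟨β, hβ⟩ ⟨β', hβ'⟩ ((hInv β).mpr h1)
      ((hInv β').mpr h1') ⟨b, hb⟩ m m' hm
      (by rw [← even_iff_two_dvd, Nat.not_even_iff_odd]; exact hmo) hm'
      (by rw [← even_iff_two_dvd, Nat.not_even_iff_odd]; exact hmo')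
    have h3 : β = β' := congrArg Subtype.val h2
    rw [h3] at hrel
    exact T.rel_left_unique hrel hrel'
  · intro ψ hψ hψθ
    obtain ⟨b, hb, hrelb⟩ := T.exists_down hθ hLH hψ hψθ
    obtain ⟨β, hβinv, m, hm, hpm⟩ := Glaub.exists_over_fixed hFix Nat.prime_two hA2 h2G ⟨b, hb⟩
    have hm0 : m ≠ 0 := by rintro rfl; exact hpm (dvd_zero 2)
    have hne : classInner (fun h : T.bar H => (β : T.bar G → ℂ) (j h)) b ≠ 0 := by
      change classInner (Glaub.res j (β : T.bar G → ℂ)) b ≠ 0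
      simp only at hm
      rw [hm]
      exact_mod_cast hm0
    have hβZ : ∀ z : T.p.ker, ∀ y : T.bar G, (y : Y ⧸ T.I) = ((z : Y) : Y ⧸ T.I) →
        (β : T.bar G → ℂ) y = ((T.μ z : ℂˣ) : ℂ)⁻¹ * (β : T.bar G → ℂ) 1 := by
      intro z y hy
      have e1 : y = ⟨((z : Y) : Y ⧸ T.I), kerZ z G⟩ := Subtype.ext hy
      have e2 := T.rel_central hθ hLH hrelb z 1 ⟨((z : Y) : Y ⧸ T.I), kerZ z H⟩
        (by rw [OneMemClass.coe_one, mul_one])
      have e3 := link β.2 hb hne z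
      rw [e2] at e3
      rw [e1]
      have e4 := irr_one_ne_zero hb
      have e5 := irr_one_ne_zero β.2
      field_simp at e3
      have e6 := (T.μ z).ne_zero
      field_simp
      linear_combination -e3
    obtain ⟨χ, hχ, hrel, hχθ⟩ := T.exists_up hθ hLG β.2 hβZ
    refine ⟨χ, hχ, hχθ, ?_, m, ?_, ?_⟩
    · rw [invT hrel, hτinv (β : T.bar G → ℂ) β.2 (overG hrel)]
      exact (hInv (β : T.bar G → ℂ)).mp hβinv
    · rw [resE hrel hrelb]
      exact hm
    · rw [← Nat.not_even_iff_odd, even_iff_two_dvd]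
      exact hpm

end Cfsg.Agent.H76.OS
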