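import Cfsg.Agent.H76.OddSecD
import Cfsg.Agent.Char.RelGlaub3

/-!
# The character correspondence for an abelian section, invariant case, abstract form
-/

set_option autoImplicit false
set_option linter.unusedSectionVars false
set_option linter.unusedFintypeInType false

namespace Cfsg.Agent.H76.OS

open scoped ComplexConjugate commutatorElement
open Cfsg Cfsg.Agent.CharBase Cfsg.Agent.Char
open Cfsg.Agent.Char.RG (qHom qEquiv)

universe u v w

theorem exists_semi {G : Type u} [Group G] [Finite G] {S : Type u} [Group S] [Finite S]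
    (φ : S →* MulAut G) : ∃ (A : Type u) (_ : Group A) (_ : Finite A) (i : G →* A) (r : S →* A),
      Function.Injective i ∧ (∀ s g, r s * i g * (r s)⁻¹ = i (φ s g)) ∧
      ∀ a : A, ∃ (g : G) (s : S), a = i g * r s := by
  refine ⟨G ⋊[φ] S, inferInstance, Finite.of_equiv _ (SemidirectProduct.equivProd).symm,
    SemidirectProduct.inl, SemidirectProduct.inr, SemidirectProduct.inl_injective, ?_, ?_⟩
  · intro s g
    have h := SemidirectProduct.inl_aut (φ := φ) s g
    rw [map_inv] at h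
    exact h.symm
  · intro a
    exact ⟨a.left, a.right, (SemidirectProduct.inl_left_mul_inr_right a).symm⟩

theorem abs_inv {G : Type u} [Group G] [Fintype G] {S : Type u} [Group S] [Finite S] {D : Type u}
    [Group D] [Fintype D] (φ : S →* MulAut G) (hodd : Odd (Nat.card G))
    (hcop : (Nat.card G).Coprime (Nat.card S)) (L K : Subgroup G) [hLn : L.Normal] [hKn : K.Normal]
    (hLK : L ≤ K) (hLS : ∀ s, ∀ l ∈ L, φ s l ∈ L) (hKS : ∀ s, ∀ k ∈ K, φ s k ∈ K)
    (hab : ∀ x ∈ K, ∀ y ∈ K, ⁅x, y⁆ ∈ L) (ι : D →* G) (hι : Function.Injective ι)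
    (hfix : ∀ g, (∀ s, φ s g * g⁻¹ ∈ L) ↔ g ∈ ι.range) (hLι : L ≤ ι.range)
    (hGK : ∀ g, ∃ k ∈ K, ∃ d : D, g = k * ι d)
    {θ : L → ℂ} (hθ : IsIrrCharacter L θ) (hθG : ∀ g, cj L g θ = θ)
    (hθS : ∀ s (l : L), θ ⟨φ s l, hLS s l l.2⟩ = θ l) [Fintype L] [Fintype (L.comap ι)] :
    (∀ χ : G → ℂ, IsIrrCharacter G χ → classInner (fun l : L => χ l) θ ≠ 0 →
      (∀ s g, χ (φ s g) = χ g) →
      ∃ ψ : D → ℂ, IsIrrCharacter D ψ ∧
        classInner (fun n : L.comap ι => ψ n) (fun n => θ (qHom L ι n)) ≠ 0 ∧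
        ∃ m : ℕ, classInner (fun d => χ (ι d)) ψ = m ∧ Odd m ∧
        ∀ γ : D → ℂ, IsIrrCharacter D γ →
          classInner (fun n : L.comap ι => γ n) (fun n => θ (qHom L ι n)) ≠ 0 →
          γ ≠ ψ → ∀ n : ℕ, classInner (fun d => χ (ι d)) γ = n → Even n) ∧
    (∀ χ χ' : G → ℂ, IsIrrCharacter G χ → IsIrrCharacter G χ' →
      classInner (fun l : L => χ l) θ ≠ 0 → classInner (fun l : L => χ' l) θ ≠ 0 →
      (∀ s g, χ (φ s g) = χ g) → (∀ s g, χ' (φ s g) = χ' g) →
      ∀ ψ : D → ℂ, IsIrrCharacter D ψ →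
        classInner (fun n : L.comap ι => ψ n) (fun n => θ (qHom L ι n)) ≠ 0 →
      ∀ m m' : ℕ, classInner (fun d => χ (ι d)) ψ = m → Odd m →
        classInner (fun d => χ' (ι d)) ψ = m' → Odd m' → χ = χ') ∧
    (∀ ψ : D → ℂ, IsIrrCharacter D ψ →
        classInner (fun n : L.comap ι => ψ n) (fun n => θ (qHom L ι n)) ≠ 0 →
      ∃ χ : G → ℂ, IsIrrCharacter G χ ∧ classInner (fun l : L => χ l) θ ≠ 0 ∧
        (∀ s g, χ (φ s g) = χ g) ∧
        ∃ m : ℕ, classInner (fun d => χ (ι d)) ψ = m ∧ Odd m) := by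
  classical
  obtain ⟨A, _, _, i, r, hi, hir, hdec⟩ := exists_semi φ
  have hnorm : ∀ R : Subgroup G, R.Normal → (∀ s, ∀ x ∈ R, φ s x ∈ R) → (R.map i).Normal := by
    intro R hR hRS
    constructor
    rintro _ ⟨x, hx, rfl⟩ a
    obtain ⟨g, s, rfl⟩ := hdec a
    refine ⟨g * φ s x * g⁻¹, hR.conj_mem _ (hRS _ x hx) _, ?_⟩
    rw [map_mul, map_mul, map_inv, ← hir]
    group
  have hLA := hnorm L hLn hLS
  have hKA := hnorm K hKn hKS
  have hGA := hnorm ⊤ inferInstance (fun _ _ _ => Subgroup.mem_top _)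
  let LA := L.map i
  let KA := K.map i
  let GA := (⊤ : Subgroup G).map i
  let HA := ι.range.map i
  let SA := r.range
  let eG : G ≃* GA := Subgroup.topEquiv.symm.trans ((⊤ : Subgroup G).equivMapOfInjective i hi)
  have heG : ∀ g, ((eG g : GA) : A) = i g := fun g => rfl
  let eL : L ≃* LA := L.equivMapOfInjective i hi
  have heL : ∀ l, ((eL l : LA) : A) = i l := fun l => rfl
  let eD : D ≃* HA := (MonoidHom.ofInjective hι).trans (ι.range.equivMapOfInjective i hi)
  have heD : ∀ d, ((eD d : HA) : A) = i (ι d) := fun d => rfl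
  have hLG : LA ≤ GA := Subgroup.map_mono le_top
  have hLH : LA ≤ HA := Subgroup.map_mono hLι
  have hHG : HA ≤ GA := Subgroup.map_mono le_top
  let θA : LA → ℂ := fun l => θ (eL.symm l)
  have hθA : IsIrrCharacter LA θA :=
    isIrrCharacter_comp_surjective hθ eL.symm.toMonoidHom eL.symm.surjective
  have hθAinv : ∀ a, cj LA a θA = θA := by
    intro a
    obtain ⟨g, s, rfl⟩ := hdec a
    funext l
    obtain ⟨l, rfl⟩ := eL.surjective l
    rw [cj_apply]
    have h1 : (⟨(i g * r s) * (eL l : A) * (i g * r s)⁻¹, hLA.conj_mem _ (eL l).2 _⟩ : LA) =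
        eL ⟨g * φ s l * g⁻¹, hLn.conj_mem _ (hLS _ l l.2) _⟩ := by
      apply Subtype.ext
      change (i g * r s) * i l * (i g * r s)⁻¹ = i (g * φ s l * g⁻¹)
      rw [map_mul, map_mul, map_inv, ← hir]
      group
    change θ (eL.symm _) = θ (eL.symm (eL l))
    rw [h1, MulEquiv.symm_apply_apply, MulEquiv.symm_apply_apply]
    have h2 := congrFun (hθG g) ⟨φ s l, hLS _ l l.2⟩
    rw [hθS] at h2
    exact h2
  have := Fintype.ofFinite LA
  have := Fintype.ofFinite GA
  have := Fintype.ofFinite HA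
  obtain ⟨m1, m2, m3⟩ := ambient LA KA GA SA HA (Subgroup.map_mono hLK) (Subgroup.map_mono le_top)
    (by rw [← Nat.card_congr eG.toEquiv]; exact hodd)
    (by
      rw [← Nat.card_congr eG.toEquiv]
      exact hcop.coprime_dvd_right (Subgroup.card_range_dvd r))
    (by
      rintro _ ⟨x, hx, rfl⟩ _ ⟨y, hy, rfl⟩
      rw [← map_commutatorElement]
      exact ⟨_, hab x hx y hy, rfl⟩)
    (by
      intro a
      constructor
      · rintro ⟨x, hx, rfl⟩
        refine ⟨⟨x, trivial, rfl⟩, ?_⟩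
        rintro _ ⟨s, rfl⟩
        rw [hir, ← map_inv, ← map_mul]
        exact ⟨_, (hfix x).mpr hx s, rfl⟩
      · rintro ⟨⟨x, -, rfl⟩, h⟩
        refine ⟨x, (hfix x).mp ?_, rfl⟩
        intro s
        have h1 := h (r s) ⟨s, rfl⟩
        rw [hir, ← map_inv, ← map_mul] at h1
        obtain ⟨y, hy, hyx⟩ := h1
        rw [← hi hyx]
        exact hy)
    (by
      rintro _ ⟨x, -, rfl⟩
      obtain ⟨k, hk, d, rfl⟩ := hGK x
      exact ⟨i k, ⟨k, hk, rfl⟩, i (ι d), ⟨ι d, ⟨d, rfl⟩, rfl⟩, map_mul i k (ι d)⟩)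
    hθA hθAinv hLG hLH hHG
  -- translations
  have tG : ∀ f : G → ℂ, IsIrrCharacter G f → IsIrrCharacter GA (fun x => f (eG.symm x)) :=
    fun f hf => isIrrCharacter_comp_surjective hf eG.symm.toMonoidHom eG.symm.surjective
  have tG' : ∀ f : GA → ℂ, IsIrrCharacter GA f → IsIrrCharacter G (fun x => f (eG x)) :=
    fun f hf => isIrrCharacter_comp_surjective hf eG.toMonoidHom eG.surjective
  have tD : ∀ f : D → ℂ, IsIrrCharacter D f → IsIrrCharacter HA (fun x => f (eD.symm x)) :=
    fun f hf => isIrrCharacter_comp_surjective hf eD.symm.toMonoidHom eD.symm.surjective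
  have tD' : ∀ f : HA → ℂ, IsIrrCharacter HA f → IsIrrCharacter D (fun x => f (eD x)) :=
    fun f hf => isIrrCharacter_comp_surjective hf eD.toMonoidHom eD.surjective
  have oG : ∀ f : G → ℂ, classInner (fun l : LA => f (eG.symm ⟨l, hLG l.2⟩)) θA =
      classInner (fun l : L => f l) θ := by
    intro f
    rw [← classInner_comp_equiv eL]
    congr 1
    · funext l
      congr 1
      rw [MulEquiv.symm_apply_eq]
      rfl
    · funext l
      change θ (eL.symm (eL l)) = θ l
      rw [MulEquiv.symm_apply_apply]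
  have oD : ∀ f : D → ℂ, classInner (fun l : LA => f (eD.symm ⟨l, hLH l.2⟩)) θA =
      classInner (fun n : L.comap ι => f n) (fun n => θ (qHom L ι n)) := by
    intro f
    rw [← classInner_comp_equiv ((qEquiv L ι hι hLι).trans eL)]
    congr 1
    · funext l
      congr 1
      rw [MulEquiv.symm_apply_eq]
      rfl
    · funext l
      change θ (eL.symm (eL (qHom L ι l))) = _
      rw [MulEquiv.symm_apply_apply]
  have iD : ∀ (f : G → ℂ) (g : D → ℂ),
      classInner (fun h : HA => f (eG.symm ⟨h, hHG h.2⟩)) (fun h => g (eD.symm h)) =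
      classInner (fun d => f (ι d)) g := by
    intro f g
    rw [← classInner_comp_equiv eD]
    congr 1
    · funext d
      congr 1
      rw [MulEquiv.symm_apply_eq]
      rfl
    · funext d
      rw [MulEquiv.symm_apply_apply]
  have vG : ∀ f : G → ℂ, (∀ s g, f (φ s g) = f g) ↔
      ∀ s ∈ SA, ∀ g g' : GA, (g' : A) = s * g * s⁻¹ → f (eG.symm g') = f (eG.symm g) := by
    intro f
    constructor
    · rintro h _ ⟨s, rfl⟩ g g' hg
      obtain ⟨g, rfl⟩ := eG.surjective g
      obtain ⟨g', rfl⟩ := eG.surjective g'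
      rw [heG, heG, hir] at hg
      rw [MulEquiv.symm_apply_apply, MulEquiv.symm_apply_apply, hi hg, h]
    · intro h s g
      have := h (r s) ⟨s, rfl⟩ (eG g) (eG (φ s g)) (by rw [heG, heG, hir])
      rwa [MulEquiv.symm_apply_apply, MulEquiv.symm_apply_apply] at this
  have backG : ∀ f : GA → ℂ, (fun x => (fun y => f (eG y)) (eG.symm x)) = f := fun f => by
    funext x
    simp only [MulEquiv.apply_symm_apply]
  have backD : ∀ f : HA → ℂ, (fun x => (fun y => f (eD y)) (eD.symm x)) = f := fun f => by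
    funext x
    simp only [MulEquiv.apply_symm_apply]
  refine ⟨?_, ?_, ?_⟩
  · intro χ hχ hχθ hχS
    obtain ⟨ψ, hψ, hψθ, m, hm, hmo, hu⟩ := m1 (fun x => χ (eG.symm x)) (tG χ hχ)
      (by rw [oG]; exact hχθ) ((vG χ).mp hχS)
    refine ⟨fun d => ψ (eD d), tD' ψ hψ, ?_, m, ?_, hmo, ?_⟩
    · have h := oD (fun d => ψ (eD d))
      simp only [MulEquiv.apply_symm_apply] at h
      rw [← h]
      exact hψθ
    · have h := iD χ (fun d => ψ (eD d))
      simp only [MulEquiv.apply_symm_apply] at h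
      rw [← h]
      exact hm
    · intro γ hγ hγθ hne n hn
      refine hu (fun x => γ (eD.symm x)) (tD γ hγ) (by rw [oD]; exact hγθ) ?_ n ?_
      · rintro h
        apply hne
        funext d
        have := congrFun h (eD d)
        simp only [MulEquiv.symm_apply_apply] at this
        exact this
      · rw [iD]
        exact hn
  · intro χ χ' hχ hχ' hχθ hχθ' hχS hχS' ψ hψ hψθ m m' hm hmo hm' hmo'
    have h1 := m2 (fun x => χ (eG.symm x)) (fun x => χ' (eG.symm x)) (tG χ hχ) (tG χ' hχ')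
      (by rw [oG]; exact hχθ) (by rw [oG]; exact hχθ') ((vG χ).mp hχS) ((vG χ').mp hχS')
      (fun x => ψ (eD.symm x)) (tD ψ hψ) (by rw [oD]; exact hψθ) m m' (by rw [iD]; exact hm) hmo
      (by rw [iD]; exact hm') hmo'
    funext g
    have := congrFun h1 (eG g)
    simp only [MulEquiv.symm_apply_apply] at this
    exact this
  · intro ψ hψ hψθ
    obtain ⟨χ, hχ, hχθ, hχS, m, hm, hmo⟩ := m3 (fun x => ψ (eD.symm x)) (tD ψ hψ)
      (by rw [oD]; exact hψθ)
    refine ⟨fun x => χ (eG x), tG' χ hχ, ?_, ?_, m, ?_, hmo⟩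
    · have h := oG (fun x => χ (eG x))
      simp only [MulEquiv.apply_symm_apply] at h
      rw [← h]
      exact hχθ
    · have h := vG (fun x => χ (eG x))
      simp only [MulEquiv.apply_symm_apply] at h
      rw [h]
      exact hχS
    · have h := iD (fun x => χ (eG x)) ψ
      simp only [MulEquiv.apply_symm_apply] at h
      rw [← h]
      exact hm

end Cfsg.Agent.H76.OS
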