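import Cfsg.Agent.H76.OddSecE

/-!
# The character correspondence for an abelian section: reduction to the invariant case
-/

set_option autoImplicit false
set_option linter.unusedSectionVars false
set_option linter.unusedFintypeInType false

namespace Cfsg.Agent.H76.OS

open scoped ComplexConjugate commutatorElement
open Cfsg Cfsg.Agent.CharBase Cfsg.Agent.Char
open Cfsg.Agent.Char.RG
open Cfsg.Agent.Glaub (Inv IsFix res restrAct restrAct_apply)

universe u v w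

theorem resAut_pow {X : Type u} [Group X] [Finite X] (α : MulAut X) {n : ℕ} (hn : α ^ n = 1)
    (M : Subgroup X) (hα : ∀ m ∈ M, α m ∈ M) : (resAut α M hα : MulAut M) ^ n = 1 := by
  have h1 : ∀ k : ℕ, ∀ x : M, ((((resAut α M hα : MulAut M) ^ k) x : M) : X) = (α ^ k) x := by
    intro k
    induction k with
    | zero => intro x; rfl
    | succ k ih =>
      intro x
      rw [pow_succ, pow_succ]
      exact ih (resAut α M hα x)
  ext x
  rw [h1, hn]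
  rfl

variable {G : Type u} [Group G] {D : Type u} [Group D] {S : Type u} [Group S] [Finite S]
  [Fintype G] [Fintype D]
  (φ : S →* MulAut G) (φD : S →* MulAut D) (Q K : Subgroup G) [hQn : Q.Normal] [hKn : K.Normal]
  (hQ : ∀ a, ∀ q ∈ Q, φ a q ∈ Q) (hKS : ∀ a, ∀ q ∈ K, φ a q ∈ K) (hQK : Q ≤ K)
  (hab : ∀ x ∈ K, ∀ y ∈ K, ⁅x, y⁆ ∈ Q)
  (ι : D →* G) (hι : Function.Injective ι) (hQι : Q ≤ ι.range)
  (hfix : ∀ k, (∀ a, φ a k * k⁻¹ ∈ Q) ↔ k ∈ ι.range) (hφ : ∀ a d, ι (φD a d) = φ a (ι d))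
  (hodd : Odd (Nat.card G)) (hcop : (Nat.card G).Coprime (Nat.card S))
  (hGK : ∀ g, ∃ k ∈ K, ∃ c, (∀ s, φ s c = c) ∧ g = k * c)
  (cov : ∀ (R E : Subgroup G), (∀ s, ∀ x ∈ R, φ s x ∈ R) → (∀ s, ∀ x ∈ E, φ s x ∈ E) → E ≤ R →
    ∀ x ∈ R, (∀ s, x⁻¹ * φ s x ∈ E) → ∃ n ∈ E, ∀ s, φ s (x * n) = x * n)

include hodd hcop hKS hQK hab hGK cov hι hQι hfix

theorem T_level {θ : Q → ℂ} (hθ : IsIrrCharacter Q θ) (hθS : Inv (restrAct φ Q hQ) θ)
    (T : Subgroup G) (hT : T = inertia Q θ) (hTs : ∀ a, ∀ t ∈ T, φ a t ∈ T) (hQT : Q ≤ T)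
    (hQTD : Q.comap ι ≤ T.comap ι) [Fintype Q] [Fintype T] [Fintype (Q.comap ι)]
    [Fintype (T.comap ι)] :
    (∀ χ : T → ℂ, IsIrrCharacter T χ → classInner (fun n : Q => χ ⟨n, hQT n.2⟩) θ ≠ 0 →
      Inv (restrAct φ T hTs) χ →
      ∃ ψ : T.comap ι → ℂ, IsIrrCharacter (T.comap ι) ψ ∧
        classInner (fun n : Q.comap ι => ψ ⟨n, hQTD n.2⟩) (fun n => θ (qHom Q ι n)) ≠ 0 ∧
        ∃ m : ℕ, classInner (fun d => χ (qHom T ι d)) ψ = m ∧ Odd m ∧
        ∀ γ : T.comap ι → ℂ, IsIrrCharacter (T.comap ι) γ →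
          classInner (fun n : Q.comap ι => γ ⟨n, hQTD n.2⟩) (fun n => θ (qHom Q ι n)) ≠ 0 →
          γ ≠ ψ → ∀ n : ℕ, classInner (fun d => χ (qHom T ι d)) γ = n → Even n) ∧
    (∀ χ χ' : T → ℂ, IsIrrCharacter T χ → IsIrrCharacter T χ' →
      classInner (fun n : Q => χ ⟨n, hQT n.2⟩) θ ≠ 0 →
      classInner (fun n : Q => χ' ⟨n, hQT n.2⟩) θ ≠ 0 →
      Inv (restrAct φ T hTs) χ → Inv (restrAct φ T hTs) χ' →
      ∀ ψ : T.comap ι → ℂ, IsIrrCharacter (T.comap ι) ψ →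
        classInner (fun n : Q.comap ι => ψ ⟨n, hQTD n.2⟩) (fun n => θ (qHom Q ι n)) ≠ 0 →
      ∀ m m' : ℕ, classInner (fun d => χ (qHom T ι d)) ψ = m → Odd m →
        classInner (fun d => χ' (qHom T ι d)) ψ = m' → Odd m' → χ = χ') ∧
    (∀ ψ : T.comap ι → ℂ, IsIrrCharacter (T.comap ι) ψ →
        classInner (fun n : Q.comap ι => ψ ⟨n, hQTD n.2⟩) (fun n => θ (qHom Q ι n)) ≠ 0 →
      ∃ χ : T → ℂ, IsIrrCharacter T χ ∧ classInner (fun n : Q => χ ⟨n, hQT n.2⟩) θ ≠ 0 ∧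
        Inv (restrAct φ T hTs) χ ∧
        ∃ m : ℕ, classInner (fun d => χ (qHom T ι d)) ψ = m ∧ Odd m) := by
  classical
  have := Fintype.ofFinite (Q.subgroupOf T)
  have := Fintype.ofFinite ((Q.subgroupOf T).comap (qHom T ι))
  let e : Q.subgroupOf T ≃* Q := Subgroup.subgroupOfEquivOfLe hQT
  have he : ∀ q, ((e q : Q) : G) = ((q : T) : G) := fun q => rfl
  have hθ' : IsIrrCharacter (Q.subgroupOf T) (fun q => θ (e q)) :=
    isIrrCharacter_comp_surjective hθ e.toMonoidHom e.surjective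
  let f : Q.comap ι ≃* (Q.subgroupOf T).comap (qHom T ι) :=
    { toFun := fun n => ⟨⟨n, hQTD n.2⟩, n.2⟩
      invFun := fun n => ⟨((n : T.comap ι) : D), n.2⟩
      left_inv := fun n => rfl
      right_inv := fun n => rfl
      map_mul' := fun a b => rfl }
  have oT : ∀ ξ : T → ℂ, classInner (fun l : Q.subgroupOf T => ξ l) (fun q => θ (e q)) =
      classInner (fun n : Q => ξ ⟨n, hQT n.2⟩) θ := by
    intro ξ
    rw [← classInner_comp_equiv e (fun n : Q => ξ ⟨n, hQT n.2⟩) θ]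
    rfl
  have oD : ∀ η : T.comap ι → ℂ, classInner (fun n : (Q.subgroupOf T).comap (qHom T ι) => η n)
      (fun n => (fun q => θ (e q)) (qHom (Q.subgroupOf T) (qHom T ι) n)) =
      classInner (fun n : Q.comap ι => η ⟨n, hQTD n.2⟩) (fun n => θ (qHom Q ι n)) := by
    intro η
    rw [← classInner_comp_equiv f]
    rfl
  obtain ⟨m1, m2, m3⟩ := abs_inv (restrAct φ T hTs)
    (hodd.of_dvd_nat (Subgroup.card_subgroup_dvd_card T))
    (hcop.coprime_dvd_left (Subgroup.card_subgroup_dvd_card T)) (Q.subgroupOf T) (K.subgroupOf T)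
    (Subgroup.comap_mono hQK) (fun s l hl => hQ s _ hl) (fun s l hl => hKS s _ hl)
    (fun x hx y hy => hab _ hx _ hy) (qHom T ι) (fun a b hab => Subtype.ext (hι (congrArg Subtype.val hab)))
    (by
      intro t
      constructor
      · intro h
        have h1 : (t : G) ∈ ι.range := (hfix _).mp fun s => h s
        obtain ⟨d, hd⟩ := h1
        exact ⟨⟨d, by rw [Subgroup.mem_comap, hd]; exact t.2⟩, Subtype.ext hd⟩
      · rintro ⟨d, rfl⟩ s
        exact (hfix (ι d)).mpr ⟨d, rfl⟩ s)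
    (by
      intro t ht
      obtain ⟨d, hd⟩ := hQι ht
      have hd' : ι d = (t : G) := hd
      exact ⟨⟨d, by rw [Subgroup.mem_comap, hd']; exact t.2⟩, Subtype.ext hd'⟩)
    (by
      intro t
      obtain ⟨n, hn, hfx⟩ := cov T (K ⊓ T) hTs (fun s x hx => ⟨hKS s x hx.1, hTs s x hx.2⟩)
        inf_le_right t t.2 (by
          intro s
          refine ⟨?_, T.mul_mem (T.inv_mem t.2) (hTs s t t.2)⟩
          obtain ⟨k, hk, c, hc, hkc⟩ := hGK (t : G)
          rw [hkc, map_mul, hc]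
          have h1 : (k * c)⁻¹ * (φ s k * c) = c⁻¹ * (k⁻¹ * φ s k) * c⁻¹⁻¹ := by group
          rw [h1]
          exact hKn.conj_mem _ (K.mul_mem (K.inv_mem hk) (hKS s k hk)) _)
      have h1 : (t : G) * n ∈ ι.range := (hfix _).mp fun s => by
        rw [hfx, mul_inv_cancel]; exact Q.one_mem
      obtain ⟨d, hd⟩ := h1
      refine ⟨⟨(t : G) * n * n⁻¹ * ((t : G) * n)⁻¹, ?_⟩, ?_, ⟨d, ?_⟩, ?_⟩
      · exact T.mul_mem (T.mul_mem (T.mul_mem t.2 hn.2) (T.inv_mem hn.2))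
          (T.inv_mem (T.mul_mem t.2 hn.2))
      · exact hKn.conj_mem _ (K.inv_mem hn.1) _
      · rw [Subgroup.mem_comap, hd]
        exact T.mul_mem t.2 hn.2
      · apply Subtype.ext
        change (t : G) = (t : G) * n * n⁻¹ * ((t : G) * n)⁻¹ * ι d
        rw [hd]
        group)
    hθ' (by
      intro t
      funext q
      have h1 : (t : G) ∈ inertia Q θ := hT ▸ t.2
      exact congrFun h1 (e q))
    (by
      intro s l
      have h1 := hθS s (e l)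
      rw [← h1]
      rfl)
  refine ⟨?_, ?_, ?_⟩
  · intro χ hχ hχθ hχS
    obtain ⟨ψ, hψ, hψθ, m, hm, hmo, hu⟩ := m1 χ hχ (by rw [oT]; exact hχθ) hχS
    refine ⟨ψ, hψ, by rw [← oD]; exact hψθ, m, hm, hmo, fun γ hγ hγθ hne n hn => ?_⟩
    exact hu γ hγ (by rw [oD]; exact hγθ) hne n hn
  · intro χ χ' hχ hχ' hχθ hχθ' hχS hχS' ψ hψ hψθ m m' hm hmo hm' hmo'
    exact m2 χ χ' hχ hχ' (by rw [oT]; exact hχθ) (by rw [oT]; exact hχθ') hχS hχS' ψ hψ
      (by rw [oD]; exact hψθ) m m' hm hmo hm' hmo'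
  · intro ψ hψ hψθ
    obtain ⟨χ, hχ, hχθ, hχS, m, hm, hmo⟩ := m3 ψ hψ (by rw [oD]; exact hψθ)
    exact ⟨χ, hχ, by rw [← oT]; exact hχθ, hχS, m, hm, hmo⟩

omit hQK hab hι hQι hodd hcop hGK hKS hKn in
/-- Two invariant constituents are conjugate by an element of `D`. -/
theorem exists_conj_fix [Fintype Q] [Fintype (Q.comap ι)] {χ : G → ℂ} (hχ : IsIrrCharacter G χ)
    {θ θ' : Q → ℂ} (hθ : IsIrrCharacter Q θ) (hinv : Inv (restrAct φ Q hQ) θ)
    (hθ' : IsIrrCharacter Q θ') (hinv' : Inv (restrAct φ Q hQ) θ')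
    (ho : classInner (fun n : Q => χ n) θ ≠ 0) (ho' : classInner (fun n : Q => χ n) θ' ≠ 0) :
    ∃ c : D, cj (Q.comap ι) c (fun n => θ (qHom Q ι n)) = fun n => θ' (qHom Q ι n) := by
  obtain ⟨g, hg⟩ := exists_conj_of_constituents Q hχ hθ hθ' ho ho'
  have hTs : ∀ a, ∀ t ∈ inertia Q θ, φ a t ∈ inertia Q θ := fun a t ht =>
    T_stable φ Q hQ (inertia Q θ) rfl hinv a t ht
  have h1 : ∀ s, cj Q (φ s g) θ = θ' := by
    intro s
    funext n
    have h0 : φ s (φ s⁻¹ (n : G)) = n := by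
      rw [← MulAut.mul_apply, ← map_mul, mul_inv_cancel, map_one, MulAut.one_apply]
    have h2 : (⟨φ s g * n * (φ s g)⁻¹, hQn.conj_mem (n : G) n.2 (φ s g)⟩ : Q) =
        restrAct φ Q hQ s ⟨g * (restrAct φ Q hQ s⁻¹ n : Q) * g⁻¹,
          hQn.conj_mem _ (restrAct φ Q hQ s⁻¹ n).2 g⟩ := by
      apply Subtype.ext
      rw [restrAct_apply]
      change φ s g * n * (φ s g)⁻¹ = φ s (g * φ s⁻¹ (n : G) * g⁻¹)
      rw [map_mul (φ s), map_mul (φ s), map_inv (φ s), h0]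
    rw [cj_apply, h2, hinv s]
    have h3 := congrFun hg (restrAct φ Q hQ s⁻¹ n)
    rw [cj_apply] at h3
    rw [h3, hinv' s⁻¹ n]
  have h2 : ∀ s, φ s g * g⁻¹ ∈ inertia Q θ := by
    intro s
    rw [mem_inertia, cj_mul, h1, ← hg, cj_inv_cj]
  obtain ⟨n, hn, hfx⟩ := cov ⊤ (inertia Q θ) (fun _ _ _ => Subgroup.mem_top _) hTs le_top g⁻¹
    (Subgroup.mem_top _) (by
      intro s
      rw [inv_inv, map_inv]
      have := (inertia Q θ).inv_mem (h2 s)
      rwa [mul_inv_rev, inv_inv] at this)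
  have h3 : ∀ s, φ s (n⁻¹ * g) = n⁻¹ * g := by
    intro s
    have := congrArg (fun x => x⁻¹) (hfx s)
    simp only [← map_inv] at this
    rwa [mul_inv_rev, inv_inv] at this
  obtain ⟨c, hc⟩ := (hfix (n⁻¹ * g)).mp (fun s => by rw [h3, mul_inv_cancel]; exact Q.one_mem)
  refine ⟨c, ?_⟩
  have h4 : cj Q (n⁻¹ * g) θ = θ' := by
    rw [cj_mul, (mem_inertia Q).mp ((inertia Q θ).inv_mem hn), hg]
  funext m
  rw [← h4, cj_apply, cj_apply]
  congr 1
  apply Subtype.ext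
  simp [hc]

include hφ in
omit hodd hKS hQK hab hGK cov hKn in
/-- Characters of the inertia group in `D` above an invariant `θ` are invariant. -/
theorem over_inv {θ : Q → ℂ} (hθ : IsIrrCharacter Q θ) (hθS : Inv (restrAct φ Q hQ) θ)
    (T : Subgroup G) (hTs : ∀ a, ∀ t ∈ T, φ a t ∈ T)
    (hQTD : Q.comap ι ≤ T.comap ι) [Fintype Q] [Fintype (Q.comap ι)]
    (hTD : T.comap ι = inertia (Q.comap ι) (fun q => θ (qHom Q ι q)))
    {η : T.comap ι → ℂ} (hη : IsIrrCharacter (T.comap ι) η)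
    (hηo : classInner (fun n : Q.comap ι => η ⟨n, hQTD n.2⟩) (fun n => θ (qHom Q ι n)) ≠ 0) :
    ∀ (a : S) (d d' : T.comap ι), (d' : D) = φD a d → η d' = η d := by
  classical
  intro a d d' hdd
  have := Fintype.ofFinite ((Q.comap ι).subgroupOf (T.comap ι))
  let e : (Q.comap ι).subgroupOf (T.comap ι) ≃* Q.comap ι := Subgroup.subgroupOfEquivOfLe hQTD
  have hθD : IsIrrCharacter (Q.comap ι) (fun n => θ (qHom Q ι n)) :=
    Cfsg.Agent.H75.isIrrCharacter_comp_equiv hθ (qEquiv Q ι hι hQι)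
  have hTDs : ∀ t ∈ T.comap ι, φD a t ∈ T.comap ι := by
    intro t ht
    rw [Subgroup.mem_comap, hφ]
    exact hTs a _ ht
  have hαM : ∀ m ∈ (Q.comap ι).subgroupOf (T.comap ι),
      resAut (φD a) (T.comap ι) hTDs m ∈ (Q.comap ι).subgroupOf (T.comap ι) := by
    intro m hm
    change ι (φD a ((m : T.comap ι) : D)) ∈ Q
    rw [hφ]
    exact hQ a _ hm
  have hcardD : Nat.card D ∣ Nat.card G := Subgroup.card_dvd_of_injective ι hι
  have key := inv_of_over ((Q.comap ι).subgroupOf (T.comap ι)) (resAut (φD a) (T.comap ι) hTDs)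
    (n := Nat.card S) (resAut_pow (φD a) (by rw [← map_pow, pow_card_eq_one', map_one]) _ _)
    ((hcop.symm).coprime_dvd_right ((Subgroup.card_subgroup_dvd_card _).trans hcardD)) hαM
    (by
      intro t
      change ι (φD a (t : D) * (t : D)⁻¹) ∈ Q
      rw [map_mul, map_inv, hφ]
      exact (hfix (ι t)).mpr ⟨t, rfl⟩ a)
    (φ := fun m => θ (qHom Q ι (e m)))
    (isIrrCharacter_comp_surjective hθD e.toMonoidHom e.surjective)
    (by
      intro t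
      funext m
      have h1 : (t : D) ∈ inertia (Q.comap ι) (fun q => θ (qHom Q ι q)) := hTD ▸ t.2
      exact congrFun h1 (e m))
    (by
      intro m
      have h1 := hθS a (qHom Q ι (e m))
      rw [← h1]
      congr 1
      apply Subtype.ext
      exact hφ a _)
    hη
    (by
      have h1 := classInner_comp_equiv e (fun n : Q.comap ι => η ⟨n, hQTD n.2⟩)
        (fun n => θ (qHom Q ι n))
      rw [← h1] at hηo
      exact hηo) d
  have h1 : d' = resAut (φD a) (T.comap ι) hTDs d := Subtype.ext hdd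
  rw [h1]
  exact key

variable (e1 : ∀ [Fintype Q] (χ : G → ℂ), IsIrrCharacter G χ → Inv φ χ → ∃ θ : Q → ℂ,
    IsIrrCharacter Q θ ∧ classInner (fun n : Q => χ n) θ ≠ 0 ∧ Inv (restrAct φ Q hQ) θ)
  (e2 : ∀ [Fintype (Q.comap ι)] (ξ : D → ℂ), IsIrrCharacter D ξ → Inv φD ξ → ∃ θ : Q → ℂ,
    IsIrrCharacter Q θ ∧ Inv (restrAct φ Q hQ) θ ∧
      classInner (fun n : Q.comap ι => ξ n) (fun n => θ (qHom Q ι n)) ≠ 0)

include e1 e2 hφ

theorem main_below {χ : G → ℂ} (hχ : IsIrrCharacter G χ) (hχinv : Inv φ χ) :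
    ∃ ξ : D → ℂ, IsIrrCharacter D ξ ∧ Inv φD ξ ∧ ∃ m : ℕ, classInner (fun d => χ (ι d)) ξ = m ∧
      Odd m ∧
      ∀ ξ' : D → ℂ, IsIrrCharacter D ξ' → Inv φD ξ' → ξ' ≠ ξ →
        ∀ n : ℕ, classInner (fun d => χ (ι d)) ξ' = n → Even n := by
  classical
  have : Fintype Q := Fintype.ofFinite _
  have : Fintype (Q.comap ι) := Fintype.ofFinite _
  obtain ⟨θ, hθ, ho, hθinv⟩ := e1 χ hχ hχinv
  have hθD : IsIrrCharacter (Q.comap ι) (fun n => θ (qHom Q ι n)) :=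
    Cfsg.Agent.H75.isIrrCharacter_comp_equiv hθ (qEquiv Q ι hι hQι)
  obtain ⟨T, hT⟩ : ∃ T : Subgroup G, T = inertia Q θ := ⟨_, rfl⟩
  have : Fintype T := Fintype.ofFinite _
  have : Fintype (T.comap ι) := Fintype.ofFinite _
  have hQT : Q ≤ T := hT ▸ le_inertia Q (isClassFunction_of_isCharacter (isCharacter_of_isIrr hθ))
  have hQTD : Q.comap ι ≤ T.comap ι := Subgroup.comap_mono hQT
  have hTs : ∀ a, ∀ t ∈ T, φ a t ∈ T := fun a t ht => T_stable φ Q hQ T hT hθinv a t ht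
  have hTD : T.comap ι = inertia (Q.comap ι) (fun q => θ (qHom Q ι q)) := by
    rw [hT]
    exact inertia_comap Q ι hQι
  obtain ⟨m1, -, -⟩ := T_level φ Q K hQ hKS hQK hab ι hι hQι hfix hodd hcop hGK cov hθ hθinv T hT
    hTs hQT hQTD
  obtain ⟨ψ, hψ, hψχ, hψo⟩ := clifford_correspondence Q T hθ hT hQT hχ ho
  rw [← hψo] at ho
  have hψinv : Inv (restrAct φ T hTs) ψ :=
    inv_of_indFun φ Q hQ T hT hTs hQT hθ hθinv hψ ho (hψχ ▸ hχinv)
  obtain ⟨η, hη, hηo, m, hm, hmo, huniq⟩ := m1 ψ hψ ho hψinv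
  have hξ := isIrr_indFun_of_inertia (Q.comap ι) (T.comap ι) hθD hTD hQTD hη hηo
  have hηinv := over_inv φ φD Q hQ ι hι hQι hfix hφ hcop hθ hθinv T hTs hQTD hTD hη hηo
  refine ⟨indFun (T.comap ι) η, hξ, inv_indFunD φ φD ι hφ T hTs hηinv, m, ?_, hmo, ?_⟩
  · rw [← hψχ, mult_eq Q ι hι hQι T hT hQT hQTD hθ hψ ho hη hηo, hm]
  · intro ξ' hξ' hξinv' hne n hn
    by_cases h0 : classInner (fun d => χ (ι d)) ξ' = 0
    · rw [h0] at hn
      have : n = 0 := by exact_mod_cast hn.symm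
      rw [this]
      exact Even.zero
    obtain ⟨θ', hθ', hθinv', ho'⟩ := e2 ξ' hξ' hξinv'
    have h1 := over_of_inner Q ι hι hQι hχ hξ' hθ' h0 ho'
    have h2 : classInner (fun n : Q => χ n) θ ≠ 0 := by rw [← hψo]; exact ho
    obtain ⟨c, hc⟩ := exists_conj_fix φ Q hQ ι hfix cov hχ hθ hθinv hθ' hθinv' h2 h1
    have h3 : classInner (fun n : Q.comap ι => ξ' n) (fun n => θ (qHom Q ι n)) ≠ 0 := by
      rw [← classInner_restrict_cj (Q.comap ι) (isClassFunction_of_isCharacter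
        (isCharacter_of_isIrr hξ')) _ c, hc]
      exact ho'
    obtain ⟨η', hη', hηξ', hηo'⟩ := clifford_correspondence (Q.comap ι) (T.comap ι) hθD hTD hQTD
      hξ' h3
    rw [← hηo'] at h3
    refine huniq η' hη' h3 ?_ n ?_
    · rintro rfl
      exact hne hηξ'.symm
    · rw [← mult_eq Q ι hι hQι T hT hQT hQTD hθ hψ ho hη' h3, hηξ', hψχ, hn]

theorem main_above {ξ : D → ℂ} (hξ : IsIrrCharacter D ξ) (hξinv : Inv φD ξ) :
    ∃ χ : G → ℂ, IsIrrCharacter G χ ∧ Inv φ χ ∧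
      ∃ m : ℕ, classInner (fun d => χ (ι d)) ξ = m ∧ Odd m := by
  classical
  have : Fintype Q := Fintype.ofFinite _
  have : Fintype (Q.comap ι) := Fintype.ofFinite _
  obtain ⟨θ, hθ, hθinv, ho⟩ := e2 ξ hξ hξinv
  have hθD : IsIrrCharacter (Q.comap ι) (fun n => θ (qHom Q ι n)) :=
    Cfsg.Agent.H75.isIrrCharacter_comp_equiv hθ (qEquiv Q ι hι hQι)
  obtain ⟨T, hT⟩ : ∃ T : Subgroup G, T = inertia Q θ := ⟨_, rfl⟩
  have : Fintype T := Fintype.ofFinite _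
  have : Fintype (T.comap ι) := Fintype.ofFinite _
  have hQT : Q ≤ T := hT ▸ le_inertia Q (isClassFunction_of_isCharacter (isCharacter_of_isIrr hθ))
  have hQTD : Q.comap ι ≤ T.comap ι := Subgroup.comap_mono hQT
  have hTs : ∀ a, ∀ t ∈ T, φ a t ∈ T := fun a t ht => T_stable φ Q hQ T hT hθinv a t ht
  have hTD : T.comap ι = inertia (Q.comap ι) (fun q => θ (qHom Q ι q)) := by
    rw [hT]
    exact inertia_comap Q ι hQι
  obtain ⟨-, -, m3⟩ := T_level φ Q K hQ hKS hQK hab ι hι hQι hfix hodd hcop hGK cov hθ hθinv T hT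
    hTs hQT hQTD
  obtain ⟨η, hη, hηξ, hηo⟩ := clifford_correspondence (Q.comap ι) (T.comap ι) hθD hTD hQTD hξ ho
  rw [← hηo] at ho
  obtain ⟨ψ, hψ, hψo, hψinv, m, hm, hpm⟩ := m3 η hη ho
  refine ⟨indFun T ψ, isIrr_indFun_of_inertia Q T hθ hT hQT hψ hψo, inv_indFun φ T hTs hψinv, m,
    ?_, hpm⟩
  rw [← hηξ, mult_eq Q ι hι hQι T hT hQT hQTD hθ hψ hψo hη ho, hm]

theorem main_unique {χ χ' : G → ℂ} (hχ : IsIrrCharacter G χ) (hχinv : Inv φ χ)
    (hχ' : IsIrrCharacter G χ') (hχinv' : Inv φ χ')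
    {ξ : D → ℂ} (hξ : IsIrrCharacter D ξ) (hξinv : Inv φD ξ) {m n : ℕ}
    (hm : classInner (fun d => χ (ι d)) ξ = m) (hpm : Odd m)
    (hn : classInner (fun d => χ' (ι d)) ξ = n) (hpn : Odd n) : χ = χ' := by
  classical
  have : Fintype Q := Fintype.ofFinite _
  have : Fintype (Q.comap ι) := Fintype.ofFinite _
  obtain ⟨θ, hθ, hθinv, ho⟩ := e2 ξ hξ hξinv
  have hθD : IsIrrCharacter (Q.comap ι) (fun n => θ (qHom Q ι n)) :=
    Cfsg.Agent.H75.isIrrCharacter_comp_equiv hθ (qEquiv Q ι hι hQι)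
  have hm0 : classInner (fun d => χ (ι d)) ξ ≠ 0 := by
    rw [hm]
    intro h
    have : m = 0 := by exact_mod_cast h
    rw [this] at hpm
    exact (Nat.not_odd_iff_even.mpr Even.zero) hpm
  have hn0 : classInner (fun d => χ' (ι d)) ξ ≠ 0 := by
    rw [hn]
    intro h
    have : n = 0 := by exact_mod_cast h
    rw [this] at hpn
    exact (Nat.not_odd_iff_even.mpr Even.zero) hpn
  have h1 := over_of_inner Q ι hι hQι hχ hξ hθ hm0 ho
  have h2 := over_of_inner Q ι hι hQι hχ' hξ hθ hn0 ho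
  obtain ⟨T, hT⟩ : ∃ T : Subgroup G, T = inertia Q θ := ⟨_, rfl⟩
  have : Fintype T := Fintype.ofFinite _
  have : Fintype (T.comap ι) := Fintype.ofFinite _
  have hQT : Q ≤ T := hT ▸ le_inertia Q (isClassFunction_of_isCharacter (isCharacter_of_isIrr hθ))
  have hQTD : Q.comap ι ≤ T.comap ι := Subgroup.comap_mono hQT
  have hTs : ∀ a, ∀ t ∈ T, φ a t ∈ T := fun a t ht => T_stable φ Q hQ T hT hθinv a t ht
  have hTD : T.comap ι = inertia (Q.comap ι) (fun q => θ (qHom Q ι q)) := by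
    rw [hT]
    exact inertia_comap Q ι hQι
  obtain ⟨-, m2, -⟩ := T_level φ Q K hQ hKS hQK hab ι hι hQι hfix hodd hcop hGK cov hθ hθinv T hT
    hTs hQT hQTD
  obtain ⟨η, hη, hηξ, hηo⟩ := clifford_correspondence (Q.comap ι) (T.comap ι) hθD hTD hQTD hξ ho
  rw [← hηo] at ho
  obtain ⟨ψ, hψ, hψχ, hψo⟩ := clifford_correspondence Q T hθ hT hQT hχ h1
  rw [← hψo] at h1
  obtain ⟨ψ', hψ', hψχ', hψo'⟩ := clifford_correspondence Q T hθ hT hQT hχ' h2
  rw [← hψo'] at h2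
  have hψinv : Inv (restrAct φ T hTs) ψ :=
    inv_of_indFun φ Q hQ T hT hTs hQT hθ hθinv hψ h1 (hψχ ▸ hχinv)
  have hψinv' : Inv (restrAct φ T hTs) ψ' :=
    inv_of_indFun φ Q hQ T hT hTs hQT hθ hθinv hψ' h2 (hψχ' ▸ hχinv')
  have h3 := m2 ψ ψ' hψ hψ' h1 h2 hψinv hψinv' η hη ho m n
    (by rw [← mult_eq Q ι hι hQι T hT hQT hQTD hθ hψ h1 hη ho, hηξ, hψχ, hm]) hpm
    (by rw [← mult_eq Q ι hι hQι T hT hQT hQTD hθ hψ' h2 hη ho, hηξ, hψχ', hn]) hpn
  rw [← hψχ, ← hψχ', h3]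

end Cfsg.Agent.H76.OS
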