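import Cfsg.Agent.Blk.Count
import Cfsg.Agent.BlkC.SumSq
import Cfsg.Agent.BlkInd.DefectApp
import Cfsg.Agent.H76.Induced
import Mathlib.LinearAlgebra.Matrix.Rank

/-!
# Robinson's theorem on the number of blocks with a given defect group
-/

set_option autoImplicit false
set_option linter.unusedSectionVars false

namespace Cfsg.Agent.H76

open scoped ComplexConjugate
open Cfsg Cfsg.Agent.CharBase Cfsg.Agent.Blk

section rank

open Matrix

theorem rank_map_of_field {F K m : Type*} [Field F] [Field K] [Fintype m] [DecidableEq m]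
    (f : F →+* K) (A : Matrix m m F) : (A.map f).rank = A.rank := by
  classical
  obtain ⟨V, U, e, hV, hU, h⟩ := A.exists_rank_normal_form
  have h2 : V.map f * A.map f * U.map f = (fromBlocks 1 0 0 0).submatrix e e := by
    rw [← Matrix.map_mul, ← Matrix.map_mul, h]
    ext i j
    simp only [map_apply, submatrix_apply]
    rcases e i with a | a <;> rcases e j with b | b <;> simp [Matrix.one_apply, apply_ite]
  have hV' : IsUnit (V.map f).det := by
    rw [← RingHom.mapMatrix_apply, ← RingHom.map_det]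
    exact ((isUnit_iff_isUnit_det _).1 hV).map f
  have hU' : IsUnit (U.map f).det := by
    rw [← RingHom.mapMatrix_apply, ← RingHom.map_det]
    exact ((isUnit_iff_isUnit_det _).1 hU).map f
  rw [← rank_mul_eq_right_of_isUnit_det (V.map f) (A.map f) hV',
    ← rank_mul_eq_left_of_isUnit_det (U.map f) _ hU', h2, rank_submatrix, ← diagonal_one,
    ← diagonal_zero, fromBlocks_diagonal, rank_diagonal]
  rw [Fintype.card_subtype]
  have : (Finset.univ.filter fun i : Fin A.rank ⊕ Fin (Fintype.card m - A.rank) =>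
      Sum.elim (fun _ => (1 : K)) (fun _ => (0 : K)) i ≠ 0) =
      Finset.univ.image Sum.inl := by
    ext i
    rcases i with i | i <;> simp
  rw [this, Finset.card_image_of_injective _ Sum.inl_injective]
  simp

/-- A product `Lᵀ C R` where `L`, `R` have right inverses and `C` is diagonal and invertible. -/
theorem rank_sandwich {K m n : Type*} [Field K] [Fintype m] [DecidableEq m] [Fintype n]
    [DecidableEq n] (L L' R R' : Matrix n m K) (c : n → K) (hc : ∀ i, c i ≠ 0)
    (hL : L * L'ᵀ = 1) (hR : R * R'ᵀ = 1) :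
    (Lᵀ * diagonal c * R).rank = Fintype.card n := by
  have hd : (diagonal c).rank = Fintype.card n := by
    classical
    rw [rank_diagonal]
    exact Fintype.card_congr (Equiv.subtypeUnivEquiv hc)
  apply le_antisymm
  · calc (Lᵀ * diagonal c * R).rank ≤ R.rank := rank_mul_le_right _ _
      _ ≤ Fintype.card n := rank_le_card_height _
  · have h1 : L' * (Lᵀ * diagonal c * R) * R'ᵀ = diagonal c := by
      have h2 : L' * Lᵀ = 1 := by
        rw [← transpose_inj, transpose_mul, transpose_transpose, hL, transpose_one]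
      calc L' * (Lᵀ * diagonal c * R) * R'ᵀ = (L' * Lᵀ) * diagonal c * (R * R'ᵀ) := by
            simp only [Matrix.mul_assoc]
        _ = diagonal c := by rw [h2, hR, Matrix.one_mul, Matrix.mul_one]
    calc Fintype.card n = (L' * (Lᵀ * diagonal c * R) * R'ᵀ).rank := by rw [h1, hd]
      _ ≤ (L' * (Lᵀ * diagonal c * R)).rank := rank_mul_le_left _ _
      _ ≤ (Lᵀ * diagonal c * R).rank := rank_mul_le_right _ _

end rank

section count

variable {G : Type*} [Group G] [Fintype G]

theorem classInd_real (h g : G) : conj (classInd h g) = classInd h g := by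
  unfold classInd
  split_ifs <;> simp

theorem conv_real {F F' : G → ℂ} (hF : ∀ g, conj (F g) = F g) (hF' : ∀ g, conj (F' g) = F' g)
    (g : G) : conj (conv F F' g) = conv F F' g := by
  unfold conv
  rw [map_sum]
  refine Finset.sum_congr rfl fun h _ => ?_
  rw [map_mul, hF, hF']

/-- the number of pairs as a convolution -/
theorem card_pairs_eq (x y : G) (S : Subgroup G) [Fintype S] :
    (Nat.card {yz : G × G // IsConj x yz.1 ∧ IsConj y yz.2 ∧ yz.2 * yz.1⁻¹ ∈ S} : ℂ) =
      ∑ s : S, conv (classInd y) (classInd x⁻¹) (s : G) := by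
  classical
  have hinv : ∀ a : G, IsConj x a⁻¹ ↔ IsConj x⁻¹ a := by
    intro a
    constructor
    · intro h
      obtain ⟨u, hu⟩ := isConj_iff.1 h
      refine isConj_iff.2 ⟨u, ?_⟩
      have := congrArg (·⁻¹) hu
      simp only [mul_inv_rev, inv_inv] at this
      rw [← this]; group
    · intro h
      obtain ⟨u, hu⟩ := isConj_iff.1 h
      refine isConj_iff.2 ⟨u, ?_⟩
      have := congrArg (·⁻¹) hu
      simp only [mul_inv_rev, inv_inv] at this
      rw [← this]; group
  let e : {yz : G × G // IsConj x yz.1 ∧ IsConj y yz.2 ∧ yz.2 * yz.1⁻¹ ∈ S} ≃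
      {sh : S × G // IsConj y sh.2 ∧ IsConj x⁻¹ (sh.2⁻¹ * (sh.1 : G))} :=
    { toFun := fun t => ⟨(⟨t.1.2 * t.1.1⁻¹, t.2.2.2⟩, t.1.2), t.2.2.1, by
        rw [← hinv]
        have : (t.1.2⁻¹ * (t.1.2 * t.1.1⁻¹))⁻¹ = t.1.1 := by group
        simp only
        rw [this]
        exact t.2.1⟩
      invFun := fun t => ⟨((t.1.1 : G)⁻¹ * t.1.2, t.1.2), by
        refine ⟨?_, t.2.1, ?_⟩
        · have h1 := t.2.2
          rw [← hinv, mul_inv_rev, inv_inv] at h1
          exact h1
        · have : t.1.2 * ((t.1.1 : G)⁻¹ * t.1.2)⁻¹ = t.1.1 := by group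
          simp only
          rw [this]
          exact t.1.1.2⟩
      left_inv := by
        rintro ⟨⟨a, b⟩, h⟩
        simp
      right_inv := by
        rintro ⟨⟨⟨a, ha⟩, b⟩, h⟩
        simp }
  rw [Nat.card_congr e, Nat.card_eq_fintype_card, Fintype.card_subtype, Finset.card_filter]
  push_cast
  rw [Fintype.sum_prod_type]
  refine Finset.sum_congr rfl fun s _ => ?_
  unfold conv
  refine Finset.sum_congr rfl fun h _ => ?_
  unfold classInd
  by_cases h1 : IsConj y h
  · by_cases h2 : IsConj x⁻¹ (h⁻¹ * (s : G))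
    · rw [if_pos ⟨h1, h2⟩, if_pos h1, if_pos h2, mul_one]
    · rw [if_neg (fun h => h2 h.2), if_neg h2, mul_zero]
  · rw [if_neg (fun h => h1 h.1), if_neg h1, zero_mul]

/-- the multiplicity of the trivial character -/
noncomputable def mSub (S : Subgroup G) [Fintype S] (χ : G → ℂ) : ℂ :=
  classInner (fun s : S => χ s) (fun _ => (1 : ℂ))

theorem mSub_nat (S : Subgroup G) [Fintype S] (χ : IrrCharacter G) :
    ∃ n : ℕ, mSub S (χ : G → ℂ) = n :=
  classInner_natCast (isCharacter_restrict (irr_isCharacter χ) S)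
    (isCharacter_of_isIrr isIrrCharacter_one)

theorem sum_conj_eq_mSub (S : Subgroup G) [Fintype S] (χ : IrrCharacter G) :
    ∑ s : S, conj ((χ : G → ℂ) s) = (Nat.card S : ℂ) * mSub S (χ : G → ℂ) := by
  obtain ⟨n, hn⟩ := mSub_nat S χ
  have hS : (Nat.card S : ℂ) ≠ 0 := by exact_mod_cast Nat.card_pos.ne'
  have h1 : ∑ s : S, (χ : G → ℂ) s = (Nat.card S : ℂ) * mSub S (χ : G → ℂ) := by
    unfold mSub classInner
    rw [mul_inv_cancel_left₀ hS]
    simp
  rw [← map_sum, h1, hn]
  simp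

/-- sums over a subgroup -/
theorem sum_subgroup_eq (S : Subgroup G) [Fintype S] [Fintype (IrrCharacter G)] {F : G → ℂ}
    (hF : IsClassFunction G F) (hreal : ∀ g, conj (F g) = F g) :
    ∑ s : S, F s = ∑ χ : IrrCharacter G, (Nat.card S : ℂ) * mSub S (χ : G → ℂ) *
      ((χ : G → ℂ) 1 * omega (χ : G → ℂ) F / (Nat.card G : ℂ)) := by
  have h1 : ∀ χ : IrrCharacter G, conj (classInner F (χ : G → ℂ)) =
      (χ : G → ℂ) 1 * omega (χ : G → ℂ) F / (Nat.card G : ℂ) := by
    intro χ
    unfold classInner omega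
    rw [mul_div_cancel₀ _ (irr_one_ne_zero χ.2), map_mul, map_inv₀, map_sum]
    simp only [map_mul, Complex.conj_conj, hreal, Complex.conj_natCast]
    rw [div_eq_inv_mul]
  have h2 : ∑ s : S, F s = conj (∑ s : S, F s) := by
    rw [map_sum]
    exact Finset.sum_congr rfl fun s _ => (hreal s).symm
  rw [h2, map_sum]
  have h3 : ∀ s : S, conj (F s) = ∑ χ : IrrCharacter G,
      ((χ : G → ℂ) 1 * omega (χ : G → ℂ) F / (Nat.card G : ℂ)) * conj ((χ : G → ℂ) s) := by
    intro s
    rw [classFun_apply_eq_sum hF, map_sum]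
    refine Finset.sum_congr rfl fun χ _ => ?_
    rw [map_mul, h1]
  simp_rw [h3]
  rw [Finset.sum_comm]
  refine Finset.sum_congr rfl fun χ _ => ?_
  rw [← Finset.mul_sum, sum_conj_eq_mSub, mul_comm]

end count

section blocks

variable {G : Type*} [Group G] [Fintype G] {M : Ideal AlgInt} [hMp : M.IsPrime] {p : ℕ}
  [hp : Fact p.Prime]

/-- `D` is a Sylow subgroup of the centralizer and `x` is regular. -/
def DC (p : ℕ) (D : Subgroup G) (x : G) : Prop :=
  ¬ p ∣ orderOf x ∧ D ≤ Subgroup.centralizer ({x} : Set G) ∧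
    ¬ p ∣ D.relIndex (Subgroup.centralizer ({x} : Set G))

theorem centralizer_singleton_inv (x : G) :
    Subgroup.centralizer ({x⁻¹} : Set G) = Subgroup.centralizer ({x} : Set G) := by
  ext g
  rw [Subgroup.mem_centralizer_singleton_iff, Subgroup.mem_centralizer_singleton_iff]
  constructor
  · intro h
    have h1 : Commute g x⁻¹ := h
    exact Commute.inv_right_iff.1 h1
  · intro h
    have h1 : Commute g x := h
    exact h1.inv_right

theorem DC.inv {D : Subgroup G} {x : G} (h : DC p D x) : DC p D x⁻¹ := by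
  refine ⟨by rw [orderOf_inv]; exact h.1, ?_, ?_⟩
  · rw [centralizer_singleton_inv]; exact h.2.1
  · rw [centralizer_singleton_inv]; exact h.2.2

theorem sylow_iff {D : Subgroup G} (hD : IsPGroup p D) (K : Subgroup G) :
    (∃ Q : Sylow p K, (Q : Subgroup K).map K.subtype = D) ↔ D ≤ K ∧ ¬ p ∣ D.relIndex K := by
  constructor
  · rintro ⟨Q, rfl⟩
    exact ⟨Subgroup.map_subtype_le _, relIndex_sylow_map Q⟩
  · rintro ⟨h1, h2⟩
    obtain ⟨P, hP⟩ := exists_sylow_of hD h1 h2
    exact ⟨P, hP.symm⟩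

theorem map_conj_normal (D : Subgroup G) [D.Normal] (u : G) :
    D.map (MulAut.conj u).toMonoidHom = D :=
  map_conj_of_mem_normalizer (by rw [Subgroup.normalizer_eq_top D]; exact Subgroup.mem_top u)

/-- If a central character of a block with defect group `D` (normal) does not vanish at `x` then
`D` is contained in the Sylow subgroups of the centralizer of `x`. -/
theorem le_of_centralChar_ne (hM : IsPModular p M) {D : Subgroup G} [D.Normal]
    {B : Set (IrrCharacter G)} (hB : IsPBlock M B) (hD : IsDef p ⊤ (eB M B) D)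
    {χ : IrrCharacter G} (hχ : χ ∈ B) {x : G} (hx : rd M (centralChar (χ : G → ℂ) x) ≠ 0)
    {E : Subgroup G} (hE : E ≤ Subgroup.centralizer ({x} : Set G))
    (hES : ¬ p ∣ E.relIndex (Subgroup.centralizer ({x} : Set G))) : D ≤ E := by
  have hchar := charP_kM hM
  have h1 : ¬ IsNilpotent (clsSum ⊤ x * eB M B) := by
    rw [isNilpotent_mul_eB_iff hB hχ (fixed_clsSum ⊤ x), lam_clsSum]
    exact hx
  obtain ⟨a, -, ha, hat⟩ := (isBlk_eB hB).exists_trace (p := p) (Subgroup.mem_top x) h1 (D := E)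
    (by rw [inf_top_eq]; exact hE) (by rw [inf_top_eq]; exact hES)
  have h2 := hD.br_ne
  rw [← hat] at h2
  obtain ⟨u, -, hu⟩ := exists_le_of_trace le_top hD.isPGroup le_top ha h2
  rw [le_map_conj_iff, map_conj_normal] at hu
  exact hu

/-- If the block idempotent does not vanish at `x` then the `p`-subgroups of `C (x)` lie in `D`. -/
theorem le_of_coeff_ne (hM : IsPModular p M) {D : Subgroup G} [D.Normal]
    {B : Set (IrrCharacter G)} (hD : IsDef p ⊤ (eB M B) D)
    {x : G} (hx : (eB M B).coeff x ≠ 0)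
    {E : Subgroup G} (hEp : IsPGroup p E) (hE : E ≤ Subgroup.centralizer ({x} : Set G)) :
    E ≤ D := by
  have hchar := charP_kM hM
  obtain ⟨u, -, hu⟩ := hD.le_of_br_ne le_top hEp (br_ne_zero_of_coeff hx hE)
  rwa [map_conj_normal] at hu

theorem dc_of_ne (hM : IsPModular p M) {D : Subgroup G} [D.Normal]
    {B B' : Set (IrrCharacter G)} (hB : IsPBlock M B) (hB' : IsPBlock M B')
    (hD : IsDef p ⊤ (eB M B) D) (hD' : IsDef p ⊤ (eB M B') D) {x : G}
    (hx : (eB M B).coeff x ≠ 0) {χ : IrrCharacter G} (hχ : χ ∈ B')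
    (hx' : rd M (centralChar (χ : G → ℂ) x) ≠ 0) : DC p D x := by
  obtain ⟨E, hEp, hE, hES⟩ := exists_sylow_like p (Subgroup.centralizer ({x} : Set G))
  have h1 := le_of_centralChar_ne hM hB' hD' hχ hx' hE hES
  have h2 := le_of_coeff_ne hM hD hx hEp hE
  have h3 : E = D := le_antisymm h2 h1
  rw [h3] at hE hES
  refine ⟨fun h => hx ?_, hE, hES⟩
  rw [eB, redc_coeff, blockCoeff_eq_zero_of_dvd hM hB h, rd_zero]

/-- A block with a central character not vanishing at a class with defect group `D`. -/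
theorem isDef_of_centralChar_ne (hM : IsPModular p M) {D : Subgroup G} [D.Normal]
    (hDp : IsPGroup p D) {B : Set (IrrCharacter G)} (hB : IsPBlock M B)
    {χ : IrrCharacter G} (hχ : χ ∈ B) {x : G} (hx : rd M (centralChar (χ : G → ℂ) x) ≠ 0)
    (hDC : DC p D x) : IsDef p ⊤ (eB M B) D := by
  have hchar := charP_kM hM
  have h1 : ¬ IsNilpotent (clsSum ⊤ x * eB M B) := by
    rw [isNilpotent_mul_eB_iff hB hχ (fixed_clsSum ⊤ x), lam_clsSum]
    exact hx
  obtain ⟨E, hE⟩ := (isBlk_eB hB).exists_isDef p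
  have hDE : D ≤ E := (isBlk_eB hB).normal_le_def hE le_top
    (by rw [Subgroup.normalizer_eq_top D]) hDp
  obtain ⟨a, -, ha, hat⟩ := (isBlk_eB hB).exists_trace (p := p) (Subgroup.mem_top x) h1 (D := D)
    (by rw [inf_top_eq]; exact hDC.2.1) (by rw [inf_top_eq]; exact hDC.2.2)
  have h2 := hE.br_ne
  rw [← hat] at h2
  obtain ⟨u, -, hu⟩ := exists_le_of_trace le_top hE.isPGroup le_top ha h2
  rw [map_conj_normal] at hu
  rw [← le_antisymm hu hDE]
  exact hE

/-- orthogonality over the classes with defect group `D` -/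
theorem sum_iota (hM : IsPModular p M) {D : Subgroup G} [D.Normal] {ι : Type*} [Fintype ι]
    (y : ι → G) (hinj : ∀ i j, IsConj (y i) (y j) → i = j)
    (hsurj : ∀ x, DC p D x → ∃ i, IsConj (y i) x) {B B' : Set (IrrCharacter G)}
    (hB : IsPBlock M B) (hB' : IsPBlock M B') (hD : IsDef p ⊤ (eB M B) D)
    (hD' : IsDef p ⊤ (eB M B') D) {χ : IrrCharacter G} (hχ : χ ∈ B')
    [DecidableEq (Set (IrrCharacter G))] :
    ∑ i : ι, (eB M B).coeff (y i) * rd M (centralChar (χ : G → ℂ) (y i)) =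
      if B = B' then 1 else 0 := by
  classical
  have : Finite (ConjClasses G) := Quotient.finite _
  have := Fintype.ofFinite (ConjClasses G)
  rw [← sum_classes_eB hB hB' hχ]
  have hy : ∀ i, (eB M B).coeff (y i) * rd M (centralChar (χ : G → ℂ) (y i)) =
      (eB M B).coeff (rp (ConjClasses.mk (y i))) *
        rd M (centralChar (χ : G → ℂ) (rp (ConjClasses.mk (y i)))) := by
    intro i
    have h1 : IsConj (y i) (rp (ConjClasses.mk (y i))) :=
      (ConjClasses.mk_eq_mk_iff_isConj.1 (mk_rp (ConjClasses.mk (y i)))).symm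
    rw [centralChar_eq_of_isConj χ h1]
    obtain ⟨u, hu⟩ := isConj_iff.1 h1
    rw [← hu, (fixed_eB B).coeff_conj (Subgroup.mem_top u)]
  rw [Finset.sum_congr rfl fun i _ => hy i]
  rw [← Finset.sum_subset (Finset.subset_univ (Finset.univ.image (fun i : ι =>
    ConjClasses.mk (y i))))]
  · rw [Finset.sum_image]
    intro i _ j _ h
    exact hinj i j (ConjClasses.mk_eq_mk_iff_isConj.1 h)
  · intro c _ hc
    by_contra hne
    have h1 : (eB M B).coeff (rp c) ≠ 0 := left_ne_zero_of_mul hne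
    have h2 : rd M (centralChar (χ : G → ℂ) (rp c)) ≠ 0 := right_ne_zero_of_mul hne
    obtain ⟨i, hi⟩ := hsurj _ (dc_of_ne hM hB hB' hD hD' h1 hχ h2)
    apply hc
    refine Finset.mem_image.2 ⟨i, Finset.mem_univ _, ?_⟩
    rw [ConjClasses.mk_eq_mk_iff_isConj.2 hi, mk_rp]

theorem card_eq_relIndex {D : Subgroup G} {x : G} (h : DC p D x) :
    Nat.card (Subgroup.centralizer ({x} : Set G)) =
      Nat.card D * D.relIndex (Subgroup.centralizer ({x} : Set G)) := by
  have h1 := Subgroup.relIndex_mul_relIndex (⊥ : Subgroup G) D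
    (Subgroup.centralizer ({x} : Set G)) bot_le h.2.1
  rw [Subgroup.relIndex_bot_left, Subgroup.relIndex_bot_left] at h1
  exact h1.symm

/-- `χ(1) ω_χ(x) |D| / |G|` is a local integer -/
theorem mlr_aux (hM : IsPModular p M) {D : Subgroup G} {x : G} (h : DC p D x)
    (χ : IrrCharacter G) : MemLocalRing M ((χ : G → ℂ) 1 * centralChar (χ : G → ℂ) x *
      (Nat.card D : ℂ) / (Nat.card G : ℂ)) := by
  have h1 := card_eq_relIndex h
  have h2 := Subgroup.card_mul_index (Subgroup.centralizer ({x} : Set G))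
  set r := D.relIndex (Subgroup.centralizer ({x} : Set G)) with hr
  have hr0 : (r : ℂ) ≠ 0 := by
    have : r ≠ 0 := fun h0 => h.2.2 (by rw [← hr, h0]; exact dvd_zero p)
    exact_mod_cast this
  have hD0 : (Nat.card D : ℂ) ≠ 0 := by exact_mod_cast Nat.card_pos.ne'
  have hi0 : ((Subgroup.centralizer ({x} : Set G)).index : ℂ) ≠ 0 := by
    exact_mod_cast Subgroup.index_ne_zero_of_finite
  have h3 : (χ : G → ℂ) 1 * centralChar (χ : G → ℂ) x * (Nat.card D : ℂ) / (Nat.card G : ℂ) =
      (χ : G → ℂ) x * (r : ℂ)⁻¹ := by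
    unfold centralChar
    rw [← h2, h1]
    push_cast
    have := irr_one_ne_zero χ.2
    field_simp
  rw [h3]
  exact mlr_mul (mlr_irr χ x) (mlr_natCast_inv hM h.2.2)

end blocks

section entries

variable {G : Type*} [Group G] [Fintype G] {M : Ideal AlgInt} [hMp : M.IsPrime] {p : ℕ}
  [hp : Fact p.Prime]

/-- the number of pairs -/
noncomputable def WW (x y : G) (S : Subgroup G) : ℕ :=
  Nat.card {yz : G × G // IsConj x yz.1 ∧ IsConj y yz.2 ∧ yz.2 * yz.1⁻¹ ∈ S}

/-- the contribution of a character -/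
noncomputable def tt (D S : Subgroup G) [Fintype S] (x y : G) (χ : G → ℂ) : ℂ :=
  mSub S χ * (χ 1 * (Nat.card D : ℂ) / (Nat.card G : ℂ)) *
    (centralChar χ y * centralChar χ x⁻¹)

theorem WW_mul_div (D S : Subgroup G) [Fintype S] [Fintype (IrrCharacter G)] (x y : G) :
    (WW x y S : ℂ) * (Nat.card D : ℂ) / (Nat.card S : ℂ) =
      ∑ χ : IrrCharacter G, tt D S x y (χ : G → ℂ) := by
  have hS : (Nat.card S : ℂ) ≠ 0 := by exact_mod_cast Nat.card_pos.ne'
  unfold WW
  rw [card_pairs_eq, sum_subgroup_eq S (conv_isClassFunction (classInd_isClassFunction y)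
    (classInd_isClassFunction x⁻¹)) (conv_real (classInd_real y) (classInd_real x⁻¹)),
    Finset.sum_mul, Finset.sum_div]
  refine Finset.sum_congr rfl fun χ _ => ?_
  rw [omega_conv χ.2 (classInd_isClassFunction y), ← centralChar_eq_omega,
    ← centralChar_eq_omega]
  unfold tt
  field_simp

theorem mlr_mSub (S : Subgroup G) [Fintype S] (χ : IrrCharacter G) :
    MemLocalRing M (mSub S (χ : G → ℂ)) := by
  obtain ⟨n, hn⟩ := mSub_nat S χ
  rw [hn]; exact mlr_natCast n

theorem tt_eq (D S : Subgroup G) [Fintype S] (x y : G) (χ : IrrCharacter G) :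
    tt D S x y (χ : G → ℂ) = mSub S (χ : G → ℂ) * centralChar (χ : G → ℂ) y *
      ((χ : G → ℂ) 1 * centralChar (χ : G → ℂ) x⁻¹ * (Nat.card D : ℂ) / (Nat.card G : ℂ)) := by
  unfold tt; ring

theorem mlr_tt (hM : IsPModular p M) {D : Subgroup G} (S : Subgroup G) [Fintype S] {x : G}
    (hx : DC p D x) (y : G) (χ : IrrCharacter G) : MemLocalRing M (tt D S x y (χ : G → ℂ)) := by
  rw [tt_eq]
  exact mlr_mul (mlr_mul (mlr_mSub S χ) (mlr_centralChar χ y)) (mlr_aux hM hx.inv χ)

theorem rd_tt_eq_zero (hM : IsPModular p M) {D : Subgroup G} (S : Subgroup G) [Fintype S] {x : G}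
    (hx : DC p D x) (y : G) (χ : IrrCharacter G)
    (h : rd M (centralChar (χ : G → ℂ) y) = 0) : rd M (tt D S x y (χ : G → ℂ)) = 0 := by
  rw [rd_eq_zero_iff (mlr_tt hM S hx y χ), tt_eq]
  rw [rd_eq_zero_iff (mlr_centralChar χ y)] at h
  exact mli_mul_right (mli_mul_left (mlr_mSub S χ) h) (mlr_aux hM hx.inv χ)

theorem dvd_of_mlr_div (hM : IsPModular p M) {W k : ℕ} (h : MemLocalRing M ((W : ℂ) / (p ^ k : ℕ))) :
    p ^ k ∣ W := by
  have hpk : p ^ k ≠ 0 := pow_ne_zero _ hp.out.ne_zero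
  rcases Nat.eq_zero_or_pos W with h0 | h0
  · rw [h0]; exact dvd_zero _
  rw [hp.out.pow_dvd_iff_le_factorization h0.ne']
  by_contra hlt
  push Not at hlt
  have h1 : (p ^ k).factorization p = k := by
    rw [hp.out.factorization_pow, Finsupp.single_eq_same]
  have h2 := mli_div_of_lt hM h0.ne' (Or.inl (by rw [h1]; exact hlt) :
    W.factorization p < (p ^ k).factorization p ∨ p ^ k = 0)
  have h3 := mli_mul_left h h2
  have hac : ((p ^ k : ℕ) : ℂ) ≠ 0 := by exact_mod_cast hpk
  have hbc : (W : ℂ) ≠ 0 := by exact_mod_cast h0.ne'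
  rw [div_mul_div_comm, mul_comm, div_self (mul_ne_zero hac hbc)] at h3
  exact not_mli_one h3

theorem WW_entry (hM : IsPModular p M) {D : Subgroup G} (hDp : IsPGroup p D) (S : Sylow p G)
    [Fintype (S : Subgroup G)] [Fintype (IrrCharacter G)] {x : G} (hx : DC p D x) (y : G) :
    ((WW x y (S : Subgroup G) /
      p ^ ((Nat.card G).factorization p - (Nat.card D).factorization p) : ℕ) : kM M) =
      ∑ χ : IrrCharacter G, rd M (tt D (S : Subgroup G) x y (χ : G → ℂ)) := by
  have h1 := WW_mul_div D (S : Subgroup G) x y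
  obtain ⟨d, hd⟩ := IsPGroup.iff_card.1 hDp
  have hdf : (Nat.card D).factorization p = d := by
    rw [hd, hp.out.factorization_pow, Finsupp.single_eq_same]
  have hS : Nat.card (S : Subgroup G) = p ^ (Nat.card G).factorization p :=
    Sylow.card_eq_multiplicity S
  set a := (Nat.card G).factorization p with ha
  have hda : d ≤ a := by
    rw [ha, ← hp.out.pow_dvd_iff_le_factorization Nat.card_pos.ne', ← hd]
    exact Subgroup.card_subgroup_dvd_card D
  have hp0 : (p : ℂ) ≠ 0 := by exact_mod_cast hp.out.ne_zero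
  have h2 : (WW x y (S : Subgroup G) : ℂ) * (Nat.card D : ℂ) / (Nat.card (S : Subgroup G) : ℂ) =
      (WW x y (S : Subgroup G) : ℂ) / (p ^ (a - d) : ℕ) := by
    rw [hd, hS]
    have h3 : (p : ℂ) ^ a = (p : ℂ) ^ (a - d) * (p : ℂ) ^ d := by
      rw [← pow_add, Nat.sub_add_cancel hda]
    push_cast
    rw [h3]
    have := pow_ne_zero d hp0
    have := pow_ne_zero (a - d) hp0
    field_simp
  rw [h2] at h1
  have h3 : MemLocalRing M ((WW x y (S : Subgroup G) : ℂ) / (p ^ (a - d) : ℕ)) := by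
    rw [h1]
    exact mlr_sum _ _ fun χ _ => mlr_tt hM _ hx y χ
  have h4 := dvd_of_mlr_div hM h3
  rw [hdf, ← rd_natCast, Nat.cast_div h4 (by exact_mod_cast pow_ne_zero _ hp.out.ne_zero), h1,
    rd_sum _ _ fun χ _ => mlr_tt hM _ hx y χ]

/-- the degrees in a block with defect group `D` -/
theorem mlr_degree (hM : IsPModular p M) {D : Subgroup G} {B : Set (IrrCharacter G)}
    (hB : IsPBlock M B) (hDB : IsDefectGroup p M B D) {χ : IrrCharacter G} (hχ : χ ∈ B) :
    MemLocalRing M ((χ : G → ℂ) 1 * (Nat.card D : ℂ) / (Nat.card G : ℂ)) := by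
  have hcard := BlkInd.card_defectGroup hM hB hDB
  have h1 := BlkC.defect_add_nuMin (p := p) (isPBlock_nonempty hB)
  have h2 := BlkC.nuMin_le (p := p) hχ
  rw [BlkC.charDegree_spec, ← Nat.cast_mul]
  have h3 : (charDegree (χ : G → ℂ) * Nat.card D).factorization p =
      (charDegree (χ : G → ℂ)).factorization p + blockDefect p B := by
    rw [Nat.factorization_mul (BlkC.charDegree_pos χ).ne' Nat.card_pos.ne', Finsupp.add_apply,
      hcard, hp.out.factorization_pow, Finsupp.single_eq_same]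
  refine mlr_div_of_le hM Nat.card_pos.ne' (Or.inl ?_)
  rw [h3]
  unfold BlkC.nu at h2
  omega

/-- the coefficient of a block -/
noncomputable def cc (M : Ideal AlgInt) [M.IsPrime] (D S : Subgroup G) [Fintype S]
    (B : Set (IrrCharacter G)) : kM M :=
  ∑ χ ∈ BlkC.Bfin B, rd M (mSub S (χ : G → ℂ) *
    ((χ : G → ℂ) 1 * (Nat.card D : ℂ) / (Nat.card G : ℂ)))

theorem cc_ne_zero (hM : IsPModular p M) {D : Subgroup G} {B : Set (IrrCharacter G)}
    (hB : IsPBlock M B) (hDB : IsDefectGroup p M B D) (S : Sylow p G)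
    [Fintype (S : Subgroup G)] : cc M D (S : Subgroup G) B ≠ 0 := by
  classical
  have hmlr : ∀ χ ∈ BlkC.Bfin B, MemLocalRing M (mSub (S : Subgroup G) (χ : G → ℂ) *
      ((χ : G → ℂ) 1 * (Nat.card D : ℂ) / (Nat.card G : ℂ))) := fun χ hχ =>
    mlr_mul (mlr_mSub _ χ) (mlr_degree hM hB hDB (BlkC.mem_Bfin.1 hχ))
  unfold cc
  rw [← rd_sum _ _ hmlr, Ne, rd_eq_zero_iff (mlr_sum _ _ hmlr)]
  have hS0 : (Nat.card (S : Subgroup G) : ℂ) ≠ 0 := by exact_mod_cast Nat.card_pos.ne'
  have hG0 : (Nat.card G : ℂ) ≠ 0 := by exact_mod_cast Nat.card_pos.ne'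
  -- evaluate the sum
  have h1 : ∑ χ ∈ BlkC.Bfin B, mSub (S : Subgroup G) (χ : G → ℂ) *
      ((χ : G → ℂ) 1 * (Nat.card D : ℂ) / (Nat.card G : ℂ)) =
      ((Nat.card D * ∑ χ ∈ BlkC.Bfin B, charDegree (χ : G → ℂ) ^ 2 : ℕ) : ℂ) /
        ((Nat.card G * Nat.card (S : Subgroup G) : ℕ) : ℂ) := by
    have h2 : ∑ χ ∈ BlkC.Bfin B, (χ : G → ℂ) 1 * ∑ s : (S : Subgroup G), conj ((χ : G → ℂ) s) =
        ∑ χ ∈ BlkC.Bfin B, ((charDegree (χ : G → ℂ) ^ 2 : ℕ) : ℂ) := by
      simp_rw [Finset.mul_sum]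
      rw [Finset.sum_comm, Finset.sum_eq_single (1 : (S : Subgroup G))]
      · refine Finset.sum_congr rfl fun χ _ => ?_
        rw [Subgroup.coe_one, BlkC.charDegree_spec]
        push_cast
        rw [Complex.conj_natCast]; ring
      · intro s _ hs
        refine BlkC.sum_degree_mul_conj_eq_zero (p := p) hM hB ?_
        have h3 : (s : G) ≠ 1 := fun h => hs (Subtype.ext h)
        obtain ⟨k, hk⟩ := IsPGroup.iff_orderOf.1 S.isPGroup' s
        rw [← Subgroup.orderOf_coe] at hk
        rw [hk]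
        refine dvd_pow_self p ?_
        rintro rfl
        rw [pow_zero, orderOf_eq_one_iff] at hk
        exact h3 hk
      · intro h; exact absurd (Finset.mem_univ _) h
    push_cast
    rw [← Nat.cast_sum] at h2
    rw [eq_div_iff (mul_ne_zero hG0 hS0)]
    have h3 : ∀ χ ∈ BlkC.Bfin B, mSub (S : Subgroup G) (χ : G → ℂ) *
        ((χ : G → ℂ) 1 * (Nat.card D : ℂ) / (Nat.card G : ℂ)) *
        ((Nat.card G : ℂ) * (Nat.card (S : Subgroup G) : ℂ)) =
        (Nat.card D : ℂ) * ((χ : G → ℂ) 1 * ∑ s : (S : Subgroup G), conj ((χ : G → ℂ) s)) := by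
      intro χ _
      rw [sum_conj_eq_mSub]
      field_simp
    rw [Finset.sum_mul, Finset.sum_congr rfl h3, ← Finset.mul_sum, h2]
    push_cast
    rfl
  rw [h1]
  intro hmli
  have hfac := BlkC.factorization_sum_sq (p := p) hM hB
  have hcard := BlkInd.card_defectGroup hM hB hDB
  have hS : Nat.card (S : Subgroup G) = p ^ (Nat.card G).factorization p :=
    Sylow.card_eq_multiplicity S
  have hle : blockDefect p B ≤ (Nat.card G).factorization p := by
    have := BlkC.defect_add_nuMin (p := p) (isPBlock_nonempty hB); omega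
  have hsum0 : ∑ χ ∈ BlkC.Bfin B, charDegree (χ : G → ℂ) ^ 2 ≠ 0 := by
    obtain ⟨χ, hχ⟩ := isPBlock_nonempty hB
    have := Finset.single_le_sum (f := fun χ : IrrCharacter G => charDegree (χ : G → ℂ) ^ 2)
      (fun _ _ => Nat.zero_le _) (BlkC.mem_Bfin.2 hχ)
    have h5 : 0 < charDegree (χ : G → ℂ) ^ 2 := pow_pos (BlkC.charDegree_pos χ) 2
    omega
  rcases lt_of_mli_div hM (mul_ne_zero Nat.card_pos.ne' Nat.card_pos.ne') hmli with h2 | h2
  · rw [mul_eq_zero] at h2
    rcases h2 with h2 | h2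
    · exact Nat.card_pos.ne' h2
    · exact hsum0 h2
  · rw [Nat.factorization_mul Nat.card_pos.ne' Nat.card_pos.ne',
      Nat.factorization_mul Nat.card_pos.ne' hsum0, Finsupp.add_apply, Finsupp.add_apply, hfac,
      hcard, hS, hp.out.factorization_pow, hp.out.factorization_pow, Finsupp.single_eq_same,
      Finsupp.single_eq_same] at h2
    omega

theorem rd_tt_of_mem (hM : IsPModular p M) {D : Subgroup G} (S : Subgroup G) [Fintype S]
    (x y : G) {B : Set (IrrCharacter G)} (hB : IsPBlock M B) (hDB : IsDefectGroup p M B D)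
    {χ χ' : IrrCharacter G} (hχ : χ ∈ B) (hχ' : χ' ∈ B) :
    rd M (tt D S x y (χ : G → ℂ)) = rd M (mSub S (χ : G → ℂ) *
      ((χ : G → ℂ) 1 * (Nat.card D : ℂ) / (Nat.card G : ℂ))) *
        (rd M (centralChar (χ' : G → ℂ) y) * rd M (centralChar (χ' : G → ℂ) x⁻¹)) := by
  have h1 : ∀ z : G, rd M (centralChar (χ : G → ℂ) z) = rd M (centralChar (χ' : G → ℂ) z) :=
    fun z => (rd_eq_iff (mlr_centralChar _ _) (mlr_centralChar _ _)).2
      ((sameBlock_of_mem hB hχ hχ') z)
  unfold tt
  rw [rd_mul (mlr_mul (mlr_mSub S χ) (mlr_degree hM hB hDB hχ))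
    (mlr_mul (mlr_centralChar _ _) (mlr_centralChar _ _)),
    rd_mul (mlr_centralChar _ _) (mlr_centralChar _ _), h1, h1]

end entries

end Cfsg.Agent.H76
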