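import Mathlib
import Cfsg.Agent.H92.RtPhi

set_option autoImplicit false
set_option linter.unusedVariables false
set_option linter.unusedSectionVars false

/-! S2755 (K1), (K3): the class functions `φ_θ` (helper76). -/

namespace Cfsg.Agent.H76.Rt

open Cfsg Cfsg.Agent Cfsg.Agent.H92.Rt
open scoped ComplexConjugate

section

variable {K : Type*} [Group K] [Finite K] {q m : ℕ} {U A : Subgroup K} {k s r : K}

theorem q3' (D : KD q m U A k s r) : 3 ∣ q := by
  obtain ⟨N, hN⟩ := D.q3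
  have h27 := D.q27
  rcases Nat.eq_zero_or_pos N with h | h
  · rw [h, pow_zero] at hN; omega
  · rw [hN]; exact dvd_pow_self 3 h.ne'

theorem m3 (D : KD q m U A k s r) : ¬ 3 ∣ m := by
  have h1 := q3' D
  have h2 := D.qm
  omega

theorem order_A (D : KD q m U A k s r) {a : K} (ha : a ∈ A) : orderOf a ∣ m := by
  rw [← D.cardA]
  exact Subgroup.orderOf_dvd_natCard _ ha

theorem A3 (D : KD q m U A k s r) {a : K} (ha : a ∈ A) (h : a ^ 3 = 1) : a = 1 := by
  rcases (Nat.dvd_prime Nat.prime_three).1 (orderOf_dvd_of_pow_eq_one h) with h1 | h1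
  · exact orderOf_eq_one_iff.1 h1
  · exact absurd (h1 ▸ order_A D ha) (m3 D)

theorem U_le_B : U ≤ Subgroup.normalizer (U : Set K) := Subgroup.le_normalizer

/-- `q = 1 + 2 j`, `|B| = q j` -/
theorem exists_j (D : KD q m U A k s r) : ∃ j : ℕ, q = 2 * j + 1 ∧
    Nat.card (Subgroup.normalizer (U : Set K)) = q * j := by
  have h1 := D.qm
  have h2 := D.cardNU
  have h3 := D.q27
  have hj : q = 2 * (2 * m - 1) + 1 := by omega
  refine ⟨2 * m - 1, hj, ?_⟩
  have h4 : q - 1 = 2 * (2 * m - 1) := by omega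
  rw [h4] at h2
  have h5 : Nat.card (Subgroup.normalizer (U : Set K)) * 2 = (q * (2 * m - 1)) * 2 := by
    rw [h2]; ring
  exact Nat.eq_of_mul_eq_mul_right (by norm_num) h5

theorem B3 (D : KD q m U A k s r) {b : K} (hb : b ∈ Subgroup.normalizer (U : Set K)) (h : b ^ 3 = 1) :
    b ∈ U := by
  obtain ⟨j, hj, hB⟩ := exists_j D
  have hq3 := q3' D
  have hj3 : ¬ 3 ∣ j := by omega
  -- the index of `U` in `B` is `j`
  have hn : (U.subgroupOf (Subgroup.normalizer (U : Set K))).Normal := inferInstance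
  have h1 : (U.subgroupOf (Subgroup.normalizer (U : Set K))).index = j := by
    have h2 := Subgroup.card_mul_index (U.subgroupOf (Subgroup.normalizer (U : Set K)))
    have h3 : Nat.card (U.subgroupOf (Subgroup.normalizer (U : Set K))) = q := by
      rw [← D.cardU]
      exact Nat.card_congr (Subgroup.subgroupOfEquivOfLe U_le_B).toEquiv
    rw [h3, hB] at h2
    exact Nat.eq_of_mul_eq_mul_left (by have := D.q27; omega) h2
  have h4 : (⟨b, hb⟩ : Subgroup.normalizer (U : Set K)) ^ j ∈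
      U.subgroupOf (Subgroup.normalizer (U : Set K)) := by
    have h5 := Subgroup.pow_index_mem (U.subgroupOf (Subgroup.normalizer (U : Set K)))
      (⟨b, hb⟩ : Subgroup.normalizer (U : Set K))
    rw [h1] at h5
    exact h5
  have h5 : b ^ j ∈ U := h4
  -- `b` is a power of `b ^ j`
  have h6 : j % 3 = 1 ∨ j % 3 = 2 := by omega
  have h7 : b ^ j = b ^ (j % 3) := by
    conv_lhs => rw [← Nat.div_add_mod j 3, pow_add, pow_mul, h, one_pow, one_mul]
  rcases h6 with h6 | h6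
  · rw [h7, h6, pow_one] at h5; exact h5
  · rw [h7, h6] at h5
    have h8 : b = b ^ 2 * b ^ 2 := by
      calc b = b ^ 3 * b := by rw [h, one_mul]
        _ = b ^ 2 * b ^ 2 := by group
    rw [h8]
    exact mul_mem h5 h5

/-- elements of `B` are not conjugate to elements of `A#` -/
theorem B_not_A (D : KD q m U A k s r) {b g : K} (hb : b ∈ Subgroup.normalizer (U : Set K))
    (h : g * b * g⁻¹ ∈ A) : b = 1 := by
  obtain ⟨j, hj, hB⟩ := exists_j D
  have h1 : orderOf b ∣ q * j := by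
    rw [← hB]; exact Subgroup.orderOf_dvd_natCard _ hb
  have h2 : orderOf b ∣ m := by
    have h3 := order_A D h
    have h4 : orderOf (g * b * g⁻¹) = orderOf b := by
      have := MulEquiv.orderOf_eq (MulAut.conj g) b
      rwa [MulAut.conj_apply] at this
    rwa [h4] at h3
  have h4m := D.qm
  have hodd := D.modd
  -- coprimality
  have c1 : Nat.Coprime m q := by
    have h5 : Nat.Coprime (q + 1) q := by simp
    exact Nat.Coprime.coprime_dvd_left ⟨4, by rw [h4m]; ring⟩ h5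
  have c2 : Nat.Coprime m j := by
    have h6 : j + 1 = 2 * m := by omega
    have h7 : Nat.Coprime (j + 1) j := by simp
    exact Nat.Coprime.coprime_dvd_left ⟨2, by rw [h6]; ring⟩ h7
  have h8 := Nat.Coprime.eq_one_of_dvd ((c1.mul_right c2).coprime_dvd_left h2) h1
  exact orderOf_eq_one_iff.1 h8

open Classical in
/-- the class function -/
noncomputable def phi (q : ℕ) (A : Subgroup K) (θ : A →* ℂ) (y : K) : ℂ :=
  if y = 1 then (q : ℂ) - 1 else if y ^ 3 = 1 then -1 else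
    if h : ∃ a : A, ∃ g : K, g * y * g⁻¹ = a then -(θ h.choose + θ (h.choose)⁻¹) else 0

theorem phi_A (D : KD q m U A k s r) (θ : A →* ℂ) {y : K} (h1 : y ≠ 1) (h3 : y ^ 3 ≠ 1) {a : A} {g : K}
    (h : g * y * g⁻¹ = a) : phi q A θ y = -(θ a + θ a⁻¹) := by
  have hex : ∃ a : A, ∃ g : K, g * y * g⁻¹ = a := ⟨a, g, h⟩
  unfold phi
  rw [if_neg h1, if_neg h3, dif_pos hex]
  obtain ⟨g', hg'⟩ := hex.choose_spec
  set a' := hex.choose
  have ha1 : (a : K) ≠ 1 := by
    intro h0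
    apply h1
    rw [h0] at h
    have : y = g⁻¹ * (g * y * g⁻¹) * g := by group
    rw [this, h]; group
  have h5 : (g' * g⁻¹) * (a : K) * (g' * g⁻¹)⁻¹ = a' := by
    rw [← h, ← hg']; group
  rcases D.ATI (g' * g⁻¹) a a.2 ha1 (by rw [h5]; exact a'.2) with h6 | h6
  · rw [h5] at h6
    have h7 : a' = a := Subtype.ext h6
    rw [h7]
  · rw [h5] at h6
    have h7 : a' = a⁻¹ := Subtype.ext h6
    rw [h7, inv_inv, add_comm]

theorem phi_zero (θ : A →* ℂ) {y : K} (h1 : y ≠ 1) (h3 : y ^ 3 ≠ 1)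
    (h : ∀ g : K, g * y * g⁻¹ ∉ A) : phi q A θ y = 0 := by
  unfold phi
  rw [if_neg h1, if_neg h3, dif_neg]
  rintro ⟨a, g, hg⟩
  exact h g (hg ▸ a.2)

theorem phi_cases (D : KD q m U A k s r) (θ : A →* ℂ) (y : K) :
    (y = 1 ∧ phi q A θ y = (q : ℂ) - 1) ∨ (y ≠ 1 ∧ y ^ 3 = 1 ∧ phi q A θ y = -1) ∨
    (y ≠ 1 ∧ y ^ 3 ≠ 1 ∧ ∃ a : A, ∃ g : K, g * y * g⁻¹ = a ∧ phi q A θ y = -(θ a + θ a⁻¹)) ∨
    (y ≠ 1 ∧ y ^ 3 ≠ 1 ∧ (∀ g : K, g * y * g⁻¹ ∉ A) ∧ phi q A θ y = 0) := by
  by_cases h1 : y = 1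
  · left; refine ⟨h1, ?_⟩; unfold phi; rw [if_pos h1]
  · by_cases h3 : y ^ 3 = 1
    · right; left; refine ⟨h1, h3, ?_⟩; unfold phi; rw [if_neg h1, if_pos h3]
    · by_cases h : ∃ g : K, g * y * g⁻¹ ∈ A
      · obtain ⟨g, hg⟩ := h
        right; right; left
        exact ⟨h1, h3, ⟨_, hg⟩, g, rfl, phi_A D θ h1 h3 rfl⟩
      · push Not at h
        right; right; right
        exact ⟨h1, h3, h, phi_zero θ h1 h3 h⟩

theorem conj_hom {A : Type*} [Group A] [Finite A] (θ : A →* ℂ) (a : A) : conj (θ a) = θ a⁻¹ := by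
  have h1 : θ a * θ a⁻¹ = 1 := by rw [← map_mul, mul_inv_cancel, map_one]
  have h2 : (θ a) ^ (orderOf a) = 1 := by rw [← map_pow, pow_orderOf_eq_one, map_one]
  have h3 : ‖θ a‖ = 1 := by
    have h4 : ‖θ a‖ ^ (orderOf a) = 1 := by rw [← norm_pow, h2, norm_one]
    exact (pow_eq_one_iff_of_nonneg (norm_nonneg _) (orderOf_pos a).ne').1 h4
  have h4 : θ a * conj (θ a) = 1 := by
    rw [Complex.mul_conj, Complex.normSq_eq_norm_sq, h3]
    norm_num
  have h5 : θ a ≠ 0 := by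
    intro h; rw [h, zero_mul] at h1; exact zero_ne_one h1
  exact mul_left_cancel₀ h5 (h4.trans h1.symm)

/-- (K1) -/
theorem exists_phi (D : KD q m U A k s r) (θ : A →* ℂ) : ∃ φ : K → ℂ, IsPhi q U A θ φ := by
  have cp : ∀ (g y : K) (n : ℕ), (g * y * g⁻¹) ^ n = g * y ^ n * g⁻¹ := fun g y n => conj_pow.trans rfl
  have c1 : ∀ g y : K, g * y * g⁻¹ = 1 ↔ y = 1 := by
    intro g y
    constructor
    · intro h
      have : y = g⁻¹ * (g * y * g⁻¹) * g := by group
      rw [this, h]; group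
    · rintro rfl; group
  refine ⟨phi q A θ, ?_, ?_, ?_, ?_, ?_, ?_, ?_⟩
  · intro g y
    rcases phi_cases D θ y with ⟨h1, h⟩ | ⟨h1, h3, h⟩ | ⟨h1, h3, a, g', hg, h⟩ | ⟨h1, h3, h0, h⟩
    · rw [h1]; simp
    · rw [h]
      unfold phi
      rw [if_neg (fun h' => h1 ((c1 g y).1 h')), if_pos (by rw [cp, h3]; group)]
    · rw [h]
      refine phi_A D θ (fun h' => h1 ((c1 g y).1 h')) ?_ (a := a) (g := g' * g⁻¹) ?_
      · rw [cp]; exact fun h' => h3 ((c1 g _).1 h')
      · rw [← hg]; group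
    · rw [h]
      refine phi_zero θ (fun h' => h1 ((c1 g y).1 h')) ?_ ?_
      · rw [cp]; exact fun h' => h3 ((c1 g _).1 h')
      · intro g'
        have : g' * (g * y * g⁻¹) * g'⁻¹ = (g' * g) * y * (g' * g)⁻¹ := by group
        rw [this]; exact h0 _
  · intro y hy
    rcases phi_cases D θ y with ⟨h1, h⟩ | ⟨h1, h3, h⟩ | ⟨h1, h3, a, g', hg, h⟩ | ⟨h1, h3, h0, h⟩
    · exfalso; apply hy; rw [h1, orderOf_one]; exact odd_one
    · exfalso; apply hy
      rcases (Nat.dvd_prime Nat.prime_three).1 (orderOf_dvd_of_pow_eq_one h3) with h4 | h4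
      · rw [h4]; exact odd_one
      · rw [h4]; decide
    · exfalso; apply hy
      have h4 : orderOf (g' * y * g'⁻¹) = orderOf y := by
        have := MulEquiv.orderOf_eq (MulAut.conj g') y
        rwa [MulAut.conj_apply] at this
      rw [← h4, hg]
      exact Odd.of_dvd_nat D.modd (order_A D a.2)
    · exact h
  · unfold phi; rw [if_pos rfl]
  · intro x hx hx1
    unfold phi
    rw [if_neg hx1, if_pos (D.Uexp x hx)]
  · intro b hb hbU
    have hb1 : b ≠ 1 := fun h => hbU (h ▸ one_mem U)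
    refine phi_zero θ hb1 (fun h => hbU (B3 D hb h)) ?_
    intro g hg
    exact hb1 (B_not_A D hb hg)
  · intro a ha
    have ha1 : (a : K) ≠ 1 := fun h => ha (Subtype.ext h)
    exact phi_A D θ ha1 (fun h => ha1 (A3 D a.2 h)) (g := 1) (by group)
  · intro y
    rcases phi_cases D θ y with ⟨h1, h⟩ | ⟨h1, h3, h⟩ | ⟨h1, h3, a, g', hg, h⟩ | ⟨h1, h3, h0, h⟩
    · rw [h, map_sub, map_one, map_natCast]
    · rw [h, map_neg, map_one]
    · rw [h, map_neg, map_add, conj_hom, conj_hom, inv_inv, add_comm]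
    · rw [h, map_zero]

end

end Cfsg.Agent.H76.Rt
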