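import Mathlib
import Cfsg.Agent.H92.RtPhi
import Cfsg.Agent.H64.RtK0

set_option autoImplicit false
set_option linter.unusedVariables false
set_option linter.unusedSectionVars false

/-! S2755 (K3): orthogonality of the class functions `φ_θ` (helper76). -/

namespace Cfsg.Agent.H76.Rt

open Cfsg Cfsg.Agent Cfsg.Agent.H92.Rt
open scoped ComplexConjugate

/-- the conclusion of (K0) -/
def SF {K : Type*} [Group K] [Fintype K] (q : ℕ) (U A : Subgroup K)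
    [Fintype U] [Fintype A] [Fintype (Subgroup.normalizer (U : Set K))] (f : K → ℂ) : Prop :=
  2 * ∑ y : K, f y = 2 * f 1 + 2 * ((q : ℂ) + 1) * ((∑ x : U, f x) - f 1) +
      ((q : ℂ) + 1) * ((∑ b : Subgroup.normalizer (U : Set K), f b) - ∑ x : U, f x) +
      (q : ℂ) * ((q : ℂ) - 1) * ((∑ a : A, f a) - f 1)

section

variable {K : Type*} [Group K] [Fintype K] {q m : ℕ} {U A : Subgroup K} {k s r : K}

theorem sum_B {B U : Subgroup K} [Fintype U] [Fintype B] (h : U ≤ B) (f : K → ℂ)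
    (hf : ∀ b ∈ B, b ∉ U → f b = 0) : ∑ b : B, f b = ∑ x : U, f x := by
  classical
  have h1 : ∑ b : B, f b = ∑ b ∈ Finset.univ.filter (fun b : B => (b : K) ∈ U), f b := by
    rw [Finset.sum_filter]
    refine Finset.sum_congr rfl fun b _ => ?_
    split_ifs with h1
    · rfl
    · exact hf b b.2 h1
  rw [h1]
  symm
  refine Finset.sum_bij (fun (x : U) _ => (⟨x, h x.2⟩ : B)) ?_ ?_ ?_ ?_
  · intro x _
    rw [Finset.mem_filter]
    exact ⟨Finset.mem_univ _, x.2⟩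
  · intro x _ y _ hxy
    exact Subtype.ext (congrArg (fun z : B => (z : K)) hxy)
  · intro b hb
    rw [Finset.mem_filter] at hb
    exact ⟨⟨b, hb.2⟩, Finset.mem_univ _, rfl⟩
  · intro x _; rfl

theorem sum_U {U : Subgroup K} [Fintype U] (f : K → ℂ) {c : ℂ} (hf : ∀ x ∈ U, x ≠ 1 → f x = c) :
    ∑ x : U, f x = f 1 + ((Nat.card U : ℂ) - 1) * c := by
  classical
  rw [← Finset.add_sum_erase Finset.univ (fun x : U => f x) (Finset.mem_univ 1)]
  have h1 : ∑ x ∈ Finset.univ.erase (1 : U), f x = ∑ x ∈ Finset.univ.erase (1 : U), c := by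
    refine Finset.sum_congr rfl fun x hx => ?_
    exact hf x x.2 (fun h => (Finset.ne_of_mem_erase hx) (Subtype.ext h))
  rw [h1, Finset.sum_const, Finset.card_erase_of_mem (Finset.mem_univ _), Finset.card_univ,
    Nat.card_eq_fintype_card, nsmul_eq_mul, Nat.cast_sub Fintype.card_pos, Nat.cast_one]
  rfl

theorem sum_A {A : Subgroup K} [Fintype A] (f : K → ℂ) (g : A → ℂ) (hf : ∀ a : A, a ≠ 1 → f a = g a) :
    ∑ a : A, f a - f 1 = ∑ a : A, g a - g 1 := by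
  classical
  rw [← Finset.add_sum_erase Finset.univ (fun x : A => f x) (Finset.mem_univ 1),
    ← Finset.add_sum_erase Finset.univ g (Finset.mem_univ 1)]
  have h1 : ∑ x ∈ Finset.univ.erase (1 : A), f x = ∑ x ∈ Finset.univ.erase (1 : A), g x :=
    Finset.sum_congr rfl fun x hx => hf x (Finset.ne_of_mem_erase hx)
  rw [h1]
  change f 1 + _ - f 1 = _
  ring

/-- inverse hom -/
def invHom {A : Type*} [Group A] (θ : A →* ℂ) : A →* ℂ where
  toFun a := θ a⁻¹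
  map_one' := by rw [inv_one, map_one]
  map_mul' a b := by rw [mul_inv_rev, map_mul, mul_comm]

theorem total (D : KD q m U A k s r) [Fintype U] [Fintype A] [Fintype (Subgroup.normalizer (U : Set K))]
    {θ θ' : A →* ℂ} {φ φ' : K → ℂ} (hφ : IsPhi q U A θ φ) (hφ' : IsPhi q U A θ' φ')
    (h : SF q U A (fun y => φ y * φ' y)) :
    2 * ∑ y : K, φ y * φ' y = (q : ℂ) * ((q : ℂ) - 1) *
      (∑ a : A, (θ a * θ' a + θ a * θ' a⁻¹ + θ a⁻¹ * θ' a + θ a⁻¹ * θ' a⁻¹)) := by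
  unfold SF at h
  have h1 := sum_B (U := U) Subgroup.le_normalizer (fun y => φ y * φ' y) (fun b hb hbU => by
    rw [hφ.onB b hb hbU, zero_mul])
  have h2 := sum_U (U := U) (fun y => φ y * φ' y) (c := 1) (fun x hx hx1 => by
    rw [hφ.onU x hx hx1, hφ'.onU x hx hx1]; norm_num)
  have h3 := sum_A (A := A) (fun y => φ y * φ' y)
    (fun a => θ a * θ' a + θ a * θ' a⁻¹ + θ a⁻¹ * θ' a + θ a⁻¹ * θ' a⁻¹) (fun a ha => by
    rw [hφ.onA a ha, hφ'.onA a ha]; ring)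
  have h4 : θ 1 * θ' 1 + θ 1 * θ' 1⁻¹ + θ 1⁻¹ * θ' 1 + θ 1⁻¹ * θ' 1⁻¹ = 4 := by
    rw [inv_one, map_one, map_one]; norm_num
  rw [h4] at h3
  have h5 : φ 1 * φ' 1 = ((q : ℂ) - 1) ^ 2 := by
    rw [hφ.one, hφ'.one]; ring
  change 2 * ∑ y, φ y * φ' y = 2 * (φ 1 * φ' 1) + 2 * ((q : ℂ) + 1) * (∑ x : U, φ x * φ' x - φ 1 * φ' 1) +
    ((q : ℂ) + 1) * (∑ b : Subgroup.normalizer (U : Set K), φ b * φ' b - ∑ x : U, φ x * φ' x) +
    (q : ℂ) * ((q : ℂ) - 1) * (∑ a : A, φ a * φ' a - φ 1 * φ' 1) at h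
  rw [h3, h1, h2, D.cardU, h5] at h
  rw [h]
  ring

theorem sum_hom {A : Type*} [Group A] [Fintype A] (θ : A →* ℂ) (h : θ ≠ 1) : ∑ a : A, θ a = 0 :=
  sum_hom_units_eq_zero θ h

theorem phi_phi_of (D : KD q m U A k s r) [Fintype U] [Fintype A]
    [Fintype (Subgroup.normalizer (U : Set K))]
    {θ θ' : A →* ℂ} {φ φ' : K → ℂ} (hφ : IsPhi q U A θ φ) (hφ' : IsPhi q U A θ' φ')
    (hne : θ ≠ θ') (hne' : ∃ a : A, θ a ≠ θ' a⁻¹) (h : SF q U A (fun y => φ y * φ' y)) :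
    ∑ y : K, φ y * φ' y = 0 := by
  have h1 := total D hφ hφ' h
  have cancel : ∀ (η : A →* ℂ) (a : A), η a * η a⁻¹ = 1 := by
    intro η a; rw [← map_mul, mul_inv_cancel, map_one]
  have e1 : ∑ a : A, θ a * θ' a = 0 := by
    refine sum_hom (θ * θ') fun h0 => ?_
    obtain ⟨a, ha⟩ := hne'
    apply ha
    have h2 : θ a * θ' a = 1 := DFunLike.congr_fun h0 a
    calc θ a = θ a * (θ' a * θ' a⁻¹) := by rw [cancel, mul_one]
      _ = (θ a * θ' a) * θ' a⁻¹ := by ring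
      _ = θ' a⁻¹ := by rw [h2, one_mul]
  have e2 : ∑ a : A, θ a * θ' a⁻¹ = 0 := by
    refine sum_hom (θ * invHom θ') fun h0 => ?_
    apply hne
    ext a
    have h2 : θ a * θ' a⁻¹ = 1 := DFunLike.congr_fun h0 a
    calc θ a = θ a * (θ' a * θ' a⁻¹) := by rw [cancel, mul_one]
      _ = (θ a * θ' a⁻¹) * θ' a := by ring
      _ = θ' a := by rw [h2, one_mul]
  have e3 : ∑ a : A, θ a⁻¹ * θ' a = 0 := by
    rw [← e2, ← Equiv.sum_comp (Equiv.inv A) (fun a : A => θ a * θ' a⁻¹)]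
    refine Finset.sum_congr rfl fun a _ => ?_
    simp
  have e4 : ∑ a : A, θ a⁻¹ * θ' a⁻¹ = 0 := by
    rw [← e1, ← Equiv.sum_comp (Equiv.inv A) (fun a : A => θ a * θ' a)]
    rfl
  rw [Finset.sum_add_distrib, Finset.sum_add_distrib, Finset.sum_add_distrib, e1, e2, e3, e4] at h1
  have h2 : 2 * ∑ y : K, φ y * φ' y = 2 * 0 := by rw [h1]; ring
  exact mul_left_cancel₀ (by norm_num) h2

theorem phi_self_of (D : KD q m U A k s r) [Fintype U] [Fintype A]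
    [Fintype (Subgroup.normalizer (U : Set K))]
    {θ : A →* ℂ} (h1 : θ ≠ 1) {φ : K → ℂ} (hφ : IsPhi q U A θ φ)
    (h : SF q U A (fun y => φ y * φ y)) :
    4 * ∑ y : K, φ y * φ y = (q : ℂ) * ((q : ℂ) ^ 2 - 1) := by
  have h1' := total D hφ hφ h
  have cancel : ∀ (η : A →* ℂ) (a : A), η a * η a⁻¹ = 1 := by
    intro η a; rw [← map_mul, mul_inv_cancel, map_one]
  have hcA : Fintype.card A = m := by rw [← Nat.card_eq_fintype_card]; exact D.cardA
  have e1 : ∑ a : A, θ a * θ a = 0 := by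
    refine sum_hom (θ * θ) fun h0 => ?_
    apply h1
    ext a
    have h2 : θ a * θ a = 1 := DFunLike.congr_fun h0 a
    have h3 : θ a ^ m = 1 := by
      rw [← map_pow, ← hcA, pow_card_eq_one, map_one]
    obtain ⟨j, hj⟩ := D.modd
    rw [hj, pow_succ, pow_mul, pow_two, h2, one_pow, one_mul] at h3
    exact h3
  have e2 : ∑ a : A, θ a * θ a⁻¹ = m := by
    rw [Finset.sum_congr rfl fun a _ => cancel θ a, Finset.sum_const, Finset.card_univ, hcA]
    simp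
  have e3 : ∑ a : A, θ a⁻¹ * θ a = m := by
    rw [← e2]
    exact Finset.sum_congr rfl fun a _ => mul_comm _ _
  have e4 : ∑ a : A, θ a⁻¹ * θ a⁻¹ = 0 := by
    rw [← e1, ← Equiv.sum_comp (Equiv.inv A) (fun a : A => θ a * θ a)]
    rfl
  rw [Finset.sum_add_distrib, Finset.sum_add_distrib, Finset.sum_add_distrib, e1, e2, e3, e4] at h1'
  have h2 : (q : ℂ) + 1 = 4 * m := by exact_mod_cast D.qm
  linear_combination 2 * h1' - (q : ℂ) * ((q : ℂ) - 1) * h2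

theorem sf (D : KD q m U A k s r) [Fintype U] [Fintype A] [Fintype (Subgroup.normalizer (U : Set K))]
    {θ θ' : A →* ℂ} {φ φ' : K → ℂ} (hφ : IsPhi q U A θ φ) (hφ' : IsPhi q U A θ' φ') :
    SF q U A (fun y => φ y * φ' y) :=
  H64.Rt.sum_formula D (fun y => φ y * φ' y) (fun g y => by rw [hφ.cl, hφ'.cl])
    (fun y hy => by rw [hφ.sup y hy, zero_mul])

/-- (K3) -/
theorem phi_phi (D : KD q m U A k s r)
    {θ θ' : A →* ℂ} (h1 : θ ≠ 1) (h1' : θ' ≠ 1) {φ φ' : K → ℂ} (hφ : IsPhi q U A θ φ) (hφ' : IsPhi q U A θ' φ')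
    (hne : θ ≠ θ') (hne' : ∃ a : A, θ a ≠ θ' a⁻¹) : ∑ y : K, φ y * φ' y = 0 := by
  have := Fintype.ofFinite U
  have := Fintype.ofFinite A
  have := Fintype.ofFinite (Subgroup.normalizer (U : Set K))
  exact phi_phi_of D hφ hφ' hne hne' (sf D hφ hφ')

theorem phi_self (D : KD q m U A k s r)
    {θ : A →* ℂ} (h1 : θ ≠ 1) {φ : K → ℂ} (hφ : IsPhi q U A θ φ) :
    4 * ∑ y : K, φ y * φ y = (q : ℂ) * ((q : ℂ) ^ 2 - 1) := by
  have := Fintype.ofFinite U
  have := Fintype.ofFinite A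
  have := Fintype.ofFinite (Subgroup.normalizer (U : Set K))
  exact phi_self_of D h1 hφ (sf D hφ hφ)

theorem phi_same (D : KD q m U A k s r)
    {θ θ' : A →* ℂ} (h1 : θ ≠ 1) {φ φ' : K → ℂ} (hφ : IsPhi q U A θ φ) (hφ' : IsPhi q U A θ' φ')
    (h : θ' = θ ∨ ∀ a : A, θ' a = θ a⁻¹) :
    4 * ∑ y : K, φ y * φ' y = (q : ℂ) * ((q : ℂ) ^ 2 - 1) := by
  have := Fintype.ofFinite U
  have := Fintype.ofFinite A
  have := Fintype.ofFinite (Subgroup.normalizer (U : Set K))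
  have e1 := total D hφ hφ (sf D hφ hφ)
  have e2 := total D hφ hφ' (sf D hφ hφ')
  have e3 := phi_self D h1 hφ
  have e4 : ∑ a : A, (θ a * θ' a + θ a * θ' a⁻¹ + θ a⁻¹ * θ' a + θ a⁻¹ * θ' a⁻¹) =
      ∑ a : A, (θ a * θ a + θ a * θ a⁻¹ + θ a⁻¹ * θ a + θ a⁻¹ * θ a⁻¹) := by
    refine Finset.sum_congr rfl fun a _ => ?_
    rcases h with h | h
    · rw [h]
    · rw [h a, h a⁻¹, inv_inv]; ring
  rw [e4, ← e1] at e2
  have e5 : ∑ y : K, φ y * φ' y = ∑ y : K, φ y * φ y := mul_left_cancel₀ (by norm_num) e2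
  rw [e5, e3]

end

end Cfsg.Agent.H76.Rt
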